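import Cfsg.Agent.Lib.Helper47.QuadDefs

set_option autoImplicit false

namespace Cfsg.Agent.Lib.Helper23.Quad

open Cfsg.Agent.Lib.Helper47

variable {F : Type*} [Field F] [Fintype F]

theorem h23_card_fiber {ι : Type*} [Fintype ι] [DecidableEq ι] (x : ι → F) (hx : x ≠ 0) (c : F) :
    Nat.card {y : ι → F // ∑ i, x i * y i = c} = Fintype.card F ^ (Fintype.card ι - 1) := by
  classical
  obtain ⟨i0, hi0⟩ : ∃ i0, x i0 ≠ 0 := by
    by_contra h
    push Not at h
    exact hx (funext h)
  have e : {y : ι → F // ∑ i, x i * y i = c} ≃ ({j : ι // j ≠ i0} → F) :=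
    { toFun := fun y j => y.1 j.1
      invFun := fun z => ⟨fun i => if h : i = i0 then
          (c - ∑ j : {j : ι // j ≠ i0}, x j.1 * z j) / x i0 else z ⟨i, h⟩, by
        rw [Fintype.sum_eq_add_sum_subtype_ne _ i0]
        beta_reduce
        have h1 : ∀ j : {j : ι // j ≠ i0},
            x j.1 * (if h : j.1 = i0 then (c - ∑ j : {j : ι // j ≠ i0}, x j.1 * z j) / x i0
              else z ⟨j.1, h⟩) = x j.1 * z j := by
          intro j
          rw [dif_neg j.2]
        rw [Finset.sum_congr rfl (fun j _ => h1 j), dif_pos rfl]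
        field_simp
        ring⟩
      left_inv := fun y => by
        apply Subtype.ext
        funext i
        by_cases h : i = i0
        · simp only [dif_pos h]
          subst h
          have h2 := y.2
          rw [Fintype.sum_eq_add_sum_subtype_ne _ i] at h2
          rw [div_eq_iff hi0]
          linear_combination h2.symm
        · simp only [dif_neg h]
      right_inv := fun z => by
        funext j
        simp only [dif_neg j.2] }
  rw [Nat.card_congr e, Nat.card_eq_fintype_card, Fintype.card_fun, Fintype.card_subtype_compl,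
    Fintype.card_subtype_eq]

theorem h23_card_dot {ι : Type*} [Fintype ι] [DecidableEq ι] [DecidableEq F] (c : F) :
    Nat.card {p : (ι → F) × (ι → F) // ∑ i, p.1 i * p.2 i = c} =
      (if c = 0 then Fintype.card F ^ Fintype.card ι else 0) +
        (Fintype.card F ^ Fintype.card ι - 1) * Fintype.card F ^ (Fintype.card ι - 1) := by
  classical
  rw [Nat.card_congr (Equiv.subtypeProdEquivSigmaSubtype
    (fun (x y : ι → F) => ∑ i, x i * y i = c)), Nat.card_sigma,
    ← Finset.add_sum_erase Finset.univ _ (Finset.mem_univ (0 : ι → F))]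
  congr 1
  · by_cases hc : c = 0
    · rw [if_pos hc, hc]
      have e : {y : ι → F // ∑ i, (0 : ι → F) i * y i = 0} ≃ (ι → F) :=
        { toFun := fun y => y.1
          invFun := fun y => ⟨y, by simp⟩
          left_inv := fun y => rfl
          right_inv := fun y => rfl }
      rw [Nat.card_congr e, Nat.card_eq_fintype_card, Fintype.card_fun]
    · rw [if_neg hc]
      have : IsEmpty {y : ι → F // ∑ i, (0 : ι → F) i * y i = c} := by
        constructor
        rintro ⟨y, hy⟩
        apply hc
        rw [← hy]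
        simp
      exact Nat.card_of_isEmpty
  · rw [Finset.sum_congr rfl (fun x hx => h23_card_fiber x (Finset.ne_of_mem_erase hx) c),
      Finset.sum_const, Finset.card_erase_of_mem (Finset.mem_univ _), Finset.card_univ,
      Fintype.card_fun, smul_eq_mul]

theorem h23_typ_dot (k : ℕ) :
    IsTyp (fun p : (Fin (k + 1) → F) × (Fin (k + 1) → F) => ∑ i, p.1 i * p.2 i) k 1 := by
  classical
  have hq : 1 ≤ Fintype.card F ^ (k + 1) := Nat.one_le_pow _ _ Fintype.card_pos
  refine ⟨?_, fun c hc => ?_⟩
  · rw [h23_card_dot, if_pos rfl, Fintype.card_fin]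
    push_cast [Nat.cast_sub hq, Nat.add_sub_cancel]
    ring
  · rw [h23_card_dot, if_neg hc, Fintype.card_fin]
    push_cast [Nat.cast_sub hq, Nat.add_sub_cancel]
    ring

-- PIECE BALPLUS
theorem isTyp_quadFormPlus {F : Type*} [Field F] [Fintype F] (k : ℕ) :
    IsTyp (Cfsg.quadFormPlus (k + 1) F) k 1 := by
  refine IsTyp.of_equiv (Equiv.sumArrowEquivProdArrow (Fin (k + 1)) (Fin (k + 1)) F).symm ?_
    (h23_typ_dot k)
  intro p
  unfold Cfsg.quadFormPlus
  rfl

theorem isTyp_hyp {F : Type*} [Field F] [Fintype F] :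
    IsTyp (fun x : F × F => x.1 * x.2) 0 1 := by
  refine IsTyp.of_equiv ((Equiv.funUnique (Fin 1) F).prodCongr (Equiv.funUnique (Fin 1) F)) ?_
    (h23_typ_dot 0)
  intro p
  simp

end Cfsg.Agent.Lib.Helper23.Quad
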