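import Cfsg.Agent.Lib.Helper98.T73Defs
import Cfsg.Agent.Lib.Helper47.SpPrime

/-!
# Project T73 (S5973): piece TAUSGN

The sign `tauSign` of a multiset of cyclotomic factors: `(-1) ^ card` if `ord_r(q)` is even,
`1` if it is odd (self-duality dichotomy `Helper47.dualP_id_eq_self_iff`).
-/

set_option autoImplicit false

namespace Cfsg.Agent.Lib.Helper98.T73

open Cfsg.Agent.Lib.Helper47 Module Polynomial

universe u

variable {F : Type u} [Field F] [Fintype F] {V : Type u} [AddCommGroup V] [Module F V]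
  [FiniteDimensional F V] {Q : V → F} {B : V → V → F}

/-- TAUSGN -/
theorem tau_sgn (p : ℕ) [Fact p.Prime] [CharP F p] (r : ℕ) (hr : r.Prime) (hr2 : r ≠ 2)
    (hrp : r ≠ p) (u : Multiset F[X]) (hu : ∀ f ∈ u, IsCycFactor r f) :
    tauSign u = sgn (orderOf ((Fintype.card F : ℕ) : ZMod r)) (Multiset.card u) := by
  unfold sgn
  by_cases hev : Even (orderOf ((Fintype.card F : ℕ) : ZMod r))
  · rw [if_pos hev]
    exact tauSign_of_forall_self
      (fun f hf => (dualP_id_eq_self_iff (p := p) rfl hr hr2 hrp (hu f hf)).mpr hev)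
  · rw [if_neg hev]
    exact tauSign_of_forall_ne
      (fun f hf h => hev ((dualP_id_eq_self_iff (p := p) rfl hr hr2 hrp (hu f hf)).mp h))

end Cfsg.Agent.Lib.Helper98.T73
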