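import Mathlib

/-!
# Piece CYC for S3787 (helper17): a cyclic nilpotent block modulo an invariant subspace.
-/

set_option autoImplicit false

universe u v

namespace Cfsg.Agent.Lib.Helper23

theorem cyc_pow_mem {p : ℕ} {V : Type v} [AddCommGroup V] [Module (ZMod p) V]
    (T : Module.End (ZMod p) V) (C : Submodule (ZMod p) V)
    (hTC : ∀ u ∈ C, T u ∈ C) (k : ℕ) : ∀ u ∈ C, (T ^ k) u ∈ C := by
  induction k with
  | zero =>
    intro u hu
    simpa using hu
  | succ k ih =>
    intro u hu
    rw [pow_succ', Module.End.mul_apply]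
    exact hTC _ (ih u hu)

theorem cyc_key (p : ℕ) [Fact p.Prime] {V : Type v} [AddCommGroup V] [Module (ZMod p) V]
    (T : Module.End (ZMod p) V) (hT : T ^ p = 0) (C : Submodule (ZMod p) V)
    (hTC : ∀ u ∈ C, T u ∈ C) (v : V) (hv : (T ^ (p - 1)) v ∉ C) (d : ℕ) (a : Fin p → ZMod p)
    (h : ∑ i : Fin p, a i • (T ^ (i.val + d)) v ∈ C) :
    ∀ i : Fin p, i.val + d < p → a i = 0 := by
  have key : ∀ j : ℕ, ∀ i : Fin p, i.val < j → i.val + d < p → a i = 0 := by
    intro j
    induction j with
    | zero =>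
      intro i hi
      omega
    | succ j ih =>
      intro i hi hid
      rcases Nat.lt_succ_iff_lt_or_eq.mp hi with h1 | h1
      · exact ih i h1 hid
      · have h2 := cyc_pow_mem T C hTC (p - 1 - j - d) _ h
        rw [map_sum] at h2
        have h3 : ∑ x : Fin p, (T ^ (p - 1 - j - d)) (a x • (T ^ (x.val + d)) v) =
            a i • (T ^ (p - 1)) v := by
          rw [Finset.sum_eq_single i]
          · rw [map_smul, ← Module.End.mul_apply, ← pow_add]
            congr 3
            omega
          · intro b _ hb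
            rw [map_smul, ← Module.End.mul_apply, ← pow_add]
            have hbi : b.val ≠ i.val := fun h => hb (Fin.ext h)
            rcases lt_or_gt_of_ne hbi with h4 | h4
            · rw [ih b (by omega) (by omega), zero_smul]
            · have h5 : T ^ (p - 1 - j - d + (b.val + d)) = 0 :=
                pow_eq_zero_of_le (by omega) hT
              rw [h5, LinearMap.zero_apply, smul_zero]
          · intro hni
            exact absurd (Finset.mem_univ i) hni
        rw [h3] at h2
        by_contra hne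
        apply hv
        have h6 := C.smul_mem (a i)⁻¹ h2
        rwa [smul_smul, inv_mul_cancel₀ hne, one_smul] at h6
  intro i hi
  exact key (i.val + 1) i (by omega) hi

theorem s3787_cyc (p : ℕ) [Fact p.Prime] {V : Type v} [AddCommGroup V] [Module (ZMod p) V]
    [Finite V] (T : Module.End (ZMod p) V) (hT : T ^ p = 0) (C : Submodule (ZMod p) V)
    (hTC : ∀ u ∈ C, T u ∈ C) (v : V) (hv : (T ^ (p - 1)) v ∉ C) :
    ∃ U : Submodule (ZMod p) V, C ≤ U ∧ (∀ u ∈ U, T u ∈ U) ∧
      Nat.card U = p ^ p * Nat.card C ∧ Nat.card ↥(U ⊓ C.comap T) = p * Nat.card C := by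
  classical
  have hp : p.Prime := Fact.out
  have hp1 : 1 ≤ p := hp.one_lt.le
  let Φ : (C × (Fin p → ZMod p)) →ₗ[ZMod p] V :=
    C.subtype.coprod (Fintype.linearCombination (ZMod p) (fun i : Fin p => (T ^ (i : ℕ)) v))
  have hΦ : ∀ (c : C) (a : Fin p → ZMod p),
      Φ (c, a) = (c : V) + ∑ i, a i • (T ^ (i : ℕ)) v := by
    intro c a
    show C.subtype c + Fintype.linearCombination (ZMod p) (fun i : Fin p => (T ^ (i : ℕ)) v) a = _
    rw [Fintype.linearCombination_apply]
    rfl
  -- injectivity
  have hinj : Function.Injective Φ := by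
    rw [← LinearMap.ker_eq_bot, LinearMap.ker_eq_bot']
    rintro ⟨c, a⟩ h
    rw [hΦ] at h
    have h0 : ∑ i, a i • (T ^ (i : ℕ)) v = -(c : V) := by
      rw [eq_neg_iff_add_eq_zero, add_comm]
      exact h
    have h1 : ∑ i : Fin p, a i • (T ^ (i.val + 0)) v ∈ C := by
      simp only [add_zero]
      rw [h0]
      exact C.neg_mem c.2
    have ha : a = 0 := funext (fun i => cyc_key p T hT C hTC v hv 0 a h1 i (by simp))
    rw [ha] at h0
    have hc : (c : V) = 0 := by
      have h2 : -(c : V) = 0 := by rw [← h0]; simp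
      exact neg_eq_zero.mp h2
    rw [ha]
    have hc' : c = 0 := Subtype.ext hc
    rw [hc']
    rfl
  -- the vectors `T^k v` lie in the range
  have hw : ∀ k : ℕ, (T ^ k) v ∈ LinearMap.range Φ := by
    intro k
    by_cases hk : k < p
    · refine ⟨(0, Pi.single ⟨k, hk⟩ 1), ?_⟩
      rw [hΦ, Finset.sum_eq_single ⟨k, hk⟩]
      · simp
      · intro b _ hb
        rw [Pi.single_eq_of_ne hb, zero_smul]
      · intro hni
        exact absurd (Finset.mem_univ _) hni
    · have h5 : T ^ k = 0 := pow_eq_zero_of_le (by omega) hT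
      rw [h5]
      exact Submodule.zero_mem _
  have hCU : C ≤ LinearMap.range Φ := by
    intro c hc
    refine ⟨(⟨c, hc⟩, 0), ?_⟩
    rw [hΦ]
    simp
  refine ⟨LinearMap.range Φ, hCU, ?_, ?_, ?_⟩
  · rintro _ ⟨⟨c, a⟩, rfl⟩
    rw [hΦ, map_add, map_sum]
    refine Submodule.add_mem _ (hCU (hTC _ c.2)) (Submodule.sum_mem _ ?_)
    intro i _
    rw [map_smul, ← Module.End.mul_apply, ← pow_succ']
    exact Submodule.smul_mem _ _ (hw _)
  · rw [← Nat.card_congr (LinearEquiv.ofInjective Φ hinj).toEquiv, Nat.card_prod, Nat.card_fun,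
      Nat.card_fin, Nat.card_zmod, mul_comm]
  · -- the fixed space
    let Ψ : (C × ZMod p) →ₗ[ZMod p] V :=
      C.subtype.coprod (LinearMap.toSpanSingleton (ZMod p) V ((T ^ (p - 1)) v))
    have hΨ : ∀ (c : C) (s : ZMod p), Ψ (c, s) = (c : V) + s • (T ^ (p - 1)) v := by
      intro c s
      rfl
    have hΨinj : Function.Injective Ψ := by
      rw [← LinearMap.ker_eq_bot, LinearMap.ker_eq_bot']
      rintro ⟨c, s⟩ h
      rw [hΨ] at h
      have h0 : s • (T ^ (p - 1)) v = -(c : V) := by
        rw [eq_neg_iff_add_eq_zero, add_comm]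
        exact h
      have hs : s = 0 := by
        by_contra hne
        apply hv
        have h6 : s • (T ^ (p - 1)) v ∈ C := by
          rw [h0]
          exact C.neg_mem c.2
        have h7 := C.smul_mem s⁻¹ h6
        rwa [smul_smul, inv_mul_cancel₀ hne, one_smul] at h7
      rw [hs, zero_smul] at h0
      have hc : c = 0 := Subtype.ext (neg_eq_zero.mp h0.symm)
      rw [hs, hc]
      rfl
    have hrange : LinearMap.range Ψ = LinearMap.range Φ ⊓ C.comap T := by
      apply le_antisymm
      · rintro _ ⟨⟨c, s⟩, rfl⟩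
        rw [hΨ]
        refine ⟨Submodule.add_mem _ (hCU c.2) (Submodule.smul_mem _ _ (hw _)), ?_⟩
        show T ((c : V) + s • (T ^ (p - 1)) v) ∈ C
        rw [map_add, map_smul, ← Module.End.mul_apply, ← pow_succ']
        have h5 : T ^ (p - 1 + 1) = 0 := pow_eq_zero_of_le (by omega) hT
        rw [h5, LinearMap.zero_apply, smul_zero, add_zero]
        exact hTC _ c.2
      · rintro u ⟨⟨⟨c, a⟩, rfl⟩, hu⟩
        have hu : T (Φ (c, a)) ∈ C := hu
        rw [hΦ, map_add, map_sum] at hu
        have h1 : ∑ i : Fin p, a i • (T ^ (i.val + 1)) v ∈ C := by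
          have h2 : ∑ i : Fin p, a i • (T ^ (i.val + 1)) v =
              (T (c : V) + ∑ i : Fin p, T (a i • (T ^ (i : ℕ)) v)) - T (c : V) := by
            rw [add_sub_cancel_left]
            apply Finset.sum_congr rfl
            intro i _
            rw [map_smul, ← Module.End.mul_apply, ← pow_succ']
          rw [h2]
          exact C.sub_mem hu (hTC _ c.2)
        have ha := cyc_key p T hT C hTC v hv 1 a h1
        refine ⟨(c, a ⟨p - 1, by omega⟩), ?_⟩
        rw [hΨ, hΦ, Finset.sum_eq_single (⟨p - 1, by omega⟩ : Fin p)]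
        · intro b _ hb
          have hb' : b.val ≠ p - 1 := fun h => hb (Fin.ext h)
          rw [ha b (by have := b.2; omega), zero_smul]
        · intro hni
          exact absurd (Finset.mem_univ _) hni
    rw [← hrange, ← Nat.card_congr (LinearEquiv.ofInjective Ψ hΨinj).toEquiv, Nat.card_prod,
      Nat.card_zmod, mul_comm]

end Cfsg.Agent.Lib.Helper23
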