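import Mathlib
import Cfsg.Agent.Lib.Helper18.CTDefs

set_option autoImplicit false

namespace Cfsg.Agent.Lib.Helper18.CT

variable {G : Type*} [Group G] {F : Type*} [Field F] {V : Type*} [AddCommGroup V] [Module F V]

theorem tau4a_conj_pow (k x : G) (c : ℕ) (hc : k * x * k⁻¹ = x ^ c) (j : ℕ) :
    k ^ j * x * (k ^ j)⁻¹ = x ^ (c ^ j) := by
  induction j with
  | zero => simp
  | succ j ih =>
    have h1 : k ^ (j + 1) * x * (k ^ (j + 1))⁻¹ = k * (k ^ j * x * (k ^ j)⁻¹) * k⁻¹ := by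
      rw [pow_succ', mul_inv_rev]
      simp only [mul_assoc]
    rw [h1, ih, ← conj_pow, hc, ← pow_mul, pow_succ']

theorem tau4a_arith (p : ℕ) (hp : p.Prime) (n c M : ℕ) (hM : ¬ p ∣ M)
    (hc1 : c ≡ 1 [MOD p]) (hcM : c ^ M ≡ 1 [MOD p ^ n]) : c ≡ 1 [MOD p ^ n] := by
  rcases n with _ | k
  · rw [pow_zero]
    exact Nat.modEq_one
  · have h1 : ((p : ℤ)) ∣ (c : ℤ) - 1 := by
      have := Nat.modEq_iff_dvd.mp hc1.symm
      simpa using this
    have h2 := dvd_sub_pow_of_dvd_sub (R := ℤ) h1 k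
    have h3 : c ^ (p ^ k) ≡ 1 [MOD p ^ (k + 1)] := by
      apply Nat.ModEq.symm
      rw [Nat.modEq_iff_dvd]
      push_cast
      simpa using h2
    have z1 : ((c : ZMod (p ^ (k + 1)))) ^ M = 1 := by
      have := (ZMod.natCast_eq_natCast_iff _ _ _).mpr hcM
      push_cast at this
      exact this
    have z2 : ((c : ZMod (p ^ (k + 1)))) ^ (p ^ k) = 1 := by
      have := (ZMod.natCast_eq_natCast_iff _ _ _).mpr h3
      push_cast at this
      exact this
    have o1 := orderOf_dvd_of_pow_eq_one z1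
    have o2 := orderOf_dvd_of_pow_eq_one z2
    have hcop : Nat.Coprime M (p ^ k) :=
      (Nat.Coprime.pow_left k ((Nat.Prime.coprime_iff_not_dvd hp).mpr hM)).symm
    have o3 : orderOf (c : ZMod (p ^ (k + 1))) = 1 := by
      have hd : orderOf (c : ZMod (p ^ (k + 1))) ∣ Nat.gcd M (p ^ k) := Nat.dvd_gcd o1 o2
      rw [hcop.gcd_eq_one] at hd
      exact Nat.dvd_one.mp hd
    rw [orderOf_eq_one_iff] at o3
    exact (ZMod.natCast_eq_natCast_iff c 1 (p ^ (k + 1))).mp (by simpa using o3)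

-- piece TAU4A
theorem conj_pow_trivial [Finite G] (p : ℕ) [Fact p.Prime] (P : Sylow p G) (x : G)
    (hx : Subgroup.zpowers x = (P : Subgroup G)) (n : ℕ) (hord : orderOf x = p ^ n)
    (k : G) (hk : k ∈ Subgroup.normalizer ((P : Subgroup G) : Set G)) (c : ℕ)
    (hc : k * x * k⁻¹ = x ^ c) (hc1 : c % p = 1 % p) : k * x * k⁻¹ = x := by
  have hp : p.Prime := Fact.out
  obtain ⟨M, hMdef⟩ : ∃ M : ℕ, M = ((P : Subgroup G).subgroupOf
      (Subgroup.normalizer ((P : Subgroup G) : Set G))).index := ⟨_, rfl⟩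
  have hnorm : ((P : Subgroup G).subgroupOf
      (Subgroup.normalizer ((P : Subgroup G) : Set G))).Normal := Subgroup.normal_in_normalizer
  have hkM : (⟨k, hk⟩ : Subgroup.normalizer ((P : Subgroup G) : Set G)) ^ M ∈
      (P : Subgroup G).subgroupOf (Subgroup.normalizer ((P : Subgroup G) : Set G)) := by
    rw [hMdef]
    exact Subgroup.pow_index_mem _ _
  have hkM' : k ^ M ∈ (P : Subgroup G) := by
    rw [Subgroup.mem_subgroupOf] at hkM
    simpa using hkM
  have hMdvd : M ∣ (P : Subgroup G).index := by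
    rw [hMdef]
    exact Subgroup.relIndex_dvd_index_of_le Subgroup.le_normalizer
  have hpM : ¬ p ∣ M := fun h => P.not_dvd_index (h.trans hMdvd)
  have hcomm : k ^ M * x * (k ^ M)⁻¹ = x := by
    rw [← hx] at hkM'
    obtain ⟨i, hi⟩ := Subgroup.mem_zpowers_iff.mp hkM'
    rw [← hi]
    have : Commute (x ^ i) x := (Commute.refl x).zpow_left i
    rw [this.eq, mul_inv_cancel_right]
  have h1 := tau4a_conj_pow k x c hc M
  rw [hcomm] at h1
  have h2 : c ^ M ≡ 1 [MOD p ^ n] := by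
    rw [← hord, ← pow_eq_pow_iff_modEq, ← h1, pow_one]
  have h3 := tau4a_arith p hp n c M hpM hc1 h2
  rw [hc]
  have : x ^ c = x ^ 1 := by
    rw [pow_eq_pow_iff_modEq, hord]
    exact h3
  rw [this, pow_one]

end Cfsg.Agent.Lib.Helper18.CT
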