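import Mathlib
import Cfsg.Prelude.Def_RootSubgroups
import Cfsg.Agent.Lib.Helper12.RootInv
import Cfsg.Agent.Lib.Helper20.RI1

set_option autoImplicit false

namespace Cfsg.Agent.Lib.Helper23.RI

open Cfsg Cfsg.Agent.Lib.Helper12.RootInv Cfsg.Agent.Lib.Helper20.RI

variable {G : Type*} [Group G]

/-- PIECE MUCOMM: `a` commutes with `β_{-j} β_j`. -/
theorem mu_comm {D : Set G} (hD : IsRootInvolutionSet D)
    (hLA : ∀ {a u β y : G}, a ∈ D → u ∈ D → β ∈ D → y ∈ D → a * u = u * a →
      oddPartners D a = oddPartners D u → β * u = u * β → a * β * a = u * β → Odd (orderOf (u * y)) →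
      y ≠ u → orderOf (β * y) = 4 → a * (u * (β * y) ^ 2) ^ 2 = (u * (β * y) ^ 2) ^ 2 * a)
    {a u β x : G} (ha : a ∈ D) (hu : u ∈ D) (hβ : β ∈ D) (hx : x ∈ D) (hau : a * u = u * a)
    (hA : oddPartners D a = oddPartners D u) (hβu : β * u = u * β) (haβ : a * β * a = u * β)
    (hodd : Odd (orderOf (u * x)))
    (hcomm : ∀ i j : ℤ, Commute (bfam (u * x) β i) (bfam (u * x) β j)) (j : ℤ) :
    a * (bfam (u * x) β (-j) * bfam (u * x) β j) = (bfam (u * x) β (-j) * bfam (u * x) β j) * a := by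
  have hu2 := ri_sq hD hu
  have hx2 := ri_sq hD hx
  have hβ2 := ri_sq hD hβ
  obtain ⟨ρ, hρ⟩ : ∃ ρ, ρ = u * x := ⟨_, rfl⟩
  rw [← hρ] at hodd hcomm ⊢
  have href : u * ρ * u = ρ⁻¹ := by rw [hρ]; exact refl_mul hu2 hx2
  have hBr : ∀ i, u * bfam ρ β i * u = bfam ρ β (-i) := bfam_refl hu2 href hβu
  by_cases hj : bfam ρ β j = β
  · have h1 : bfam ρ β (-j) = β := by
      have h2 := bfam_conj_zpow ρ β j (-j)
      rw [add_neg_cancel, bfam_zero, hj] at h2
      exact h2
    rw [h1, hj, hβ2, mul_one, one_mul]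
  · have hρj : ρ ^ j ≠ 1 := by
      intro h
      apply hj
      unfold bfam
      rw [zpow_neg, h]; simp
    obtain ⟨h, hh⟩ := hodd
    have hρm : ρ ^ (2 * h + 1) = 1 := by rw [← hh]; exact pow_orderOf_eq_one ρ
    obtain ⟨y, hy⟩ : ∃ y, y = u * ρ ^ j := ⟨_, rfl⟩
    have hur : ∀ i : ℤ, u * ρ ^ i = ρ ^ (-i) * u := by
      intro i
      have h1 := refl_zpow hu2 href i
      calc u * ρ ^ i = u * ρ ^ i * (u * u) := by rw [hu2, mul_one]
        _ = (u * ρ ^ i * u) * u := by simp only [mul_assoc]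
        _ = ρ ^ (-i) * u := by rw [h1]
    have hyD : y ∈ D := by
      have hk : ρ ^ (-(j * (h + 1 : ℤ))) * u * (ρ ^ (-(j * (h + 1 : ℤ))))⁻¹ = y := by
        rw [hy, ← zpow_neg, neg_neg, ← hur, mul_assoc, ← zpow_add]
        congr 1
        have e2 : j * (h + 1 : ℤ) + j * (h + 1) = j + ((2 * h + 1 : ℕ) : ℤ) * j := by
          push_cast; ring
        rw [e2, zpow_add, zpow_mul, zpow_natCast, hρm, one_zpow, mul_one]
      rw [← hk]
      exact hD.conj_mem u hu _
    have hy2 : y * y = 1 := ri_sq hD hyD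
    have huβu : u * β * u = β := by rw [← hβu, mul_assoc, hu2, mul_one]
    have hyβ : y * β * y = bfam ρ β j := by
      have hy' : y = ρ ^ (-j) * u := by rw [hy, hur]
      unfold bfam
      calc y * β * y = (ρ ^ (-j) * u) * β * (u * ρ ^ j) := by rw [← hy', ← hy]
        _ = ρ ^ (-j) * (u * β * u) * ρ ^ j := by simp only [mul_assoc]
        _ = ρ ^ (-j) * β * ρ ^ j := by rw [huβu]
    have huy : u * y = ρ ^ j := by
      rw [hy, ← mul_assoc, hu2, one_mul]
    have hoddy : Odd (orderOf (u * y)) := by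
      rw [huy]
      have hd : orderOf (ρ ^ j) ∣ 2 * h + 1 := by
        apply orderOf_dvd_of_pow_eq_one
        rw [← zpow_natCast, ← zpow_mul, mul_comm, zpow_mul, zpow_natCast, hρm, one_zpow]
      exact Odd.of_dvd_nat ⟨h, rfl⟩ hd
    have hyu : y ≠ u := by
      intro e
      apply hρj
      rw [← huy, e, hu2]
    have hc0j : Commute β (bfam ρ β j) := by
      have := hcomm 0 j
      rwa [bfam_zero] at this
    have hc0j' : Commute β (bfam ρ β (-j)) := by
      have := hcomm 0 (-j)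
      rwa [bfam_zero] at this
    have hBj2 : bfam ρ β j * bfam ρ β j = 1 := bfam_sq hβ2 j
    have hsq : (β * y) ^ 2 = β * bfam ρ β j := by
      rw [pow_two, ← hyβ]; simp only [mul_assoc]
    have hsq1 : (β * bfam ρ β j) * (β * bfam ρ β j) = 1 := by
      calc (β * bfam ρ β j) * (β * bfam ρ β j)
          = β * (bfam ρ β j * β) * bfam ρ β j := by simp only [mul_assoc]
        _ = β * (β * bfam ρ β j) * bfam ρ β j := by rw [hc0j.eq]
        _ = (β * β) * (bfam ρ β j * bfam ρ β j) := by simp only [mul_assoc]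
        _ = 1 := by rw [hβ2, hBj2, mul_one]
    have hne1 : β * bfam ρ β j ≠ 1 := by
      intro e
      apply hj
      have : bfam ρ β j = β⁻¹ := by
        rw [eq_inv_iff_mul_eq_one, hc0j.eq.symm, e]
      rw [this, ri_inv hD hβ]
    have h4y : orderOf (β * y) = 4 := by
      have : Fact (Nat.Prime 2) := ⟨Nat.prime_two⟩
      have h := orderOf_eq_prime_pow (x := β * y) (p := 2) (n := 1)
        (by rw [pow_one, hsq]; exact hne1)
        (by
          have e4 : (β * y) ^ 2 ^ (1 + 1) = (β * y) ^ 2 * (β * y) ^ 2 := by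
            rw [← pow_add]; norm_num
          rw [e4, hsq, hsq1])
      rw [h]; norm_num
    have hmain := hLA ha hu hβ hyD hau hA hβu haβ hoddy hyu h4y
    have hkey : (u * (β * y) ^ 2) ^ 2 = bfam ρ β (-j) * bfam ρ β j := by
      rw [hsq, pow_two]
      calc u * (β * bfam ρ β j) * (u * (β * bfam ρ β j))
          = (u * β * (u * u) * bfam ρ β j * u) * (β * bfam ρ β j) := by
            rw [hu2, mul_one]; simp only [mul_assoc]
        _ = (u * β * u) * (u * bfam ρ β j * u) * (β * bfam ρ β j) := by simp only [mul_assoc]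
        _ = β * bfam ρ β (-j) * (β * bfam ρ β j) := by rw [huβu, hBr]
        _ = bfam ρ β (-j) * β * (β * bfam ρ β j) := by rw [hc0j'.eq]
        _ = bfam ρ β (-j) * (β * β) * bfam ρ β j := by simp only [mul_assoc]
        _ = bfam ρ β (-j) * bfam ρ β j := by rw [hβ2, mul_one]
    rw [hkey] at hmain
    exact hmain

end Cfsg.Agent.Lib.Helper23.RI
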