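import Mathlib
import Cfsg.Agent.Lib.Helper5.BQ0
import Cfsg.Agent.Lib.Helper87.BRN2

set_option autoImplicit false

namespace Cfsg.Agent.Lib.Helper5.BQ

open Cfsg
open Cfsg.Agent.Lib.Helper83 (trivIrr)
open Cfsg.Agent.Lib.Helper10.BR (psum DOut)
open scoped ComplexConjugate

/-- BQ-N2 -/
theorem pregular_outer_gen {G : Type*} [Group G] [Finite G] (p : ℕ) (hp : p.Prime)
    (P : Subgroup G) (hcardP : Nat.card P = p)
    (hcent : Subgroup.centralizer (P : Set G) = P) (e : ℕ) (he0 : 0 < e) (hep : e < p)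
    (hcardN : Nat.card (Subgroup.normalizer (P : Set G)) = e * p)
    (y : G) (hy : y ∈ Subgroup.normalizer (P : Set G)) (hyP : y ∉ P) : ¬ p ∣ orderOf y := by
  intro hdvd
  have he0' : e ≠ 0 := he0.ne'
  have hord : orderOf y ≠ 0 := (orderOf_pos y).ne'
  have hz : orderOf (y ^ (orderOf y / p)) = p := orderOf_pow_orderOf_div hord hdvd
  have hzN : y ^ (orderOf y / p) ∈ Subgroup.normalizer (P : Set G) := pow_mem hy _
  have hzp : (y ^ (orderOf y / p)) ^ p = 1 := by
    have h1 := pow_orderOf_eq_one (y ^ (orderOf y / p))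
    rw [hz] at h1
    exact h1
  have hzP : y ^ (orderOf y / p) ∈ P :=
    Cfsg.Agent.Lib.Helper87.BRN.mem_of_pow_eq_one hp P hcardP hcardN he0' hep _ hzN hzp
  have hz1 : y ^ (orderOf y / p) ≠ 1 := by
    intro h1
    rw [h1, orderOf_one] at hz
    exact hp.one_lt.ne hz
  have hc : y * y ^ (orderOf y / p) = y ^ (orderOf y / p) * y :=
    ((Commute.refl y).pow_right _).eq
  exact hyP (Cfsg.Agent.Lib.Helper87.BRN.mem_of_comm hp P hcardP hcent _ y hzP hz1 hc)

end Cfsg.Agent.Lib.Helper5.BQ
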