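import Mathlib
import Cfsg.Agent.Lib.Helper5.BQ0

set_option autoImplicit false

namespace Cfsg.Agent.Lib.Helper5.BQ

open Cfsg
open Cfsg.Agent.Lib.Helper83 (trivIrr)
open Cfsg.Agent.Lib.Helper10.BR (psum DOut)
open scoped ComplexConjugate
open scoped commutatorElement
open scoped Pointwise

namespace BQR1a

/-- In a cyclic group `⟨z⟩` of prime order, `z` is a power of every non-identity element. -/
theorem exists_zpow_eq {G : Type*} [Group G] (p : ℕ) [Fact p.Prime] (z c : G)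
    (hz : orderOf z = p) (hc : c ∈ Subgroup.zpowers z) (hc1 : c ≠ 1) : ∃ k : ℤ, c ^ k = z := by
  have hcard : Nat.card (Subgroup.zpowers z) = p := by rw [Nat.card_zpowers, hz]
  have hne : (⟨c, hc⟩ : Subgroup.zpowers z) ≠ 1 := fun h => hc1 (by simpa using congrArg Subtype.val h)
  have htop := zpowers_eq_top_of_prime_card hcard hne
  have hzmem : (⟨z, Subgroup.mem_zpowers z⟩ : Subgroup.zpowers z) ∈
      Subgroup.zpowers (⟨c, hc⟩ : Subgroup.zpowers z) := by rw [htop]; exact Subgroup.mem_top _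
  obtain ⟨k, hk⟩ := Subgroup.mem_zpowers_iff.1 hzmem
  exact ⟨k, by simpa using congrArg Subtype.val hk⟩

/-- Conjugations normalising `⟨z⟩` commute on `z`. -/
theorem conj_comm {G : Type*} [Group G] (z u v : G) (hu : u * z * u⁻¹ ∈ Subgroup.zpowers z)
    (hv : v * z * v⁻¹ ∈ Subgroup.zpowers z) :
    u * (v * z * v⁻¹) * u⁻¹ = v * (u * z * u⁻¹) * v⁻¹ := by
  obtain ⟨a, ha⟩ := Subgroup.mem_zpowers_iff.1 hu
  obtain ⟨b, hb⟩ := Subgroup.mem_zpowers_iff.1 hv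
  rw [← hb, ← ha, ← conj_zpow, ← conj_zpow, ← ha, ← hb, ← zpow_mul, ← zpow_mul, mul_comm]

/-- Commutators of elements normalising `⟨z⟩` centralise `z`. -/
theorem commutator_mem_centralizer {G : Type*} [Group G] (z n₁ n₂ : G)
    (h₁ : n₁ ∈ Subgroup.normalizer ((Subgroup.zpowers z : Subgroup G) : Set G))
    (h₂ : n₂ ∈ Subgroup.normalizer ((Subgroup.zpowers z : Subgroup G) : Set G)) :
    ⁅n₁, n₂⁆ ∈ Subgroup.centralizer ({z} : Set G) := by
  have hu : n₁⁻¹ * z * n₁⁻¹⁻¹ ∈ Subgroup.zpowers z :=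
    (Subgroup.mem_normalizer_iff.1 (inv_mem h₁) z).1 (Subgroup.mem_zpowers z)
  have hv : n₂⁻¹ * z * n₂⁻¹⁻¹ ∈ Subgroup.zpowers z :=
    (Subgroup.mem_normalizer_iff.1 (inv_mem h₂) z).1 (Subgroup.mem_zpowers z)
  have h := conj_comm z n₁⁻¹ n₂⁻¹ hu hv
  rw [Subgroup.mem_centralizer_iff]
  intro y hy
  rw [Set.mem_singleton_iff] at hy
  subst hy
  rw [commutatorElement_def]
  simp only [inv_inv] at h
  have h3 : n₂⁻¹ * n₁⁻¹ * y * (n₁ * n₂) = n₁⁻¹ * n₂⁻¹ * y * (n₂ * n₁) := by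
    have := h.symm
    simpa [mul_assoc] using this
  calc y * (n₁ * n₂ * n₁⁻¹ * n₂⁻¹)
      = n₁ * n₂ * (n₂⁻¹ * n₁⁻¹ * y * (n₁ * n₂)) * n₁⁻¹ * n₂⁻¹ := by group
    _ = n₁ * n₂ * (n₁⁻¹ * n₂⁻¹ * y * (n₂ * n₁)) * n₁⁻¹ * n₂⁻¹ := by rw [h3]
    _ = n₁ * n₂ * n₁⁻¹ * n₂⁻¹ * y := by group

end BQR1a

/-- BQ-R1a -/
theorem normal_coprime {G : Type*} [Group G] [Finite G] (hperf : commutator G = ⊤) (p : ℕ)
    [Fact p.Prime] (z : G) (hz : orderOf z = p)
    (hC : Subgroup.centralizer ({z} : Set G) = Subgroup.zpowers z)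
    (P : Sylow p G) (hP : (P : Subgroup G) = Subgroup.zpowers z)
    (K : Subgroup G) [K.Normal] (hK : K ≠ ⊤) : ¬ p ∣ Nat.card K := by
  intro hdvd
  have hp : p.Prime := Fact.out
  obtain ⟨x, hx⟩ := exists_prime_orderOf_dvd_card' p hdvd
  have hxG : orderOf (x : G) = p := by rw [Subgroup.orderOf_coe]; exact hx
  have hPg : IsPGroup p (Subgroup.zpowers (x : G)) :=
    IsPGroup.of_card (n := 1) (by rw [Nat.card_zpowers, hxG, pow_one])
  obtain ⟨Q, hQ⟩ := hPg.exists_le_sylow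
  obtain ⟨g, hg⟩ := MulAction.exists_smul_eq G Q P
  have hmem : g * (x : G) * g⁻¹ ∈ Subgroup.zpowers z := by
    rw [← hP, ← hg]
    have hxQ : (x : G) ∈ (Q : Subgroup G) := hQ (Subgroup.mem_zpowers _)
    have : g * (x : G) * g⁻¹ ∈ ((g • Q : Sylow p G) : Subgroup G) := by
      rw [Sylow.coe_subgroup_smul]
      have h2 : MulAut.conj g • (x : G) ∈ MulAut.conj g • (Q : Subgroup G) :=
        Subgroup.smul_mem_pointwise_smul_iff.2 hxQ
      simpa [MulAut.smul_def] using h2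
    exact this
  have hx1 : (x : G) ≠ 1 := by
    intro h
    rw [h, orderOf_one] at hxG
    exact hp.one_lt.ne hxG
  have hne : g * (x : G) * g⁻¹ ≠ 1 := by
    intro h
    apply hx1
    have : (x : G) = g⁻¹ * (g * (x : G) * g⁻¹) * g := by group
    rw [this, h]
    group
  obtain ⟨k, hk⟩ := BQR1a.exists_zpow_eq p z _ hz hmem hne
  have hzK : z ∈ K := by
    rw [← hk]
    exact K.zpow_mem ((inferInstance : K.Normal).conj_mem _ x.2 g) k
  have hPK : (P : Subgroup G) ≤ K := by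
    rw [hP, Subgroup.zpowers_le]
    exact hzK
  have hsup : Subgroup.normalizer ((P : Subgroup G) : Set G) ⊔ K = ⊤ :=
    Sylow.normalizer_sup_eq_top' P hPK
  apply hK
  rw [eq_top_iff, ← hperf, commutator_def, Subgroup.commutator_le]
  intro a _ b _
  have hdecomp : ∀ c : G, ∃ n ∈ Subgroup.normalizer ((P : Subgroup G) : Set G), ∃ k ∈ K, c = n * k := by
    intro c
    have hc : c ∈ ((Subgroup.normalizer ((P : Subgroup G) : Set G) ⊔ K : Subgroup G) : Set G) := by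
      rw [hsup]; trivial
    rw [Subgroup.mul_normal] at hc
    obtain ⟨n, hn, k, hk, rfl⟩ := Set.mem_mul.1 hc
    exact ⟨n, hn, k, hk, rfl⟩
  obtain ⟨n₁, hn₁, k₁, hk₁, rfl⟩ := hdecomp a
  obtain ⟨n₂, hn₂, k₂, hk₂, rfl⟩ := hdecomp b
  rw [← QuotientGroup.eq_one_iff, ← QuotientGroup.mk'_apply, map_commutatorElement, map_mul, map_mul]
  have e1 : QuotientGroup.mk' K k₁ = 1 := (QuotientGroup.eq_one_iff k₁).2 hk₁
  have e2 : QuotientGroup.mk' K k₂ = 1 := (QuotientGroup.eq_one_iff k₂).2 hk₂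
  rw [e1, e2, mul_one, mul_one, ← map_commutatorElement, QuotientGroup.mk'_apply,
    QuotientGroup.eq_one_iff]
  apply hPK
  rw [hP, ← hC]
  rw [hP] at hn₁ hn₂
  exact BQR1a.commutator_mem_centralizer z n₁ n₂ hn₁ hn₂

end Cfsg.Agent.Lib.Helper5.BQ
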