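import Mathlib
import Cfsg.Agent.Lib.Helper5.BQ0
import Cfsg.Agent.Lib.Helper23.BQR1a

set_option autoImplicit false

namespace Cfsg.Agent.Lib.Helper5.BQ

open Cfsg
open Cfsg.Agent.Lib.Helper83 (trivIrr)
open Cfsg.Agent.Lib.Helper10.BR (psum DOut)
open scoped ComplexConjugate
open scoped commutatorElement
open scoped Pointwise

namespace BQR1b

/-- An element of `K ∩ ⟨z⟩` is trivial when `p ∤ |K|`. -/
theorem eq_one_of_mem {G : Type*} [Group G] [Finite G] (p : ℕ) [Fact p.Prime] (z : G)
    (hz : orderOf z = p) (K : Subgroup G) (hpK : ¬ p ∣ Nat.card K) (x : G) (hxK : x ∈ K)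
    (hxz : x ∈ Subgroup.zpowers z) : x = 1 := by
  have hp : p.Prime := Fact.out
  by_contra hx1
  have h1 : orderOf x ∣ p := by
    have := orderOf_dvd_natCard (⟨x, hxz⟩ : Subgroup.zpowers z)
    rw [Nat.card_zpowers, hz] at this
    rwa [Subgroup.orderOf_mk] at this
  have h2 : orderOf x = p := by
    rcases (Nat.dvd_prime hp).1 h1 with h | h
    · exact absurd (orderOf_eq_one_iff.1 h) hx1
    · exact h
  apply hpK
  rw [← h2]
  have := orderOf_dvd_natCard (⟨x, hxK⟩ : K)
  rwa [Subgroup.orderOf_mk] at this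

/-- An element of `K` normalising `⟨z⟩` is trivial. -/
theorem stab_trivial {G : Type*} [Group G] [Finite G] (p : ℕ) [Fact p.Prime] (z : G)
    (hz : orderOf z = p) (hC : Subgroup.centralizer ({z} : Set G) = Subgroup.zpowers z)
    (K : Subgroup G) [K.Normal] (hpK : ¬ p ∣ Nat.card K) (k : G) (hkK : k ∈ K)
    (hkN : k ∈ Subgroup.normalizer ((Subgroup.zpowers z : Subgroup G) : Set G)) : k = 1 := by
  have h1 : k * z * k⁻¹ ∈ Subgroup.zpowers z :=
    (Subgroup.mem_normalizer_iff.1 hkN z).1 (Subgroup.mem_zpowers z)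
  have h2 : k * z * k⁻¹ * z⁻¹ ∈ Subgroup.zpowers z :=
    mul_mem h1 (inv_mem (Subgroup.mem_zpowers z))
  have h3 : k * z * k⁻¹ * z⁻¹ ∈ K := by
    have h : z * k⁻¹ * z⁻¹ ∈ K := (inferInstance : K.Normal).conj_mem _ (inv_mem hkK) z
    have := mul_mem hkK h
    simpa [mul_assoc] using this
  have h4 := eq_one_of_mem p z hz K hpK _ h3 h2
  have h5 : k ∈ Subgroup.centralizer ({z} : Set G) := by
    rw [Subgroup.mem_centralizer_iff]
    intro y hy
    rw [Set.mem_singleton_iff] at hy
    subst hy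
    have h6 : k * y * k⁻¹ = y := mul_inv_eq_one.1 h4
    calc y * k = (k * y * k⁻¹) * k := by rw [h6]
      _ = k * y := by group
  rw [hC] at h5
  exact eq_one_of_mem p z hz K hpK k hkK h5

theorem ge_of_modEq {p x : ℕ} (hx : x ≡ 1 [MOD p]) (hx1 : x ≠ 1) (hx0 : 0 < x) : p + 1 ≤ x := by
  have h1 : 1 ≤ x := hx0
  have hd : p ∣ x - 1 := (Nat.modEq_iff_dvd' h1).1 hx.symm
  have hpos : 0 < x - 1 := by omega
  have := Nat.le_of_dvd hpos hd
  omega

end BQR1b

/-- BQ-R1b -/
theorem normal_trivial {G : Type*} [Group G] [Finite G] (hperf : commutator G = ⊤) (p : ℕ)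
    [Fact p.Prime] (z : G) (hz : orderOf z = p)
    (hC : Subgroup.centralizer ({z} : Set G) = Subgroup.zpowers z)
    (P : Sylow p G) (hP : (P : Subgroup G) = Subgroup.zpowers z)
    (hn : 2 * Nat.card (Sylow p G) < (p + 1) * (p + 2))
    (K : Subgroup G) [K.Normal] (hK : K ≠ ⊤) (hpK : ¬ p ∣ Nat.card K) : K = ⊥ := by
  classical
  have hp : p.Prime := Fact.out
  have hzP : z ∈ (P : Subgroup G) := by rw [hP]; exact Subgroup.mem_zpowers z
  -- the action of `K` on the Sylow `p`-subgroups is free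
  have hfree : ∀ (k : G), k ∈ K → ∀ Q : Sylow p G, k • Q = Q → k = 1 := by
    intro k hkK Q hk
    obtain ⟨g, hg⟩ := MulAction.exists_smul_eq G P Q
    have h1 : (g⁻¹ * k * g) • P = P := by
      rw [mul_smul, mul_smul, hg, hk, ← hg, inv_smul_smul]
    have h2 : g⁻¹ * k * g ∈ Subgroup.normalizer ((P : Subgroup G) : Set G) :=
      Sylow.smul_eq_iff_mem_normalizer.1 h1
    have h3 : g⁻¹ * k * g ∈ K := by
      have := (inferInstance : K.Normal).conj_mem k hkK g⁻¹
      simpa using this
    rw [hP] at h2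
    have h4 := BQR1b.stab_trivial p z hz hC K hpK _ h3 h2
    have : k = g * (g⁻¹ * k * g) * g⁻¹ := by group
    rw [this, h4]
    group
  have hstab : ∀ Q : Sylow p G, MulAction.stabilizer K Q = ⊥ := by
    intro Q
    rw [eq_bot_iff]
    rintro ⟨k, hkK⟩ hk
    rw [MulAction.mem_stabilizer_iff] at hk
    have hk' : k • Q = Q := hk
    have := hfree k hkK Q hk'
    rw [Subgroup.mem_bot]
    ext
    exact this
  have hequiv := MulAction.selfEquivOrbitsQuotientProd hstab
  have hcount : Nat.card (Sylow p G) =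
      Nat.card (Quotient (MulAction.orbitRel K (Sylow p G))) * Nat.card K := by
    rw [Nat.card_congr hequiv, Nat.card_prod]
  -- `|K| ≡ 1 mod p`
  have hc1 : Nat.card K ≡ 1 [MOD p] := by
    let act : MulAction (P : Subgroup G) K :=
      { smul := fun g k => ⟨(g : G) * k * (g : G)⁻¹, (inferInstance : K.Normal).conj_mem k k.2 g⟩
        one_smul := fun k => by
          apply Subtype.ext
          show ((1 : (P : Subgroup G)) : G) * (k : G) * ((1 : (P : Subgroup G)) : G)⁻¹ = k
          simp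
        mul_smul := fun g h k => by
          apply Subtype.ext
          show ((g * h : (P : Subgroup G)) : G) * (k : G) * ((g * h : (P : Subgroup G)) : G)⁻¹ =
            (g : G) * ((h : G) * (k : G) * (h : G)⁻¹) * (g : G)⁻¹
          simp [mul_assoc] }
    have h := (P.isPGroup').card_modEq_card_fixedPoints (α := K)
    have hfix : MulAction.fixedPoints (P : Subgroup G) K = {1} := by
      ext k
      rw [MulAction.mem_fixedPoints, Set.mem_singleton_iff]
      constructor
      · intro hk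
        have h1 := hk ⟨z, hzP⟩
        have h2 : z * (k : G) * z⁻¹ = k := congrArg Subtype.val h1
        have h3 : (k : G) ∈ Subgroup.centralizer ({z} : Set G) := by
          rw [Subgroup.mem_centralizer_iff]
          intro y hy
          rw [Set.mem_singleton_iff] at hy
          subst hy
          calc y * (k : G) = (y * (k : G) * y⁻¹) * y := by group
            _ = (k : G) * y := by rw [h2]
        rw [hC] at h3
        have := BQR1b.eq_one_of_mem p z hz K hpK (k : G) k.2 h3
        ext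
        simpa using this
      · rintro rfl g
        apply Subtype.ext
        show (g : G) * ((1 : K) : G) * (g : G)⁻¹ = ((1 : K) : G)
        simp
    rw [hfix] at h
    simpa using h
  have hn1 : Nat.card (Sylow p G) ≡ 1 [MOD p] := card_sylow_modEq_one p G
  have hm1 : Nat.card (Quotient (MulAction.orbitRel K (Sylow p G))) ≡ 1 [MOD p] := by
    have h := Nat.ModEq.mul_left (Nat.card (Quotient (MulAction.orbitRel K (Sylow p G)))) hc1
    rw [mul_one, ← hcount] at h
    exact h.symm.trans hn1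
  -- the number of orbits is not one
  have hmne : Nat.card (Quotient (MulAction.orbitRel K (Sylow p G))) ≠ 1 := by
    intro hm
    have hsub : Subsingleton (Quotient (MulAction.orbitRel K (Sylow p G))) :=
      (Nat.card_eq_one_iff_unique.1 hm).1
    have hdecomp : ∀ g : G, ∃ k ∈ K, ∃ n ∈ Subgroup.normalizer ((P : Subgroup G) : Set G),
        g = k * n := by
      intro g
      have he : (Quotient.mk'' (g • P) : Quotient (MulAction.orbitRel K (Sylow p G))) =
          Quotient.mk'' P := Subsingleton.elim _ _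
      have hr : (MulAction.orbitRel K (Sylow p G)).r (g • P) P := Quotient.exact' he
      rw [MulAction.orbitRel_apply] at hr
      obtain ⟨⟨k, hkK⟩, hk⟩ := hr
      have hk' : k • P = g • P := hk
      refine ⟨k, hkK, k⁻¹ * g, ?_, by group⟩
      apply Sylow.smul_eq_iff_mem_normalizer.1
      rw [mul_smul, ← hk', inv_smul_smul]
    -- round 1 : `G = K ⊔ P`
    have htop : K ⊔ (P : Subgroup G) = ⊤ := by
      rw [eq_top_iff, ← hperf, commutator_def, Subgroup.commutator_le]
      intro a _ b _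
      obtain ⟨k₁, hk₁, n₁, hn₁, rfl⟩ := hdecomp a
      obtain ⟨k₂, hk₂, n₂, hn₂, rfl⟩ := hdecomp b
      have hcP : ⁅n₁, n₂⁆ ∈ (P : Subgroup G) := by
        rw [hP, ← hC]
        rw [hP] at hn₁ hn₂
        exact BQR1a.commutator_mem_centralizer z n₁ n₂ hn₁ hn₂
      have e1 : QuotientGroup.mk' K k₁ = 1 := (QuotientGroup.eq_one_iff k₁).2 hk₁
      have e2 : QuotientGroup.mk' K k₂ = 1 := (QuotientGroup.eq_one_iff k₂).2 hk₂
      have hq : QuotientGroup.mk' K ⁅k₁ * n₁, k₂ * n₂⁆ = QuotientGroup.mk' K ⁅n₁, n₂⁆ := by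
        rw [map_commutatorElement, map_mul, map_mul, e1, e2, one_mul, one_mul,
          ← map_commutatorElement]
      have hmemK : ⁅n₁, n₂⁆⁻¹ * ⁅k₁ * n₁, k₂ * n₂⁆ ∈ K := by
        have := hq.symm
        rw [QuotientGroup.mk'_apply, QuotientGroup.mk'_apply, QuotientGroup.eq] at this
        exact this
      have : ⁅k₁ * n₁, k₂ * n₂⁆ = ⁅n₁, n₂⁆ * (⁅n₁, n₂⁆⁻¹ * ⁅k₁ * n₁, k₂ * n₂⁆) := by group
      rw [this, sup_comm]
      exact Subgroup.mul_mem_sup hcP hmemK
    -- round 2 : `G' ≤ K`
    apply hK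
    rw [eq_top_iff, ← hperf, commutator_def, Subgroup.commutator_le]
    intro a _ b _
    have hdec2 : ∀ c : G, ∃ k ∈ K, ∃ i : ℤ, c = k * z ^ i := by
      intro c
      have hc : c ∈ ((K ⊔ (P : Subgroup G) : Subgroup G) : Set G) := by rw [htop]; trivial
      rw [Subgroup.normal_mul] at hc
      obtain ⟨k, hk, y, hy, rfl⟩ := Set.mem_mul.1 hc
      have hy' : y ∈ Subgroup.zpowers z := by rw [← hP]; exact hy
      obtain ⟨i, rfl⟩ := Subgroup.mem_zpowers_iff.1 hy'
      exact ⟨k, hk, i, rfl⟩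
    obtain ⟨k₁, hk₁, i, rfl⟩ := hdec2 a
    obtain ⟨k₂, hk₂, j, rfl⟩ := hdec2 b
    have e1 : QuotientGroup.mk' K k₁ = 1 := (QuotientGroup.eq_one_iff k₁).2 hk₁
    have e2 : QuotientGroup.mk' K k₂ = 1 := (QuotientGroup.eq_one_iff k₂).2 hk₂
    rw [← QuotientGroup.eq_one_iff, ← QuotientGroup.mk'_apply, map_commutatorElement, map_mul,
      map_mul, e1, e2, one_mul, one_mul, map_zpow, map_zpow, commutatorElement_eq_one_iff_commute]
    exact Commute.zpow_zpow_self _ i j
  have hmpos : 0 < Nat.card (Quotient (MulAction.orbitRel K (Sylow p G))) := by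
    have : Nonempty (Quotient (MulAction.orbitRel K (Sylow p G))) := ⟨Quotient.mk'' P⟩
    exact Nat.card_pos
  have hcpos : 0 < Nat.card K := Nat.card_pos
  by_contra hKbot
  have hcne : Nat.card K ≠ 1 := fun h => hKbot (Subgroup.eq_bot_of_card_eq K h)
  have hm_ge := BQR1b.ge_of_modEq hm1 hmne hmpos
  have hc_ge := BQR1b.ge_of_modEq hc1 hcne hcpos
  have hge : (p + 1) * (p + 1) ≤ Nat.card (Sylow p G) := by
    rw [hcount]
    exact Nat.mul_le_mul hm_ge hc_ge
  nlinarith

end Cfsg.Agent.Lib.Helper5.BQ
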