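import Mathlib
import Cfsg.Agent.Lib.Helper5.BQ0

set_option autoImplicit false

namespace Cfsg.Agent.Lib.Helper5.BQ

open Cfsg
open Cfsg.Agent.Lib.Helper83 (trivIrr)
open Cfsg.Agent.Lib.Helper10.BR (psum DOut)
open scoped ComplexConjugate

namespace BQR2

/-- In a cyclic group `⟨z⟩` of prime order, `z` is a power of every non-identity element. -/
theorem exists_zpow_eq {G : Type*} [Group G] (p : ℕ) [Fact p.Prime] (z c : G)
    (hz : orderOf z = p) (hc : c ∈ Subgroup.zpowers z) (hc1 : c ≠ 1) : ∃ k : ℤ, c ^ k = z := by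
  have hcard : Nat.card (Subgroup.zpowers z) = p := by rw [Nat.card_zpowers, hz]
  have hne : (⟨c, hc⟩ : Subgroup.zpowers z) ≠ 1 := fun h => hc1 (by simpa using congrArg Subtype.val h)
  have htop := zpowers_eq_top_of_prime_card hcard hne
  have hzmem : (⟨z, Subgroup.mem_zpowers z⟩ : Subgroup.zpowers z) ∈
      Subgroup.zpowers (⟨c, hc⟩ : Subgroup.zpowers z) := by rw [htop]; exact Subgroup.mem_top _
  obtain ⟨k, hk⟩ := Subgroup.mem_zpowers_iff.1 hzmem
  exact ⟨k, by simpa using congrArg Subtype.val hk⟩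

end BQR2

/-- BQ-R2 -/
theorem exists_sylow_eq_zpowers {G : Type*} [Group G] [Finite G] (p : ℕ) [Fact p.Prime] (z : G)
    (hz : orderOf z = p) (hC : Subgroup.centralizer ({z} : Set G) = Subgroup.zpowers z) :
    ∃ P : Sylow p G, (P : Subgroup G) = Subgroup.zpowers z := by
  have hp : p.Prime := Fact.out
  have hPg : IsPGroup p (Subgroup.zpowers z) := by
    apply IsPGroup.of_card (n := 1)
    rw [Nat.card_zpowers, hz, pow_one]
  obtain ⟨P, hle⟩ := hPg.exists_le_sylow
  refine ⟨P, le_antisymm ?_ hle⟩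
  have hzP : z ∈ (P : Subgroup G) := hle (Subgroup.mem_zpowers z)
  have hz1 : z ≠ 1 := by
    rintro rfl
    rw [orderOf_one] at hz
    exact hp.one_lt.ne hz
  have : Nontrivial (P : Subgroup G) := ⟨⟨⟨z, hzP⟩, 1, fun h => hz1 (by simpa using congrArg Subtype.val h)⟩⟩
  have hcen : Nontrivial (Subgroup.center (P : Subgroup G)) := IsPGroup.center_nontrivial P.isPGroup'
  obtain ⟨⟨c, hc⟩, hcne⟩ := exists_ne (1 : Subgroup.center (P : Subgroup G))
  have hc1 : (c : G) ≠ 1 := by
    intro h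
    apply hcne
    ext
    simpa using h
  have hcz : (c : G) ∈ Subgroup.zpowers z := by
    rw [← hC, Subgroup.mem_centralizer_iff]
    intro h hh
    rw [Set.mem_singleton_iff] at hh
    subst hh
    have := (Subgroup.mem_center_iff.1 hc) ⟨h, hzP⟩
    exact congrArg Subtype.val this
  obtain ⟨k, hk⟩ := BQR2.exists_zpow_eq p z (c : G) hz hcz hc1
  intro g hg
  rw [← hC, Subgroup.mem_centralizer_iff]
  intro h hh
  rw [Set.mem_singleton_iff] at hh
  subst hh
  have h1 : (⟨g, hg⟩ : (P : Subgroup G)) * c = c * ⟨g, hg⟩ := (Subgroup.mem_center_iff.1 hc) ⟨g, hg⟩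
  have h2 : g * (c : G) = (c : G) * g := congrArg Subtype.val h1
  have h3 : Commute g ((c : G) ^ k) := (show Commute g (c : G) from h2).zpow_right k
  rw [hk] at h3
  exact h3.eq.symm

end Cfsg.Agent.Lib.Helper5.BQ
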