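import Cfsg.Agent.Lib.Helper27.ChevDyn
import Cfsg.Agent.Lib.Helper24.GenSimple

/-!
# Piece PJ for S2156 (helper27): the Chevalley group is generated by the simple root elements.
-/

set_option autoImplicit false

namespace Cfsg.Agent.Lib.Helper23.ChevDynP

open Cfsg.Lie Cfsg.Agent.Lib.Helper27.PslnOut Cfsg.Agent.Lib.Helper27.DynOut
  Cfsg.Agent.Lib.Helper27.ChevDyn

variable {F : Type*} [Field F] (D : ChevalleyDatum)

/-- the root element chosen in the group has the expected matrix -/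
theorem pj_xg_val (hD : D ∈ lst) (r : ℕ) (a : F) :
    ((xg D r a : GL D.Idx F) : Matrix D.Idx D.Idx F) = D.x F r a := by
  have hD' : D ∈ Cfsg.Agent.Lib.Helper24.chevList := hD
  have hex : ∃ g : ↥(D.group F), ((g : GL D.Idx F) : Matrix D.Idx D.Idx F) = D.x F r a :=
    ⟨⟨Cfsg.Agent.Lib.Helper24.xGL D hD' r a, Cfsg.Agent.Lib.Helper24.xGL_mem_group D hD' r a⟩,
      rfl⟩
  unfold xg
  rw [dif_pos hex]
  exact hex.choose_spec

/-- PJ -/
theorem pieceJ (hD : D ∈ lst) :
    ∀ H : Subgroup ↥(D.group F), (∀ (i : Fin D.rank) (a : F), xs D i a ∈ H) →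
      (∀ (i : Fin D.rank) (a : F), ys D i a ∈ H) → H = ⊤ := by
  intro H hx hy
  have hD' : D ∈ Cfsg.Agent.Lib.Helper24.chevList := hD
  have hle : D.group F ≤ H.map (D.group F).subtype := by
    apply Cfsg.Agent.Lib.Helper24.group_le_of_simple D hD'
    intro i hi
    constructor
    · unfold ChevalleyDatum.rootSubgroup
      rw [Subgroup.closure_le]
      rintro g ⟨t, hg⟩
      refine ⟨xs D ⟨i, hi⟩ t, hx ⟨i, hi⟩ t, ?_⟩
      apply Units.ext
      rw [hg]
      exact pj_xg_val D hD (D.simple i) t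
    · unfold ChevalleyDatum.rootSubgroup
      rw [Subgroup.closure_le]
      rintro g ⟨t, hg⟩
      refine ⟨ys D ⟨i, hi⟩ t, hy ⟨i, hi⟩ t, ?_⟩
      apply Units.ext
      rw [hg]
      exact pj_xg_val D hD (D.neg (D.simple i)) t
  rw [eq_top_iff]
  intro g _
  obtain ⟨h, hh, hg⟩ := hle g.2
  have h1 : h = g := Subtype.ext hg
  rw [← h1]
  exact hh

end Cfsg.Agent.Lib.Helper23.ChevDynP
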