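import Mathlib
import Cfsg.Agent.Lib.Helper23.Syl
import Cfsg.Agent.Lib.Helper23.Count
import Cfsg.Agent.Lib.Helper23.Brodkey
import Cfsg.Agent.Lib.Helper23.FixBound

namespace Cfsg.Agent.Lib.Helper23

open Subgroup

section
variable {G : Type*} [Group G] [Finite G]

/-- If `z` of prime order `p` is self-centralizing, then `|G| = p * m` with `p ∤ m`. -/
theorem card_eq_of_self_centralizing {p : ℕ} [hp : Fact p.Prime] (z : G) (hz : orderOf z = p)
    (hC : centralizer ({z} : Set G) = zpowers z) :
    ∃ m, Nat.card G = p * m ∧ ¬ p ∣ m := by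
  have hzc : Nat.card (zpowers z) = p := by rw [Nat.card_zpowers, hz]
  have hpg : IsPGroup p (zpowers z) := IsPGroup.of_card (n := 1) (by rw [hzc, pow_one])
  obtain ⟨Q, hQ⟩ := hpg.exists_le_sylow
  have hzQ : z ∈ (Q : Subgroup G) := hQ (mem_zpowers z)
  have hz1 : z ≠ 1 := by
    rintro rfl
    rw [orderOf_one] at hz
    exact hp.out.one_lt.ne hz
  have hnt : Nontrivial (Q : Subgroup G) :=
    ⟨⟨⟨z, hzQ⟩, 1, fun h => hz1 (congrArg Subtype.val h)⟩⟩
  have hcn := IsPGroup.center_nontrivial Q.2
  obtain ⟨w, hw⟩ := exists_ne (1 : center (Q : Subgroup G))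
  have hw1 : ((w : (Q : Subgroup G)) : G) ≠ 1 := fun hh => hw (Subtype.ext (Subtype.ext hh))
  have hwcomm : ∀ q ∈ (Q : Subgroup G), q * ((w : (Q : Subgroup G)) : G) =
      ((w : (Q : Subgroup G)) : G) * q := by
    intro q hq
    have := Subgroup.mem_center_iff.mp w.2 ⟨q, hq⟩
    exact congrArg Subtype.val this
  have hwz : ((w : (Q : Subgroup G)) : G) ∈ zpowers z := by
    rw [← hC, mem_centralizer_iff]
    intro y hy
    rw [Set.mem_singleton_iff] at hy
    subst hy
    exact hwcomm y hzQ
  have hzw : z ∈ zpowers ((w : (Q : Subgroup G)) : G) := by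
    have h1 : (⟨z, mem_zpowers z⟩ : zpowers z) ∈
        zpowers (⟨((w : (Q : Subgroup G)) : G), hwz⟩ : zpowers z) :=
      mem_zpowers_of_prime_card hzc (fun hh => hw1 (congrArg Subtype.val hh))
    obtain ⟨k, hk⟩ := h1
    exact ⟨k, by simpa using congrArg Subtype.val hk⟩
  have hQC : (Q : Subgroup G) ≤ zpowers z := by
    rw [← hC]
    intro q hq
    rw [mem_centralizer_iff]
    intro y hy
    rw [Set.mem_singleton_iff] at hy
    subst hy
    obtain ⟨k, rfl⟩ := hzw
    have hcomm : Commute ((w : (Q : Subgroup G)) : G) q := (hwcomm q hq).symm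
    exact (hcomm.zpow_left k).eq
  have hQe : (Q : Subgroup G) = zpowers z := le_antisymm hQC hQ
  have hQc : Nat.card (Q : Subgroup G) = p := by rw [hQe, hzc]
  refine ⟨(Q : Subgroup G).index, ?_, Sylow.not_dvd_index Q⟩
  rw [← (Q : Subgroup G).card_mul_index, hQc]

/-- If `z` of prime order `p` is self-centralizing and `|G| = p * m`, every element of order `p`
has exactly `m` conjugates. -/
theorem card_isConj_of_self_centralizing {p m : ℕ} [hp : Fact p.Prime] (z : G)
    (hz : orderOf z = p) (hC : centralizer ({z} : Set G) = zpowers z)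
    (hG : Nat.card G = p * m) (hm : ¬ p ∣ m) (x : G) (hx : orderOf x = p) :
    Nat.card {h : G // IsConj x h} = m := by
  have hzc : Nat.card (zpowers z) = p := by rw [Nat.card_zpowers, hz]
  obtain ⟨R, hR⟩ := exists_sylow_eq_zpowers hG hm x hx
  obtain ⟨Q, hQ⟩ := exists_sylow_eq_zpowers hG hm z hz
  obtain ⟨g, hg⟩ := MulAction.exists_smul_eq G Q R
  have hxR : x ∈ (R : Subgroup G) := hR ▸ mem_zpowers x
  rw [← hg, mem_smul_sylow_iff, hQ] at hxR
  have hx1 : x ≠ 1 := by
    rintro rfl
    rw [orderOf_one] at hx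
    exact hp.out.one_lt.ne hx
  have hy1 : g⁻¹ * x * g ≠ 1 := by
    intro hh
    apply hx1
    calc x = g * (g⁻¹ * x * g) * g⁻¹ := by group
      _ = 1 := by rw [hh]; group
  have hzy : z ∈ zpowers (g⁻¹ * x * g) := by
    have h1 : (⟨z, mem_zpowers z⟩ : zpowers z) ∈
        zpowers (⟨g⁻¹ * x * g, hxR⟩ : zpowers z) :=
      mem_zpowers_of_prime_card hzc (fun hh => hy1 (congrArg Subtype.val hh))
    obtain ⟨k, hk⟩ := h1
    exact ⟨k, by simpa using congrArg Subtype.val hk⟩
  have hCy : centralizer ({g⁻¹ * x * g} : Set G) = zpowers z := by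
    rw [← hC]
    ext c
    simp only [mem_centralizer_iff, Set.mem_singleton_iff, forall_eq]
    constructor
    · intro hc
      obtain ⟨k, hk⟩ := hzy
      rw [← hk]
      exact (Commute.zpow_left (show Commute (g⁻¹ * x * g) c from hc) k).eq
    · intro hc
      obtain ⟨k, hk⟩ := hxR
      rw [← hk]
      exact (Commute.zpow_left (show Commute z c from hc) k).eq
  have hyx : IsConj (g⁻¹ * x * g) x := isConj_iff.mpr ⟨g, by group⟩
  have e : Nat.card {h : G // IsConj x h} = Nat.card {h : G // IsConj (g⁻¹ * x * g) h} :=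
    Nat.card_congr (Equiv.subtypeEquivRight
      (fun h => ⟨fun hh => hyx.trans hh, fun hh => hyx.symm.trans hh⟩))
  rw [e, card_isConj_eq_index, hCy]
  have := (zpowers z).card_mul_index
  rw [hzc, hG] at this
  exact Nat.eq_of_mul_eq_mul_left hp.out.pos this

/-- The elements of order `p` fall into classes of size `m`. -/
theorem card_orderOf_eq_classes_mul {p m : ℕ} [hp : Fact p.Prime] (z : G)
    (hz : orderOf z = p) (hC : centralizer ({z} : Set G) = zpowers z)
    (hG : Nat.card G = p * m) (hm : ¬ p ∣ m) :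
    Nat.card {g : G // orderOf g = p} =
      Nat.card {c : ConjClasses G // ∃ g : G, ConjClasses.mk g = c ∧ orderOf g = p} * m := by
  classical
  let f : {g : G // orderOf g = p} →
      {c : ConjClasses G // ∃ g : G, ConjClasses.mk g = c ∧ orderOf g = p} :=
    fun g => ⟨ConjClasses.mk g.1, g.1, rfl, g.2⟩
  have : Fintype {c : ConjClasses G // ∃ g : G, ConjClasses.mk g = c ∧ orderOf g = p} :=
    Fintype.ofFinite _
  rw [← Nat.card_congr (Equiv.sigmaFiberEquiv f), Nat.card_sigma]
  have hfib : ∀ c : {c : ConjClasses G // ∃ g : G, ConjClasses.mk g = c ∧ orderOf g = p},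
      Nat.card {s : {g : G // orderOf g = p} // f s = c} = m := by
    rintro ⟨c, g₀, rfl, hg₀⟩
    rw [← card_isConj_of_self_centralizing z hz hC hG hm g₀ hg₀]
    apply Nat.card_congr
    exact
      { toFun := fun s => ⟨s.1.1,
          ConjClasses.mk_eq_mk_iff_isConj.mp (congrArg Subtype.val s.2).symm⟩
        invFun := fun h => ⟨⟨h.1, (orderOf_eq_of_isConj h.2).trans hg₀⟩,
          Subtype.ext (ConjClasses.mk_eq_mk_iff_isConj.mpr h.2.symm)⟩
        left_inv := fun s => rfl
        right_inv := fun h => rfl }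
  rw [Finset.sum_congr rfl (fun c _ => hfib c)]
  simp [Nat.card_eq_fintype_card]

/-- The order formula for a group with a self-centralizing element of prime order. -/
theorem order_formula_of_self_centralizing (p : ℕ) [hp : Fact p.Prime] (z : G)
    (hz : orderOf z = p) (hC : centralizer ({z} : Set G) = zpowers z) :
    ∃ n t : ℕ,
      t = Nat.card {c : ConjClasses G // ∃ g : G, ConjClasses.mk g = c ∧ orderOf g = p} ∧
      t ∣ p - 1 ∧ Nat.card (Sylow p G) = 1 + n * p ∧
      Nat.card G * t = (p - 1) * p * (1 + n * p) := by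
  obtain ⟨m, hG, hm⟩ := card_eq_of_self_centralizing z hz hC
  have hcount := card_orderOf_eq_classes_mul z hz hC hG hm
  have hsyl := card_orderOf_eq_prime hG hm
  obtain ⟨Q⟩ : Nonempty (Sylow p G) := inferInstance
  have hrel := relIndex_sylow_normalizer_mul (k := 1) (by rw [hG, pow_one]) hm Q
  have hmod := card_sylow_mod (G := G) p
  rw [Nat.mod_eq_of_lt hp.out.one_lt] at hmod
  have hnp : 0 < Nat.card (Sylow p G) := Nat.card_pos
  have hnpe : Nat.card (Sylow p G) = 1 + (Nat.card (Sylow p G) / p) * p := by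
    have := Nat.div_add_mod (Nat.card (Sylow p G)) p
    rw [hmod] at this
    rw [mul_comm] at this
    omega
  refine ⟨Nat.card (Sylow p G) / p, _, rfl, ?_, hnpe, ?_⟩
  · have h1 : Nat.card (Sylow p G) * (p - 1) = Nat.card (Sylow p G) *
        (Nat.card {c : ConjClasses G // ∃ g : G, ConjClasses.mk g = c ∧ orderOf g = p} *
          (Q : Subgroup G).relIndex (normalizer ((Q : Subgroup G) : Set G))) := by
      rw [← hsyl, hcount, ← hrel]
      ring
    exact ⟨_, Nat.eq_of_mul_eq_mul_left hnp h1⟩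
  · rw [← hnpe, hG]
    calc p * m * Nat.card {c : ConjClasses G // ∃ g : G, ConjClasses.mk g = c ∧ orderOf g = p}
        = p * (Nat.card {c : ConjClasses G // ∃ g : G, ConjClasses.mk g = c ∧ orderOf g = p}
            * m) := by ring
      _ = p * (Nat.card (Sylow p G) * (p - 1)) := by rw [← hcount, hsyl]
      _ = (p - 1) * p * Nat.card (Sylow p G) := by ring

end

end Cfsg.Agent.Lib.Helper23
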