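import Mathlib
import Cfsg.Agent.Lib.Helper44.ESDefs

/-!
# ES-K1 (piece of S5877, architect helper44)

`a ^ r = 1`, `ζ` a primitive `r`-th root of unity in `F`, `g a = a g`: the `c`-eigenspace of `g` is the direct
sum of its intersections with the `ζ ^ i`-eigenspaces of `a`.
-/

set_option autoImplicit false

namespace Cfsg.Agent.Lib.Helper44.ES

open Module Module.End Polynomial

private theorem esk1_ker {F V : Type*} [Field F] [AddCommGroup V] [Module F V]
    (A : Module.End F V) (μ : F) :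
    LinearMap.ker (aeval A (X - C μ : F[X])) = eigenspace A μ := by
  ext v
  simp [sub_eq_zero]

private theorem esk1_aux {F V : Type*} [Field F] [AddCommGroup V] [Module F V] [FiniteDimensional F V]
    (A : Module.End F V) (ζ : F) (r : ℕ) (hinj : ∀ i < r, ∀ j < r, ζ ^ i = ζ ^ j → i = j) (k : ℕ)
    (hk : k ≤ r) :
    Module.finrank F (LinearMap.ker (aeval A (∏ i ∈ Finset.range k, (X - C (ζ ^ i) : F[X]))))
      = ∑ i ∈ Finset.range k, Module.finrank F (eigenspace A (ζ ^ i)) := by
  induction k with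
  | zero =>
    have h1 : LinearMap.ker (aeval A (1 : F[X])) = ⊥ := by
      ext v; simp
    rw [Finset.prod_range_zero, Finset.sum_range_zero, h1, finrank_bot]
  | succ k ih =>
    have ih' := ih (Nat.le_of_succ_le hk)
    rw [Finset.prod_range_succ, Finset.sum_range_succ, ← ih']
    have hcop : IsCoprime (∏ i ∈ Finset.range k, (X - C (ζ ^ i) : F[X])) (X - C (ζ ^ k) : F[X]) := by
      apply IsCoprime.prod_left
      intro i hi
      apply Polynomial.isCoprime_X_sub_C_of_isUnit_sub
      have hik : i < k := Finset.mem_range.1 hi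
      have hne : ζ ^ i ≠ ζ ^ k := fun h => by
        have := hinj i (by omega) k (by omega) h
        omega
      exact (sub_ne_zero.2 hne).isUnit
    rw [← Polynomial.sup_ker_aeval_eq_ker_aeval_mul_of_coprime A hcop]
    have hdisj := Polynomial.disjoint_ker_aeval_of_isCoprime A hcop
    have h1 := Submodule.finrank_sup_add_finrank_inf_eq
      (LinearMap.ker (aeval A (∏ i ∈ Finset.range k, (X - C (ζ ^ i) : F[X]))))
      (LinearMap.ker (aeval A (X - C (ζ ^ k) : F[X])))
    rw [hdisj.eq_bot, finrank_bot, add_zero] at h1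
    rw [h1, esk1_ker]

theorem es_k1 {n : ℕ} {F : Type*} [Field F] (g a : Matrix (Fin n) (Fin n) F) (ζ : F) (r : ℕ) (hr : 0 < r)
    (hζ : ζ ^ r = 1) (hζ' : ∀ j, 0 < j → j < r → ζ ^ j ≠ 1) (ha : a ^ r = 1) (hga : g * a = a * g) (c : F) :
    Module.finrank F (Module.End.eigenspace (Matrix.toLin' g) c) = ∑ i ∈ Finset.range r, dd g a c (ζ ^ i) := by
  classical
  obtain ⟨E, hE⟩ : ∃ E, E = Module.End.eigenspace (Matrix.toLin' g) c := ⟨_, rfl⟩
  have hinv : ∀ v ∈ E, Matrix.toLin' a v ∈ E := by
    intro v hv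
    rw [hE, Module.End.mem_eigenspace_iff] at hv ⊢
    have h1 : Matrix.toLin' g (Matrix.toLin' a v) = Matrix.toLin' a (Matrix.toLin' g v) := by
      rw [← LinearMap.comp_apply, ← LinearMap.comp_apply, ← Matrix.toLin'_mul, ← Matrix.toLin'_mul, hga]
    rw [h1, hv, map_smul]
  obtain ⟨A', hA'⟩ : ∃ A' : Module.End F E, A' = LinearMap.restrict (Matrix.toLin' a) hinv := ⟨_, rfl⟩
  have hA'v : ∀ v : E, ((A' v : E) : Fin n → F) = Matrix.toLin' a (v : Fin n → F) := by
    intro v; rw [hA']; rfl
  have hprim : IsPrimitiveRoot ζ r := IsPrimitiveRoot.mk_of_lt ζ hr hζ hζ'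
  have hinj : ∀ i < r, ∀ j < r, ζ ^ i = ζ ^ j → i = j := fun i hi j hj h => hprim.pow_inj hi hj h
  have hpow : ∀ (k : ℕ) (v : E), (((A' ^ k) v : E) : Fin n → F)
      = Matrix.toLin' (a ^ k) (v : Fin n → F) := by
    intro k
    induction k with
    | zero => intro v; simp
    | succ k ih =>
      intro v
      rw [pow_succ, Module.End.mul_apply, ih, hA'v, pow_succ, Matrix.toLin'_mul, LinearMap.comp_apply]
  have hA'r : A' ^ r = 1 := by
    ext v
    rw [hpow, ha]; simp
  have : NeZero r := ⟨hr.ne'⟩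
  have hroots : nthRootsFinset r (1 : F) = (Finset.range r).image (fun i => ζ ^ i) := by
    ext x
    rw [mem_nthRootsFinset hr, Finset.mem_image]
    constructor
    · intro hx
      obtain ⟨i, hi, rfl⟩ := hprim.eq_pow_of_pow_eq_one hx
      exact ⟨i, Finset.mem_range.2 hi, rfl⟩
    · rintro ⟨i, _, rfl⟩
      rw [← pow_mul, mul_comm, pow_mul, hζ, one_pow]
  have hprod : (∏ i ∈ Finset.range r, (X - C (ζ ^ i) : F[X])) = X ^ r - 1 := by
    rw [X_pow_sub_one_eq_prod hr hprim, hroots, Finset.prod_image]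
    intro i hi j hj h
    exact hinj i (Finset.mem_range.1 hi) j (Finset.mem_range.1 hj) h
  have htop : LinearMap.ker (aeval A' (∏ i ∈ Finset.range r, (X - C (ζ ^ i) : F[X]))) = ⊤ := by
    rw [hprod]; simp [hA'r]
  have hmain := esk1_aux A' ζ r hinj r le_rfl
  rw [htop, finrank_top] at hmain
  rw [← hE, hmain]
  apply Finset.sum_congr rfl
  intro i _
  unfold dd
  rw [← Submodule.finrank_map_subtype_eq E (eigenspace A' (ζ ^ i))]
  have hmap : Submodule.map E.subtype (eigenspace A' (ζ ^ i))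
      = Module.End.eigenspace (Matrix.toLin' g) c ⊓ Module.End.eigenspace (Matrix.toLin' a) (ζ ^ i) := by
    ext v
    rw [Submodule.mem_map, Submodule.mem_inf, ← hE]
    constructor
    · rintro ⟨w, hw, rfl⟩
      refine ⟨w.2, ?_⟩
      rw [Module.End.mem_eigenspace_iff] at hw ⊢
      have := congrArg (fun u : E => (u : Fin n → F)) hw
      simp only [hA'v] at this
      simpa using this
    · rintro ⟨hvE, hv⟩
      refine ⟨⟨v, hvE⟩, ?_, rfl⟩
      rw [Module.End.mem_eigenspace_iff] at hv ⊢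
      apply Subtype.ext
      rw [hA'v]
      simpa using hv
  rw [hmap]

end Cfsg.Agent.Lib.Helper44.ES
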