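import Mathlib
import Cfsg.Agent.Lib.Helper23.G168b

namespace Cfsg.Agent.Lib.Helper23

open Subgroup

section
set_option linter.unusedSectionVars false
variable {G : Type*} [Group G] [Finite G] [IsSimpleGroup G]

theorem g168_orderOf_ne_eight (h : Nat.card G = 168) (g : G) : orderOf g ≠ 8 := by
  have : Fact (Nat.Prime 2) := ⟨by norm_num⟩
  intro h8
  have hc : Nat.card (zpowers g) = 2 ^ 3 := by rw [Nat.card_zpowers, h8]; norm_num
  have hp : IsPGroup 2 (zpowers g) := IsPGroup.of_card hc
  obtain ⟨T, hT⟩ := hp.exists_le_sylow
  have hTe : zpowers g = (T : Subgroup G) := by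
    apply Subgroup.eq_of_le_of_card_ge hT
    rw [g168_card_sylow2 h T, hc]
    norm_num
  apply g168_sylow2_not_comm h T
  rw [← hTe]
  infer_instance

theorem g168_orderOf_two_or_four (h : Nat.card G = 168) (g : G) (hg : orderOf g ∣ 8)
    (hg1 : g ≠ 1) : orderOf g = 2 ∨ orderOf g = 4 := by
  have hmem : orderOf g ∈ Nat.divisors 8 := by
    rw [Nat.mem_divisors]
    exact ⟨hg, by norm_num⟩
  rw [show Nat.divisors 8 = {1, 2, 4, 8} from by decide +kernel] at hmem
  simp only [Finset.mem_insert, Finset.mem_singleton] at hmem
  rcases hmem with h1 | h1 | h1 | h1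
  · exact absurd (orderOf_eq_one_iff.mp h1) hg1
  · exact Or.inl h1
  · exact Or.inr h1
  · exact absurd h1 (g168_orderOf_ne_eight h g)

theorem g168_exists_order_four (h : Nat.card G = 168) (T : Sylow 2 G) :
    ∃ u ∈ (T : Subgroup G), orderOf u = 4 := by
  by_contra hno
  push Not at hno
  apply g168_sylow2_not_comm h T
  refine ⟨⟨fun a b => mul_comm_of_forall_mul_self ?_ a b⟩⟩
  intro a
  by_cases ha : (a : G) = 1
  · have : a = 1 := Subtype.ext ha
    rw [this, mul_one]
  · rcases g168_orderOf_two_or_four h (a : G) (g168_orderOf_dvd_of_mem h T a a.2) ha with h2 | h4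
    · apply Subtype.ext
      have := pow_orderOf_eq_one (a : G)
      rw [h2, pow_two] at this
      exact this
    · exact absurd h4 (hno a a.2)

/-- The normalizer of a cyclic subgroup of order 4 is the Sylow 2-subgroup containing it. -/
theorem g168_normalizer_zpowers_four (h : Nat.card G = 168) (T : Sylow 2 G) (u : G)
    (hu : u ∈ (T : Subgroup G)) (hu4 : orderOf u = 4) :
    normalizer ((zpowers u : Subgroup G) : Set G) = T := by
  have hT8 := g168_card_sylow2 h T
  have hC4 : Nat.card (zpowers u) = 4 := by rw [Nat.card_zpowers, hu4]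
  have hCT : zpowers u ≤ (T : Subgroup G) := by
    rw [zpowers_le]
    exact hu
  -- `zpowers u` has index 2 in `T`, hence is normal in `T`
  have hidx : ((zpowers u).subgroupOf (T : Subgroup G)).index = 2 := by
    have h1 := card_inf_mul_index_subgroupOf (T : Subgroup G) (zpowers u)
    rw [inf_eq_right.mpr hCT, hC4, hT8] at h1
    omega
  have hnorm : ((zpowers u).subgroupOf (T : Subgroup G)).Normal :=
    Subgroup.normal_of_index_eq_two hidx
  have hTN : (T : Subgroup G) ≤ normalizer ((zpowers u : Subgroup G) : Set G) :=
    (Subgroup.normal_subgroupOf_iff_le_normalizer hCT).mp hnorm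
  -- the order of the normalizer divides 16
  have hu1 : u ≠ 1 := by
    rintro rfl
    rw [orderOf_one] at hu4
    omega
  have hcd : Nat.card (centralizer ((zpowers u : Subgroup G) : Set G)) ∣ 8 := by
    rw [centralizer_zpowers_eq]
    exact g168_card_centralizer_dvd h u (by rw [hu4]; norm_num) hu1
  have haut : (centralizer ((zpowers u : Subgroup G) : Set G)).relIndex
      (normalizer ((zpowers u : Subgroup G) : Set G)) ∣ 2 := by
    have h1 := relIndex_centralizer_normalizer_dvd_card_mulAut (zpowers u)
    rwa [IsCyclic.card_mulAut, hC4, show Nat.totient 4 = 2 from by decide] at h1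
  have hmul := card_inf_mul_index_subgroupOf (normalizer ((zpowers u : Subgroup G) : Set G))
    (centralizer ((zpowers u : Subgroup G) : Set G))
  rw [inf_eq_right.mpr (centralizer_le_normalizer _)] at hmul
  have h16 : Nat.card (normalizer ((zpowers u : Subgroup G) : Set G)) ∣ 16 := by
    rw [← hmul]
    exact mul_dvd_mul hcd haut
  have h168 : Nat.card (normalizer ((zpowers u : Subgroup G) : Set G)) ∣ 168 := by
    have := Subgroup.card_subgroup_dvd_card (normalizer ((zpowers u : Subgroup G) : Set G))
    rwa [h] at this
  have h8 : Nat.card (normalizer ((zpowers u : Subgroup G) : Set G)) ∣ 8 :=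
    Nat.dvd_gcd h16 h168
  symm
  apply Subgroup.eq_of_le_of_card_ge hTN
  rw [hT8]
  exact Nat.le_of_dvd (by norm_num) h8

/-- The centralizer of an element of order 4 has order 4. -/
theorem g168_card_centralizer_four (h : Nat.card G = 168) (u : G) (hu4 : orderOf u = 4) :
    Nat.card (centralizer ({u} : Set G)) = 4 := by
  have : Fact (Nat.Prime 2) := ⟨by norm_num⟩
  have hC4 : Nat.card (zpowers u) = 2 ^ 2 := by rw [Nat.card_zpowers, hu4]; norm_num
  obtain ⟨T, hT⟩ := (IsPGroup.of_card hC4).exists_le_sylow
  have hu : u ∈ (T : Subgroup G) := hT (mem_zpowers u)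
  have hT8 := g168_card_sylow2 h T
  have hu1 : u ≠ 1 := by
    rintro rfl
    rw [orderOf_one] at hu4
    omega
  have hd := g168_card_centralizer_dvd h u (by rw [hu4]; norm_num) hu1
  have hle : zpowers u ≤ centralizer ({u} : Set G) := by
    rw [← centralizer_zpowers_eq]
    exact Subgroup.le_centralizer (zpowers u)
  have h4d := Subgroup.card_dvd_of_le hle
  rw [hC4] at h4d
  have hCT : centralizer ({u} : Set G) ≤ (T : Subgroup G) := by
    rw [← g168_normalizer_zpowers_four h T u hu hu4, ← centralizer_zpowers_eq]
    exact centralizer_le_normalizer _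
  have hne8 : Nat.card (centralizer ({u} : Set G)) ≠ 8 := by
    intro h8
    have hTe : centralizer ({u} : Set G) = (T : Subgroup G) := by
      apply Subgroup.eq_of_le_of_card_ge hCT
      rw [hT8, h8]
    apply g168_sylow2_not_comm h T
    refine ⟨⟨fun a b => mul_comm_of_center_index_le_two ?_ a b⟩⟩
    -- the center of `T` contains `u`, so it has index at most 2
    have hucen : (⟨u, hu⟩ : (T : Subgroup G)) ∈ center (T : Subgroup G) := by
      rw [Subgroup.mem_center_iff]
      intro t
      have ht : (t : G) ∈ centralizer ({u} : Set G) := by rw [hTe]; exact t.2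
      rw [mem_centralizer_iff] at ht
      apply Subtype.ext
      exact (ht u rfl).symm
    have hz : zpowers (⟨u, hu⟩ : (T : Subgroup G)) ≤ center (T : Subgroup G) := by
      rw [zpowers_le]
      exact hucen
    have h4 : 4 ∣ Nat.card (center (T : Subgroup G)) := by
      have := Subgroup.card_dvd_of_le hz
      rwa [Nat.card_zpowers, ← Subgroup.orderOf_coe, hu4] at this
    have hci := (center (T : Subgroup G)).card_mul_index
    rw [hT8] at hci
    obtain ⟨k, hk⟩ := h4
    rw [hk] at hci
    have hki : k * (center (T : Subgroup G)).index = 2 := by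
      have := mul_assoc 4 k (center (T : Subgroup G)).index
      omega
    exact Nat.le_of_dvd (by norm_num) (Dvd.intro_left k hki)
  have hmem : Nat.card (centralizer ({u} : Set G)) ∈ Nat.divisors 8 := by
    rw [Nat.mem_divisors]
    exact ⟨hd, by norm_num⟩
  rw [show Nat.divisors 8 = {1, 2, 4, 8} from by decide +kernel] at hmem
  simp only [Finset.mem_insert, Finset.mem_singleton] at hmem
  rcases hmem with h1 | h1 | h1 | h1
  · rw [h1] at h4d; omega
  · rw [h1] at h4d; omega
  · exact h1
  · exact absurd h1 hne8

theorem g168_card_orderOf_two_four (h : Nat.card G = 168) :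
    Nat.card {g : G // orderOf g = 2} = 21 ∧ Nat.card {g : G // orderOf g = 4} = 42 := by
  obtain ⟨T⟩ : Nonempty (Sylow 2 G) := inferInstance
  obtain ⟨z, hzT, hz2, hzc⟩ := g168_exists_central_involution h T
  obtain ⟨u, huT, hu4⟩ := g168_exists_order_four h T
  have hz1 : z ≠ 1 := by
    rintro rfl
    rw [orderOf_one] at hz2
    omega
  have hCz := g168_centralizer_central h T z hzT hz1 hzc
  have h21 : (centralizer ({z} : Set G)).index = 21 := by
    have hc8 : Nat.card (centralizer ({z} : Set G)) = 8 := by
      rw [hCz]
      exact g168_card_sylow2 h T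
    have := (centralizer ({z} : Set G)).card_mul_index
    rw [hc8, h] at this
    omega
  have h42 : (centralizer ({u} : Set G)).index = 42 := by
    have := (centralizer ({u} : Set G)).card_mul_index
    rw [g168_card_centralizer_four h u hu4, h] at this
    omega
  have hz := index_centralizer_le_card_orderOf z
  have hu := index_centralizer_le_card_orderOf u
  rw [h21, hz2] at hz
  rw [h42, hu4] at hu
  have h63 := g168_card_two_elements h
  omega

theorem g168_isConj_two (h : Nat.card G = 168) (s t : G) (hs : orderOf s = 2)
    (ht : orderOf t = 2) : IsConj s t := by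
  obtain ⟨T⟩ : Nonempty (Sylow 2 G) := inferInstance
  obtain ⟨z, hzT, hz2, hzc⟩ := g168_exists_central_involution h T
  have hz1 : z ≠ 1 := by
    rintro rfl
    rw [orderOf_one] at hz2
    omega
  have hCz := g168_centralizer_central h T z hzT hz1 hzc
  have h21 : (centralizer ({z} : Set G)).index = 21 := by
    have hc8 : Nat.card (centralizer ({z} : Set G)) = 8 := by
      rw [hCz]
      exact g168_card_sylow2 h T
    have := (centralizer ({z} : Set G)).card_mul_index
    rw [hc8, h] at this
    omega
  have key := isConj_of_card_orderOf_eq_index z (by rw [hz2, h21, (g168_card_orderOf_two_four h).1])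
  exact (key s (hs.trans hz2.symm)).symm.trans (key t (ht.trans hz2.symm))

theorem g168_isConj_four (h : Nat.card G = 168) (s t : G) (hs : orderOf s = 4)
    (ht : orderOf t = 4) : IsConj s t := by
  have h42 : (centralizer ({s} : Set G)).index = 42 := by
    have := (centralizer ({s} : Set G)).card_mul_index
    rw [g168_card_centralizer_four h s hs, h] at this
    omega
  exact isConj_of_card_orderOf_eq_index s (by rw [hs, h42, (g168_card_orderOf_two_four h).2]) t
    (ht.trans hs.symm)

theorem g168_isConj_three (h : Nat.card G = 168) (s t : G) (hs : orderOf s = 3)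
    (ht : orderOf t = 3) : IsConj s t := by
  have h56 : (centralizer ({s} : Set G)).index = 56 := by
    have hc3 : Nat.card (centralizer ({s} : Set G)) = 3 := by
      rw [g168_centralizer_three h s hs, Nat.card_zpowers, hs]
    have := (centralizer ({s} : Set G)).card_mul_index
    rw [hc3, h] at this
    omega
  exact isConj_of_card_orderOf_eq_index s (by rw [hs, h56, g168_card_orderOf_three h]) t
    (ht.trans hs.symm)

end

end Cfsg.Agent.Lib.Helper23
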