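import Mathlib
import Cfsg.Agent.Lib.Helper23.G168c

namespace Cfsg.Agent.Lib.Helper23

open Subgroup

section
set_option linter.unusedSectionVars false
variable {G : Type*} [Group G] [Finite G] [IsSimpleGroup G]

/-- The elements of order 4 in a Sylow 2-subgroup all lie in one cyclic subgroup. -/
theorem g168_four_mem_zpowers (h : Nat.card G = 168) (T : Sylow 2 G) (u s : G)
    (hu : u ∈ (T : Subgroup G)) (hs : s ∈ (T : Subgroup G)) (hu4 : orderOf u = 4)
    (hs4 : orderOf s = 4) : s ∈ zpowers u := by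
  have : Fact (Nat.Prime 2) := ⟨by norm_num⟩
  obtain ⟨g, hg⟩ := isConj_iff.mp (g168_isConj_four h u s hu4 hs4)
  -- `u ∈ g⁻¹ • T`
  have hu' : u ∈ ((g⁻¹ • T : Sylow 2 G) : Subgroup G) := by
    rw [mem_smul_sylow_iff, inv_inv, hg]
    exact hs
  have h1 := g168_normalizer_zpowers_four h T u hu hu4
  have h2 := g168_normalizer_zpowers_four h (g⁻¹ • T) u hu' hu4
  have h3 : g⁻¹ • T = T := Sylow.ext (h2.symm.trans h1)
  have hgN : g⁻¹ ∈ normalizer ((T : Subgroup G) : Set G) :=
    Sylow.smul_eq_iff_mem_normalizer.mp h3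
  rw [g168_normalizer_sylow2 h T] at hgN
  have hgT : g ∈ (T : Subgroup G) := by
    have := inv_mem hgN
    rwa [inv_inv] at this
  have hgNu : g ∈ normalizer ((zpowers u : Subgroup G) : Set G) := by
    rw [h1]
    exact hgT
  rw [← hg]
  exact (mem_normalizer_iff.mp hgNu u).mp (mem_zpowers u)

theorem g168_sylow2_dihedral (h : Nat.card G = 168) (T : Sylow 2 G) :
    Nonempty (↥(T : Subgroup G) ≃* DihedralGroup 4) := by
  classical
  have hT8 := g168_card_sylow2 h T
  obtain ⟨u, hu, hu4⟩ := g168_exists_order_four h T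
  have hC4 : Nat.card (zpowers u) = 4 := by rw [Nat.card_zpowers, hu4]
  have hCT : zpowers u ≤ (T : Subgroup G) := by
    rw [zpowers_le]
    exact hu
  -- an element of `T` outside `zpowers u`
  obtain ⟨s, hsT, hsC⟩ : ∃ s ∈ (T : Subgroup G), s ∉ zpowers u := by
    by_contra hno
    push Not at hno
    have : (T : Subgroup G) = zpowers u := le_antisymm hno hCT
    rw [this, hC4] at hT8
    omega
  have hs1 : s ≠ 1 := by
    rintro rfl
    exact hsC (one_mem _)
  have hs2 : orderOf s = 2 := by
    rcases g168_orderOf_two_or_four h s (g168_orderOf_dvd_of_mem h T s hsT) hs1 with h2 | h4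
    · exact h2
    · exact absurd (g168_four_mem_zpowers h T u s hu hsT hu4 h4) hsC
  have hss : s * s = 1 := by
    have := pow_orderOf_eq_one s
    rwa [hs2, pow_two] at this
  have hu44 : u ^ 4 = 1 := by
    have := pow_orderOf_eq_one u
    rwa [hu4] at this
  -- conjugation by `s` inverts `u`
  have hN := g168_normalizer_zpowers_four h T u hu hu4
  have hsN : s ∈ normalizer ((zpowers u : Subgroup G) : Set G) := by
    rw [hN]
    exact hsT
  have hv : s * u * s⁻¹ ∈ zpowers u := (mem_normalizer_iff.mp hsN u).mp (mem_zpowers u)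
  have hv4 : orderOf (s * u * s⁻¹) = 4 := by
    rw [← hu4]
    exact orderOf_eq_of_isConj (isConj_iff.mpr ⟨s, rfl⟩)
  have hCu : Nat.card (centralizer ({u} : Set G)) = 4 := g168_card_centralizer_four h u hu4
  have hsCu : s ∉ centralizer ({u} : Set G) := by
    intro hmem
    have hle : zpowers u ≤ centralizer ({u} : Set G) := by
      rw [← centralizer_zpowers_eq]
      exact Subgroup.le_centralizer (zpowers u)
    have : zpowers u = centralizer ({u} : Set G) := by
      apply Subgroup.eq_of_le_of_card_ge hle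
      rw [hCu, hC4]
    rw [← this] at hmem
    exact hsC hmem
  have hinv : s * u * s⁻¹ = u⁻¹ := by
    rw [mem_zpowers_iff_mem_range_orderOf, hu4] at hv
    simp only [Finset.mem_image, Finset.mem_range] at hv
    obtain ⟨k, hk, hkv⟩ := hv
    interval_cases k
    · rw [pow_zero] at hkv
      rw [← hkv, orderOf_one] at hv4
      omega
    · rw [pow_one] at hkv
      exfalso
      apply hsCu
      rw [mem_centralizer_iff]
      intro w hw
      rw [Set.mem_singleton_iff] at hw
      subst hw
      have : s * w = w * s := by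
        calc s * w = (s * w * s⁻¹) * s := by group
          _ = w * s := by rw [← hkv]
      exact this.symm
    · exfalso
      have h2 : (s * u * s⁻¹) ^ 2 = 1 := by
        rw [← hkv, ← pow_mul]
        exact hu44
      have := orderOf_dvd_of_pow_eq_one h2
      rw [hv4] at this
      omega
    · rw [← hkv]
      apply eq_inv_of_mul_eq_one_left
      rw [← pow_succ]
      exact hu44
  -- build the isomorphism
  let a : (T : Subgroup G) := ⟨u, hu⟩
  let b : (T : Subgroup G) := ⟨s, hsT⟩
  have ha : a ^ 4 = 1 := Subtype.ext hu44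
  have hb : b * b = 1 := Subtype.ext hss
  have hba : b * a * b⁻¹ = a⁻¹ := Subtype.ext hinv
  let φ := dihedralLift 4 a b ha hb hba
  have hφa : a ∈ φ.range := ⟨DihedralGroup.r 1, dihedralLift_r_one 4 a b ha hb hba⟩
  have hφb : b ∈ φ.range := ⟨DihedralGroup.sr 0, dihedralLift_sr_zero 4 a b ha hb hba⟩
  have hza : zpowers a ≤ φ.range := by
    rw [zpowers_le]
    exact hφa
  have hoa : orderOf a = 4 := by
    rw [← Subgroup.orderOf_coe]
    exact hu4
  have hbza : b ∉ zpowers a := by
    rintro ⟨k, hk⟩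
    apply hsC
    refine ⟨k, ?_⟩
    have := congrArg (fun x : (T : Subgroup G) => (x : G)) hk
    simpa using this
  have hrd : Nat.card φ.range ∣ 8 := by
    have := Subgroup.card_subgroup_dvd_card φ.range
    rwa [hT8] at this
  have h4d : 4 ∣ Nat.card φ.range := by
    have := Subgroup.card_dvd_of_le hza
    rwa [Nat.card_zpowers, hoa] at this
  have hr8 : Nat.card φ.range = 8 := by
    have hmem : Nat.card φ.range ∈ Nat.divisors 8 := by
      rw [Nat.mem_divisors]
      exact ⟨hrd, by norm_num⟩
    rw [show Nat.divisors 8 = {1, 2, 4, 8} from by decide +kernel] at hmem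
    simp only [Finset.mem_insert, Finset.mem_singleton] at hmem
    rcases hmem with h1 | h1 | h1 | h1
    · rw [h1] at h4d; omega
    · rw [h1] at h4d; omega
    · exfalso
      have : zpowers a = φ.range := by
        apply Subgroup.eq_of_le_of_card_ge hza
        rw [h1, Nat.card_zpowers, hoa]
      rw [← this] at hφb
      exact hbza hφb
    · exact h1
  have hsurj : Function.Surjective φ := by
    rw [← MonoidHom.range_eq_top]
    exact Subgroup.eq_top_of_card_eq _ (by rw [hr8, hT8])
  have hbij : Function.Bijective φ :=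
    (Nat.bijective_iff_surjective_and_card φ).mpr
      ⟨hsurj, by rw [DihedralGroup.nat_card, hT8]⟩
  exact ⟨(MulEquiv.ofBijective φ hbij).symm⟩

/-- An element of order 7 is not conjugate to its inverse. -/
theorem g168_seven_not_isConj_inv (h : Nat.card G = 168) (x : G) (hx : orderOf x = 7) :
    ¬ IsConj x x⁻¹ := by
  have : Fact (Nat.Prime 7) := ⟨by norm_num⟩
  intro hc
  obtain ⟨g, hg⟩ := isConj_iff.mp hc
  obtain ⟨P, hP⟩ := exists_sylow_eq_zpowers (p := 7) (m := 24) (h.trans (by norm_num))
    (by norm_num) x hx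
  have hCx := g168_centralizer_seven h x hx
  -- `g` normalizes `zpowers x`
  have hg' : g⁻¹ * x * g = x⁻¹ := by
    have : x = g⁻¹ * x⁻¹ * g := by rw [← hg]; group
    calc g⁻¹ * x * g = (g⁻¹ * x⁻¹ * g)⁻¹ := by group
      _ = x⁻¹ := by rw [← this]
  have hgN : g ∈ normalizer ((zpowers x : Subgroup G) : Set G) := by
    rw [mem_normalizer_iff]
    intro y
    constructor
    · rintro ⟨k, rfl⟩
      refine ⟨-k, ?_⟩
      show x ^ (-k) = g * x ^ k * g⁻¹
      rw [← conj_zpow, hg, inv_zpow, zpow_neg]
    · rintro ⟨k, hk⟩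
      refine ⟨-k, ?_⟩
      show x ^ (-k) = y
      have hk' : x ^ k = g * y * g⁻¹ := hk
      have hy : y = g⁻¹ * x ^ k * g := by rw [hk']; group
      have h1 : g⁻¹ * x ^ k * g = (g⁻¹ * x * g) ^ k := by
        have := conj_zpow (a := g⁻¹) (b := x) (i := k)
        rw [inv_inv] at this
        exact this.symm
      rw [hy, h1, hg', inv_zpow, zpow_neg]
  have hN21 : Nat.card (normalizer ((zpowers x : Subgroup G) : Set G)) = 21 := by
    rw [← hP]
    exact g168_card_normalizer7 h P
  have ho21 : orderOf g ∣ 21 := by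
    have h1 : orderOf (⟨g, hgN⟩ : normalizer ((zpowers x : Subgroup G) : Set G)) ∣
        Nat.card (normalizer ((zpowers x : Subgroup G) : Set G)) := orderOf_dvd_natCard _
    rw [hN21, ← Subgroup.orderOf_coe] at h1
    exact h1
  -- `g ^ 2` centralizes `x`
  have hg2 : g ^ 2 ∈ zpowers x := by
    rw [← hCx, mem_centralizer_iff]
    intro w hw
    rw [Set.mem_singleton_iff] at hw
    subst hw
    have h1 : g ^ 2 * w * (g ^ 2)⁻¹ = w := by
      calc g ^ 2 * w * (g ^ 2)⁻¹ = g * (g * w * g⁻¹) * g⁻¹ := by rw [pow_two]; group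
        _ = g * w⁻¹ * g⁻¹ := by rw [hg]
        _ = (g * w * g⁻¹)⁻¹ := by group
        _ = w := by rw [hg, inv_inv]
    calc w * g ^ 2 = (g ^ 2 * w * (g ^ 2)⁻¹) * g ^ 2 := by rw [h1]
      _ = g ^ 2 * w := by group
  have h14 : g ^ 14 = 1 := by
    have h1 : orderOf (g ^ 2) ∣ 7 := by
      have := orderOf_dvd_of_mem_zpowers hg2
      rwa [hx] at this
    have h2 := orderOf_dvd_iff_pow_eq_one.mp h1
    rw [← pow_mul] at h2
    exact h2
  have ho14 : orderOf g ∣ 14 := orderOf_dvd_of_pow_eq_one h14
  have ho7 : orderOf g ∣ 7 := Nat.dvd_gcd ho21 ho14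
  have hg7 : g ^ 7 = 1 := orderOf_dvd_iff_pow_eq_one.mp ho7
  have hgz : g ∈ zpowers x := by
    have h1 : g = (g ^ 2) ^ 4 := by
      rw [← pow_mul]
      calc g = g ^ 7 * g := by rw [hg7, one_mul]
        _ = g ^ (2 * 4) := by group
    rw [h1]
    exact pow_mem hg2 4
  rw [← hCx, mem_centralizer_iff] at hgz
  have hcomm := hgz x rfl
  have hxx : x = x⁻¹ := by
    calc x = (x * g) * g⁻¹ := by group
      _ = g * x * g⁻¹ := by rw [hcomm]
      _ = x⁻¹ := hg
  have hx2 : x ^ 2 = 1 := by
    rw [pow_two]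
    nth_rewrite 1 [hxx]
    exact inv_mul_cancel x
  have := orderOf_dvd_of_pow_eq_one hx2
  rw [hx] at this
  omega

theorem g168_card_isConj_seven (h : Nat.card G = 168) (x : G) (hx : orderOf x = 7) :
    Nat.card {g : G // IsConj x g} = 24 := by
  rw [card_isConj_eq_index]
  have hc7 : Nat.card (centralizer ({x} : Set G)) = 7 := by
    rw [g168_centralizer_seven h x hx, Nat.card_zpowers, hx]
  have := (centralizer ({x} : Set G)).card_mul_index
  rw [hc7, h] at this
  omega

end

end Cfsg.Agent.Lib.Helper23
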