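import Mathlib
import Cfsg.Agent.Lib.Helper7.GUOrder

/-!
# S2646 (project GUC of helper51), piece GUC-CONJ (helper23)

The number of invertible `M`-invariant Hermitian matrices depends only on the conjugacy class
of `M` (up to reindexing).
-/

set_option autoImplicit false
set_option linter.unusedSectionVars false

namespace Cfsg.Agent.Lib.Helper23.GUCCONJ

open Matrix

section star

variable {K : Type*} [Field K] {n : Type*} [Fintype n] [DecidableEq n] (φ : K →+* K)

/-- conjugate transpose with respect to the ring homomorphism `φ` -/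
def gucSt (X : Matrix n n K) : Matrix n n K := (X.map φ)ᵀ

theorem gucSt_mul (X Y : Matrix n n K) : gucSt φ (X * Y) = gucSt φ Y * gucSt φ X := by
  unfold gucSt
  rw [Matrix.map_mul, Matrix.transpose_mul]

theorem gucSt_one : gucSt φ (1 : Matrix n n K) = 1 := by
  unfold gucSt
  rw [Matrix.map_one φ (map_zero φ) (map_one φ), Matrix.transpose_one]

theorem gucSt_gucSt (hφ : ∀ x, φ (φ x) = x) (X : Matrix n n K) :
    gucSt φ (gucSt φ X) = X := by
  ext i j
  simp [gucSt, hφ]

theorem gucSt_det (X : Matrix n n K) : (gucSt φ X).det = φ X.det := by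
  unfold gucSt
  rw [Matrix.det_transpose, RingHom.map_det]
  rfl

/-- `H` is Hermitian, invertible and `A`-invariant -/
def gucP (A H : Matrix n n K) : Prop :=
  gucSt φ H = H ∧ H.det ≠ 0 ∧ gucSt φ A * H * A = H

theorem gucP_mem (hφ : ∀ x, φ (φ x) = x) (A B d : Matrix n n K) (hd : d.det ≠ 0)
    (hdA : d * A = B * d) (H : Matrix n n K) (hH : gucP φ B H) :
    gucP φ A (gucSt φ d * H * d) := by
  obtain ⟨h1, h2, h3⟩ := hH
  refine ⟨?_, ?_, ?_⟩
  · rw [gucSt_mul, gucSt_mul, gucSt_gucSt φ hφ, h1, mul_assoc]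
  · rw [Matrix.det_mul, Matrix.det_mul, gucSt_det]
    have h4 : φ d.det ≠ 0 := by
      rw [Ne, map_eq_zero]
      exact hd
    exact mul_ne_zero (mul_ne_zero h4 h2) hd
  · calc gucSt φ A * (gucSt φ d * H * d) * A
        = (gucSt φ A * gucSt φ d) * H * (d * A) := by simp only [mul_assoc]
      _ = gucSt φ (d * A) * H * (d * A) := by rw [gucSt_mul]
      _ = gucSt φ (B * d) * H * (B * d) := by rw [hdA]
      _ = gucSt φ d * (gucSt φ B * H * B) * d := by
          rw [gucSt_mul]
          simp only [mul_assoc]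
      _ = gucSt φ d * H * d := by rw [h3]

theorem gucP_card (hφ : ∀ x, φ (φ x) = x) (A B : Matrix n n K) (h : IsConj A B) :
    Nat.card {H : Matrix n n K // gucP φ A H} = Nat.card {H : Matrix n n K // gucP φ B H} := by
  obtain ⟨c, hc⟩ := h
  have hcA : (c : Matrix n n K) * A = B * c := hc
  have hci : ((c⁻¹ : (Matrix n n K)ˣ) : Matrix n n K) * B =
      A * ((c⁻¹ : (Matrix n n K)ˣ) : Matrix n n K) := by
    have h5 : B = c * A * ((c⁻¹ : (Matrix n n K)ˣ) : Matrix n n K) := by
      rw [hcA, mul_assoc, Units.mul_inv, mul_one]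
    rw [h5, ← mul_assoc, ← mul_assoc, Units.inv_mul, one_mul]
  have hdet : ∀ u : (Matrix n n K)ˣ, (u : Matrix n n K).det ≠ 0 := by
    intro u h0
    have h6 := congrArg Matrix.det u.mul_inv
    rw [Matrix.det_mul, h0, zero_mul, Matrix.det_one] at h6
    exact zero_ne_one h6
  refine Nat.card_congr
    { toFun := fun H => ⟨gucSt φ ((c⁻¹ : (Matrix n n K)ˣ) : Matrix n n K) * H.1 *
          ((c⁻¹ : (Matrix n n K)ˣ) : Matrix n n K),
        gucP_mem φ hφ B A _ (hdet _) hci H.1 H.2⟩
      invFun := fun H => ⟨gucSt φ (c : Matrix n n K) * H.1 * (c : Matrix n n K),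
        gucP_mem φ hφ A B _ (hdet _) hcA H.1 H.2⟩
      left_inv := ?_
      right_inv := ?_ }
  · intro H
    apply Subtype.ext
    show gucSt φ (c : Matrix n n K) * (gucSt φ ((c⁻¹ : (Matrix n n K)ˣ) : Matrix n n K) * H.1 *
      ((c⁻¹ : (Matrix n n K)ˣ) : Matrix n n K)) * (c : Matrix n n K) = H.1
    calc gucSt φ (c : Matrix n n K) * (gucSt φ ((c⁻¹ : (Matrix n n K)ˣ) : Matrix n n K) * H.1 *
          ((c⁻¹ : (Matrix n n K)ˣ) : Matrix n n K)) * (c : Matrix n n K)
        = (gucSt φ (c : Matrix n n K) * gucSt φ ((c⁻¹ : (Matrix n n K)ˣ) : Matrix n n K)) * H.1 *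
          (((c⁻¹ : (Matrix n n K)ˣ) : Matrix n n K) * (c : Matrix n n K)) := by
          simp only [mul_assoc]
      _ = H.1 := by rw [← gucSt_mul, Units.inv_mul, gucSt_one, one_mul, mul_one]
  · intro H
    apply Subtype.ext
    show gucSt φ ((c⁻¹ : (Matrix n n K)ˣ) : Matrix n n K) * (gucSt φ (c : Matrix n n K) * H.1 *
      (c : Matrix n n K)) * ((c⁻¹ : (Matrix n n K)ˣ) : Matrix n n K) = H.1
    calc gucSt φ ((c⁻¹ : (Matrix n n K)ˣ) : Matrix n n K) * (gucSt φ (c : Matrix n n K) * H.1 *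
          (c : Matrix n n K)) * ((c⁻¹ : (Matrix n n K)ˣ) : Matrix n n K)
        = (gucSt φ ((c⁻¹ : (Matrix n n K)ˣ) : Matrix n n K) * gucSt φ (c : Matrix n n K)) * H.1 *
          ((c : Matrix n n K) * ((c⁻¹ : (Matrix n n K)ˣ) : Matrix n n K)) := by
          simp only [mul_assoc]
      _ = H.1 := by rw [← gucSt_mul, Units.mul_inv, gucSt_one, one_mul, mul_one]

end star

/-- `x ↦ x ^ q` as a ring homomorphism of the field with `q ^ 2` elements -/
def gucFrob {K : Type*} [Field K] [Fintype K] {q : ℕ} (hK : Fintype.card K = q ^ 2) : K →+* K where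
  toFun x := x ^ q
  map_one' := one_pow q
  map_mul' a b := mul_pow a b q
  map_zero' := zero_pow (Cfsg.Agent.Lib.Helper7.herm_q_ne_zero hK)
  map_add' := Cfsg.Agent.Lib.Helper7.herm_add_pow hK

theorem hinv_conj {K : Type*} [Field K] [Fintype K] {q : ℕ} (hK : Fintype.card K = q ^ 2)
    {ι ι' : Type} [Fintype ι] [DecidableEq ι] [Fintype ι'] [DecidableEq ι']
    (e : ι ≃ ι') (M : Matrix ι ι K) (M' : Matrix ι' ι' K)
    (h : IsConj (Matrix.reindex e e M) M') :
    Nat.card {H : Matrix ι ι K // (H.map (· ^ q))ᵀ = H ∧ H.det ≠ 0 ∧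
        (M.map (· ^ q))ᵀ * H * M = H} =
    Nat.card {H : Matrix ι' ι' K // (H.map (· ^ q))ᵀ = H ∧ H.det ≠ 0 ∧
        (M'.map (· ^ q))ᵀ * H * M' = H} := by
  classical
  have hφ : ∀ x, gucFrob hK (gucFrob hK x) = x :=
    fun x => Cfsg.Agent.Lib.Helper7.herm_pow_pow hK x
  have h1 : Nat.card {H : Matrix ι ι K // (H.map (· ^ q))ᵀ = H ∧ H.det ≠ 0 ∧
        (M.map (· ^ q))ᵀ * H * M = H} =
      Nat.card {H : Matrix ι' ι' K // gucP (gucFrob hK) (Matrix.reindex e e M) H} := by
    refine Nat.card_congr (Equiv.subtypeEquiv (Matrix.reindex e e) ?_)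
    intro H
    have ha : ∀ X : Matrix ι ι K, ((Matrix.reindex e e X).map (gucFrob hK))ᵀ =
        Matrix.reindex e e ((X.map (· ^ q))ᵀ) := by
      intro X
      ext i j
      rfl
    have hb : ∀ X Y : Matrix ι ι K, Matrix.reindex e e X * Matrix.reindex e e Y =
        Matrix.reindex e e (X * Y) := by
      intro X Y
      simp only [Matrix.reindex_apply]
      exact Matrix.submatrix_mul_equiv X Y e.symm e.symm e.symm
    show (_ ∧ _ ∧ _) ↔ (gucSt (gucFrob hK) (Matrix.reindex e e H) = Matrix.reindex e e H ∧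
      (Matrix.reindex e e H).det ≠ 0 ∧
      gucSt (gucFrob hK) (Matrix.reindex e e M) * Matrix.reindex e e H * Matrix.reindex e e M =
        Matrix.reindex e e H)
    unfold gucSt
    constructor
    · rintro ⟨p1, p2, p3⟩
      refine ⟨?_, ?_, ?_⟩
      · rw [ha]
        exact congrArg _ p1
      · rw [Matrix.det_reindex_self]
        exact p2
      · rw [ha, hb, hb]
        exact congrArg _ p3
    · rintro ⟨p1, p2, p3⟩
      refine ⟨?_, ?_, ?_⟩
      · rw [ha] at p1
        exact (Matrix.reindex e e).injective p1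
      · rw [Matrix.det_reindex_self] at p2
        exact p2
      · rw [ha, hb, hb] at p3
        exact (Matrix.reindex e e).injective p3
  have h2 := gucP_card (gucFrob hK) hφ _ _ h
  rw [h1, h2]
  rfl

end Cfsg.Agent.Lib.Helper23.GUCCONJ
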