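import Mathlib

/-!
# Project H74 (S5974, helper98), piece SIEGEX

For even `d` the anti-diagonal permutation matrix is a symmetric invertible matrix with zero
diagonal.  (The statement only needs Mathlib, so this file does not import `H74Defs`.)
-/

set_option autoImplicit false

namespace Cfsg.Agent.Lib.Helper98.H74

open Module Polynomial

universe u

variable {F : Type u} [Field F] [Fintype F] {V : Type u} [AddCommGroup V] [Module F V]
  [FiniteDimensional F V] {Q : V → F} {B : V → V → F}

/-- SIEGEX -/
theorem exists_alt_unit [CharP F 2] (d : ℕ) (hd : Even d) (hd2 : 2 ≤ d) :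
    ∃ S : Matrix (Fin d) (Fin d) F, (∀ a, S a a = 0) ∧ S.transpose = S ∧ IsUnit S.det ∧
      S ≠ 0 := by
  classical
  refine ⟨(Fin.revPerm : Equiv.Perm (Fin d)).permMatrix F, ?_, ?_, ?_, ?_⟩
  · intro a
    rw [Equiv.Perm.permMatrix, PEquiv.toMatrix_apply, Equiv.toPEquiv_apply, if_neg]
    intro h
    rw [Option.mem_some_iff] at h
    have h1 := congrArg Fin.val h
    rw [Fin.revPerm_apply, Fin.val_rev] at h1
    obtain ⟨k, hk⟩ := hd
    have := a.2
    omega
  · ext a b
    rw [Matrix.transpose_apply, Equiv.Perm.permMatrix, PEquiv.toMatrix_apply,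
      PEquiv.toMatrix_apply, Equiv.toPEquiv_apply, Equiv.toPEquiv_apply]
    simp only [Option.mem_some_iff, Fin.revPerm_apply]
    by_cases h : Fin.rev b = a
    · rw [if_pos h, if_pos]
      rw [← h, Fin.rev_rev]
    · rw [if_neg h, if_neg]
      intro h'
      apply h
      rw [← h', Fin.rev_rev]
  · rw [Matrix.det_permutation]
    rcases Int.units_eq_one_or (Equiv.Perm.sign (Fin.revPerm : Equiv.Perm (Fin d))) with h | h
    · rw [h]
      simp
    · rw [h]
      simp
  · intro h
    have h1 := congrFun (congrFun h ⟨0, by omega⟩) (Fin.rev ⟨0, by omega⟩)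
    rw [Equiv.Perm.permMatrix, PEquiv.toMatrix_apply, Equiv.toPEquiv_apply, if_pos] at h1
    · simp at h1
    · rw [Option.mem_some_iff, Fin.revPerm_apply]

end Cfsg.Agent.Lib.Helper98.H74
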