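import Mathlib
import Cfsg.Agent.Lib.Helper22.HPDefs
import Cfsg.Agent.Lib.Helper22.HPDefs2
import Cfsg.Agent.Lib.Helper83.IrrBasic
import Cfsg.Agent.Lib.Helper83.HPKFZ
import Cfsg.Agent.Lib.Helper87.HPPSING

/-!
# S4504 (helper22's HP project), sub-piece GC of STAR (helper23)

The Galois twist `gc` is an involution on the irreducible characters, with the expected values on
the powers of `z`, and it preserves the central character.
-/

set_option autoImplicit false
set_option linter.style.haveILetI false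

namespace Cfsg.Agent.Lib.Helper23.HPT

open Cfsg Cfsg.Agent.Lib.Helper22.BFD Cfsg.Agent.Lib.Helper22.HPD
open scoped ComplexConjugate

universe u

/-- central elements are `p`-regular -/
private theorem gc_center_reg {G : Type u} [Group G] [Fintype G] (p : ℕ) [Fact p.Prime]
    (hnn : ∀ H : Subgroup G, H.Normal → Nat.card H ≠ p) (u : G)
    (hu : u ∈ Subgroup.center G) : ¬ p ∣ orderOf u := by
  rintro ⟨m, hm⟩
  have hpos : 0 < orderOf u := orderOf_pos u
  have hm0 : m ≠ 0 := by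
    rintro rfl
    rw [mul_zero] at hm
    omega
  have hx : orderOf (u ^ m) = p := by
    rw [orderOf_pow_of_dvd hm0 ⟨p, by rw [hm, mul_comm]⟩, hm,
      Nat.mul_div_cancel _ (Nat.pos_of_ne_zero hm0)]
  exact Cfsg.Agent.Lib.Helper83.HPT.kfz_no_central p hnn (u ^ m) (Subgroup.pow_mem _ hu m) hx

private theorem gc_zpow {G : Type u} [Group G] (p : ℕ) (z : G)
    (hz : orderOf z = p) (a b : ℕ) (h : (a : ZMod p) = (b : ZMod p)) : z ^ a = z ^ b := by
  rw [pow_eq_pow_iff_modEq, hz]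
  exact (ZMod.natCast_eq_natCast_iff a b p).mp h

/-- PIECE GC (G1): the Galois twist is an involution and preserves the central character -/
theorem hp_gc {G : Type u} [Group G] [Fintype G] (p : ℕ) [Fact p.Prime]
    (hsq : ¬ p ^ 2 ∣ Nat.card G) (hnn : ∀ H : Subgroup G, H.Normal → Nat.card H ≠ p)
    (χ : G → ℂ) (z : G) (ζ : ℂ) (hHP : HP p ζ z χ) (k : ℕ) (hk : GalExp p G k) :
    (∀ φ : IrrCharacter G, gc hk (gc hk φ) = φ) ∧
    (∀ (φ : IrrCharacter G) (t : ZMod p),
      (gc hk φ).1 (z ^ t.val) = φ.1 (z ^ ((k : ZMod p) * t).val)) ∧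
    (∀ φ : IrrCharacter G, TrivZ φ.1 → TrivZ (gc hk φ).1) ∧
    (∀ φ : IrrCharacter G, SameZ χ φ.1 → SameZ χ (gc hk φ).1) := by
  classical
  have hp : p.Prime := Fact.out
  haveI : NeZero p := ⟨hp.ne_zero⟩
  have hz := hHP.hz
  have hreg : ∀ u ∈ Subgroup.center G, u ^ k = u :=
    fun u hu => hk.reg u (gc_center_reg p hnn u hu)
  have hpG : p ∣ Nat.card G := by
    rw [← hz]
    exact orderOf_dvd_natCard z
  have hk0 : (k : ZMod p) ≠ 0 := by
    intro h0
    rw [ZMod.natCast_eq_zero_iff] at h0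
    have h1 : p ∣ Nat.gcd k (Nat.card G) := Nat.dvd_gcd h0 hpG
    rw [Nat.Coprime.gcd_eq_one hk.cop] at h1
    exact hp.one_lt.ne' (Nat.dvd_one.mp h1)
  have hksq : (k : ZMod p) * (k : ZMod p) ∈ Sq p := by
    unfold Sq
    rw [Finset.mem_filter]
    exact ⟨Finset.mem_univ _, mul_ne_zero hk0 hk0, ⟨(k : ZMod p), rfl⟩⟩
  have hconj : IsConj (z ^ ((k : ZMod p) * (k : ZMod p)).val) z := (hHP.hE _).mpr hksq
  refine ⟨?_, ?_, ?_, ?_⟩
  · intro φ
    apply Subtype.ext
    funext g
    show φ.1 ((g ^ k) ^ k) = φ.1 g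
    by_cases hpg : p ∣ orderOf g
    · obtain ⟨t, -, u, hu, hgc⟩ :=
        Cfsg.Agent.Lib.Helper87.HPT.hp_psing p hsq hnn χ z ζ hHP g hpg
      have h1 : IsConj ((g ^ k) ^ k) ((z ^ t.val * u) ^ (k * k)) := by
        rw [← pow_mul]
        obtain ⟨c, hc⟩ := isConj_iff.mp hgc
        rw [isConj_iff]
        exact ⟨c, by rw [← hc, conj_pow]⟩
      have hcomm : Commute (z ^ t.val) u := Subgroup.mem_center_iff.mp hu (z ^ t.val)
      have h2 : (z ^ t.val * u) ^ (k * k) = z ^ (t.val * (k * k)) * u := by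
        rw [hcomm.mul_pow, ← pow_mul, pow_mul u k k, hreg u hu, hreg u hu]
      have h3 : z ^ (t.val * (k * k)) = (z ^ ((k : ZMod p) * (k : ZMod p)).val) ^ t.val := by
        rw [← pow_mul]
        apply gc_zpow p z hz
        push_cast
        rw [ZMod.natCast_zmod_val, ZMod.natCast_zmod_val]
        ring
      have h4 : IsConj ((z ^ t.val * u) ^ (k * k)) (z ^ t.val * u) := by
        rw [h2, h3]
        obtain ⟨n, hn⟩ := isConj_iff.mp hconj
        rw [isConj_iff]
        refine ⟨n, ?_⟩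
        have hun : n * u * n⁻¹ = u := by
          rw [Subgroup.mem_center_iff.mp hu n, mul_inv_cancel_right]
        calc n * ((z ^ ((k : ZMod p) * (k : ZMod p)).val) ^ t.val * u) * n⁻¹
            = (n * (z ^ ((k : ZMod p) * (k : ZMod p)).val) ^ t.val * n⁻¹) * (n * u * n⁻¹) := by
              group
          _ = (n * z ^ ((k : ZMod p) * (k : ZMod p)).val * n⁻¹) ^ t.val * u := by
              rw [conj_pow, hun]
          _ = z ^ t.val * u := by rw [hn]
      rw [Cfsg.Agent.Lib.Helper83.irr_isConj φ.2 h1, Cfsg.Agent.Lib.Helper83.irr_isConj φ.2 h4,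
        ← Cfsg.Agent.Lib.Helper83.irr_isConj φ.2 hgc]
    · rw [hk.reg g hpg, hk.reg g hpg]
  · intro φ t
    show φ.1 ((z ^ t.val) ^ k) = _
    have h5 : (z ^ t.val) ^ k = z ^ ((k : ZMod p) * t).val := by
      rw [← pow_mul]
      apply gc_zpow p z hz
      push_cast
      rw [ZMod.natCast_zmod_val, ZMod.natCast_zmod_val]
      ring
    rw [h5]
  · intro φ hφ u hu
    show φ.1 (u ^ k) = φ.1 (1 ^ k)
    rw [one_pow]
    exact hφ (u ^ k) (Subgroup.pow_mem _ hu k)
  · intro φ hφ u hu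
    show φ.1 (u ^ k) * χ 1 = χ u * φ.1 (1 ^ k)
    rw [one_pow, hreg u hu]
    exact hφ u hu

end Cfsg.Agent.Lib.Helper23.HPT
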