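import Mathlib
import Cfsg.Prelude.Def_Classical

/-!
# HE piece UNIPODD (for S5993): a unipotent isometry of `quadFormOdd d F`, `d` odd, with
`N ^ 3 = 0`, `rank N = d + 1`, `rank N ^ 2 = 1`
-/

set_option autoImplicit false
set_option linter.unusedSectionVars false
set_option linter.unusedVariables false

namespace Cfsg.Agent.Lib.Helper23.He

open Module

universe u

section Aux

variable {F : Type u} [Field F]

/-- the map `(x₀; x; y) ↦ (y_{j₀}; sgn j * y (σ j) + δ j * (-2 x₀ - y_{j₀}))` -/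
def heunipoddM (d : ℕ) (sgn : Fin d → F) (σ : Equiv.Perm (Fin d)) (j₀ : Fin d) :
    (Unit ⊕ (Fin d ⊕ Fin d) → F) →ₗ[F] (Unit ⊕ Fin d → F) where
  toFun v := Sum.elim (fun _ => v (.inr (.inr j₀)))
    (fun j => sgn j * v (.inr (.inr (σ j))) +
      (Pi.single j₀ (1 : F) : Fin d → F) j * (-2 * v (.inl ()) - v (.inr (.inr j₀))))
  map_add' v v' := by
    funext i
    rcases i with _ | j
    · simp
    · simp only [Sum.elim_inr, Pi.add_apply]
      ring
  map_smul' c v := by
    funext i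
    rcases i with _ | j
    · simp
    · simp only [Sum.elim_inr, Pi.smul_apply, smul_eq_mul, RingHom.id_apply]
      ring

/-- the embedding `(s; w) ↦ (s; w; 0)` -/
def heunipoddI (d : ℕ) : (Unit ⊕ Fin d → F) →ₗ[F] (Unit ⊕ (Fin d ⊕ Fin d) → F) where
  toFun u := Sum.elim (fun _ => u (.inl ())) (Sum.elim (fun j => u (.inr j)) (fun _ => 0))
  map_add' u u' := by
    funext i
    rcases i with _ | j | j <;> simp
  map_smul' c u := by
    funext i
    rcases i with _ | j | j <;> simp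

theorem heunipodd_aux (h2 : (2 : F) ≠ 0) (d : ℕ) (sgn : Fin d → F) (σ : Equiv.Perm (Fin d))
    (j₀ : Fin d) (hσ : ∀ j, σ (σ j) = j) (hσ0 : σ j₀ = j₀) (hsg : ∀ j, sgn (σ j) = - sgn j)
    (hs0 : sgn j₀ = 0) (hsq : ∀ j, j ≠ j₀ → sgn j * sgn j = 1) :
    ∃ N : Module.End F (Unit ⊕ (Fin d ⊕ Fin d) → F),
      (∀ v, Cfsg.quadFormOdd d F (v + N v) = Cfsg.quadFormOdd d F v) ∧ N ^ 3 = 0 ∧
      finrank F (LinearMap.range N) = d + 1 ∧ finrank F (LinearMap.range (N ^ 2)) = 1 := by
  classical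
  obtain ⟨M, hM⟩ : ∃ M, M = heunipoddM d sgn σ j₀ := ⟨_, rfl⟩
  obtain ⟨I, hI⟩ : ∃ I, I = heunipoddI (F := F) d := ⟨_, rfl⟩
  have hMl : ∀ v, M v (Sum.inl ()) = v (.inr (.inr j₀)) := fun v => by rw [hM]; rfl
  have hMr : ∀ v j, M v (Sum.inr j) = sgn j * v (.inr (.inr (σ j))) +
      (Pi.single j₀ (1 : F) : Fin d → F) j * (-2 * v (.inl ()) - v (.inr (.inr j₀))) :=
    fun v j => by rw [hM]; rfl
  have hI0 : ∀ u, I u (Sum.inl ()) = u (.inl ()) := fun u => by rw [hI]; rfl
  have hI1 : ∀ u j, I u (Sum.inr (Sum.inl j)) = u (.inr j) := fun u j => by rw [hI]; rfl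
  have hI2 : ∀ u j, I u (Sum.inr (Sum.inr j)) = 0 := fun u j => by rw [hI]; rfl
  have e0 : ∀ u, M (I u) (Sum.inl ()) = 0 := fun u => by rw [hMl, hI2]
  refine ⟨I ∘ₗ M, ?_, ?_, ?_, ?_⟩
  · -- the quadratic form is preserved
    intro v
    unfold Cfsg.quadFormOdd
    simp only [Pi.add_apply, LinearMap.comp_apply, hI0, hI1, hI2, hMl, hMr, add_zero]
    have hS : ∑ i, sgn i * v (.inr (.inr (σ i))) * v (.inr (.inr i)) = 0 := by
      have h1 : ∑ i, sgn (σ i) * v (.inr (.inr (σ (σ i)))) * v (.inr (.inr (σ i))) =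
          ∑ i, sgn i * v (.inr (.inr (σ i))) * v (.inr (.inr i)) :=
        Equiv.sum_comp σ (fun i => sgn i * v (.inr (.inr (σ i))) * v (.inr (.inr i)))
      have h1' : ∑ i, sgn (σ i) * v (.inr (.inr (σ (σ i)))) * v (.inr (.inr (σ i))) =
          - ∑ i, sgn i * v (.inr (.inr (σ i))) * v (.inr (.inr i)) := by
        rw [← Finset.sum_neg_distrib]
        refine Finset.sum_congr rfl (fun i _ => ?_)
        rw [hσ, hsg]
        ring
      have h3 : (2 : F) * ∑ i, sgn i * v (.inr (.inr (σ i))) * v (.inr (.inr i)) = 0 := by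
        linear_combination h1' - h1
      exact (mul_eq_zero.mp h3).resolve_left h2
    have hδ : ∑ i, (Pi.single j₀ (1 : F) : Fin d → F) i *
        (-2 * v (.inl ()) - v (.inr (.inr j₀))) * v (.inr (.inr i)) =
        (-2 * v (.inl ()) - v (.inr (.inr j₀))) * v (.inr (.inr j₀)) := by
      simp [Pi.single_apply]
    have hsum : ∑ i, (v (.inr (.inl i)) + (sgn i * v (.inr (.inr (σ i))) +
        (Pi.single j₀ (1 : F) : Fin d → F) i * (-2 * v (.inl ()) - v (.inr (.inr j₀))))) *
          v (.inr (.inr i)) =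
        ∑ i, v (.inr (.inl i)) * v (.inr (.inr i)) +
        ∑ i, sgn i * v (.inr (.inr (σ i))) * v (.inr (.inr i)) +
        ∑ i, (Pi.single j₀ (1 : F) : Fin d → F) i *
          (-2 * v (.inl ()) - v (.inr (.inr j₀))) * v (.inr (.inr i)) := by
      rw [← Finset.sum_add_distrib, ← Finset.sum_add_distrib]
      refine Finset.sum_congr rfl (fun i _ => ?_)
      ring
    rw [hsum, hS, hδ]
    ring
  · -- `N ^ 3 = 0`
    apply LinearMap.ext
    intro v
    have e1 : ∀ u, M (I (M (I u))) = 0 := by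
      intro u
      funext i
      rcases i with _ | j
      · rw [e0]; rfl
      · rw [hMr, hI2, hI2, hI0, e0]
        simp
    rw [pow_three, Module.End.mul_apply, Module.End.mul_apply]
    simp only [LinearMap.comp_apply]
    rw [e1, map_zero]
    rfl
  · -- `rank N = d + 1`
    have hsurj : LinearMap.range M = ⊤ := by
      rw [LinearMap.range_eq_top]
      intro u
      refine ⟨Sum.elim (fun _ => -(u (.inr j₀) + u (.inl ())) / 2)
        (Sum.elim (fun _ => 0)
          (fun j => if j = j₀ then u (.inl ()) else - sgn j * u (.inr (σ j)))), ?_⟩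
      funext i
      rcases i with _ | j
      · rw [hMl]
        simp
      · rw [hMr]
        simp only [Sum.elim_inr, Sum.elim_inl]
        by_cases hj : j = j₀
        · subst hj
          rw [hσ0, hs0]
          simp only [if_true, Pi.single_eq_same]
          field_simp
          ring
        · have hσj : σ j ≠ j₀ := fun h => hj (by rw [← hσ j, h, hσ0])
          rw [if_neg hσj, Pi.single_apply, if_neg hj, hσ, hsg]
          have := hsq j hj
          linear_combination (u (.inr j)) * this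
    have hinj : Function.Injective I := by
      intro u u' h
      funext i
      rcases i with _ | j
      · have := congrFun h (Sum.inl ())
        rwa [hI0, hI0] at this
      · have := congrFun h (Sum.inr (Sum.inl j))
        rwa [hI1, hI1] at this
    rw [LinearMap.range_comp_of_range_eq_top I hsurj, LinearMap.finrank_range_of_inj hinj,
      Module.finrank_fintype_fun_eq_card, Fintype.card_sum, Fintype.card_unit, Fintype.card_fin,
      add_comm]
  · -- `rank N ^ 2 = 1`
    obtain ⟨b, hb⟩ : ∃ b : Unit ⊕ (Fin d ⊕ Fin d) → F, b = Pi.single (Sum.inr (Sum.inl j₀)) 1 :=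
      ⟨_, rfl⟩
    obtain ⟨M₂, hM₂⟩ : ∃ M₂ : (Unit ⊕ (Fin d ⊕ Fin d) → F) →ₗ[F] F,
        M₂ = (-2 : F) • LinearMap.proj (Sum.inr (Sum.inr j₀)) := ⟨_, rfl⟩
    have hM₂v : ∀ v, M₂ v = -2 * v (.inr (.inr j₀)) := fun v => by rw [hM₂]; rfl
    have hN2 : (I ∘ₗ M) ^ 2 = (LinearMap.toSpanSingleton F _ b) ∘ₗ M₂ := by
      apply LinearMap.ext
      intro v
      rw [pow_two, Module.End.mul_apply]
      simp only [LinearMap.comp_apply, LinearMap.toSpanSingleton_apply]
      funext i
      rcases i with _ | j | j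
      · rw [hI0, e0, hb]
        simp
      · rw [hI1, hMr, hI2, hI2, hI0, hMl, hM₂v, hb]
        by_cases hj : j = j₀
        · subst hj
          simp
        · simp [hj]
      · rw [hI2, hb]
        simp
    have hsurj2 : LinearMap.range M₂ = ⊤ := by
      rw [LinearMap.range_eq_top]
      intro c
      refine ⟨Pi.single (Sum.inr (Sum.inr j₀)) (-c / 2), ?_⟩
      rw [hM₂v, Pi.single_eq_same]
      field_simp
    have hinj2 : Function.Injective
        (LinearMap.toSpanSingleton F (Unit ⊕ (Fin d ⊕ Fin d) → F) b) := by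
      intro c c' h
      have := congrFun h (Sum.inr (Sum.inl j₀))
      simpa [hb] using this
    rw [hN2, LinearMap.range_comp_of_range_eq_top _ hsurj2,
      LinearMap.finrank_range_of_inj hinj2, Module.finrank_self]

end Aux

section Concrete

variable {F : Type u} [Field F] [Fintype F]

theorem exists_unip_odd (h2 : (2 : F) ≠ 0) (d : ℕ) (hd : Odd d) :
    ∃ N : Module.End F (Unit ⊕ (Fin d ⊕ Fin d) → F),
      (∀ v, Cfsg.quadFormOdd d F (v + N v) = Cfsg.quadFormOdd d F v) ∧ N ^ 3 = 0 ∧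
      finrank F (LinearMap.range N) = d + 1 ∧ finrank F (LinearMap.range (N ^ 2)) = 1 := by
  obtain ⟨k, hk⟩ := hd
  have hcard : Fintype.card (Fin d) = Fintype.card (Unit ⊕ (Fin k ⊕ Fin k)) := by
    simp only [Fintype.card_fin, Fintype.card_sum, Fintype.card_unit]
    omega
  obtain ⟨e⟩ : Nonempty (Fin d ≃ Unit ⊕ (Fin k ⊕ Fin k)) := ⟨Fintype.equivOfCardEq hcard⟩
  obtain ⟨sw, hsw⟩ : ∃ sw : Unit ⊕ (Fin k ⊕ Fin k) ≃ Unit ⊕ (Fin k ⊕ Fin k),
      sw = Equiv.sumCongr (Equiv.refl _) (Equiv.sumComm _ _) := ⟨_, rfl⟩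
  obtain ⟨S, hS⟩ : ∃ S : Unit ⊕ (Fin k ⊕ Fin k) → F,
      S = Sum.elim (fun _ => 0) (Sum.elim (fun _ => 1) (fun _ => -1)) := ⟨_, rfl⟩
  have hsw2 : ∀ x, sw (sw x) = x := by
    rintro (_ | a | a) <;> rw [hsw] <;> rfl
  have hsw0 : sw (Sum.inl ()) = Sum.inl () := by rw [hsw]; rfl
  have hSsw : ∀ x, S (sw x) = - S x := by
    rintro (_ | a | a) <;> rw [hsw, hS] <;> simp
  have hS0 : S (Sum.inl ()) = 0 := by rw [hS]; rfl
  have hSsq : ∀ x, x ≠ Sum.inl () → S x * S x = 1 := by
    rintro (_ | a | a) hx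
    · exact absurd rfl hx
    · rw [hS]; simp
    · rw [hS]; simp
  refine heunipodd_aux h2 d (fun j => S (e j)) ((e.trans sw).trans e.symm) (e.symm (Sum.inl ()))
    ?_ ?_ ?_ ?_ ?_
  · intro j
    show e.symm (sw (e (e.symm (sw (e j))))) = j
    rw [Equiv.apply_symm_apply, hsw2, Equiv.symm_apply_apply]
  · show e.symm (sw (e (e.symm (Sum.inl ())))) = e.symm (Sum.inl ())
    rw [Equiv.apply_symm_apply, hsw0]
  · intro j
    show S (e (e.symm (sw (e j)))) = - S (e j)
    rw [Equiv.apply_symm_apply, hSsw]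
  · show S (e (e.symm (Sum.inl ()))) = 0
    rw [Equiv.apply_symm_apply, hS0]
  · intro j hj
    show S (e j) * S (e j) = 1
    apply hSsq
    intro h
    apply hj
    rw [← h, Equiv.symm_apply_apply]

end Concrete

end Cfsg.Agent.Lib.Helper23.He
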