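import Mathlib
import Cfsg.Agent.Lib.Helper72.JPDefs

/-! JP piece KJ (for S2948/S2949): `J(T)` normalizes `K = KOf Q k` for a seed `(a, k)`, and
`⁅K, J(T)⁆ = K`. -/

set_option autoImplicit false

namespace Cfsg.Agent.Lib.Helper23.JP

open Cfsg.Agent.Lib.Helper72.JP Cfsg.Agent.Lib.Helper72.JM Cfsg.Agent.Lib.Helper72.JL
  Cfsg.Agent.Lib.Helper72.SC Cfsg.Agent.Lib.Helper78.Jc

open scoped commutatorElement

universe u

/-- `c_i := k⁻¹ t^i k t^(-i)` lies in `C` and in `c^i Q`, for `c = c_1 ∈ C`, when `⁅C, t⁆ ⊆ Q`. -/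
theorem jpkj_pow {X : Type*} [Group X] (Q C : Subgroup X) (hQ : Q.Normal) (hC : C.Normal)
    (t k : X) (hct : ∀ c ∈ C, ⁅c, t⁆ ∈ Q) (hc : k⁻¹ * (t * k * t⁻¹) ∈ C) (i : ℕ) :
    k⁻¹ * (t ^ i * k * (t ^ i)⁻¹) ∈ C ∧
      ∃ q ∈ Q, k⁻¹ * (t ^ i * k * (t ^ i)⁻¹) = (k⁻¹ * (t * k * t⁻¹)) ^ i * q := by
  induction i with
  | zero =>
    refine ⟨?_, 1, one_mem _, ?_⟩
    · simp
    · simp
  | succ i ih =>
    obtain ⟨hCi, q, hq, hci⟩ := ih
    have e1 : k⁻¹ * (t ^ (i + 1) * k * (t ^ (i + 1))⁻¹) =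
        (k⁻¹ * (t * k * t⁻¹)) * (t * (k⁻¹ * (t ^ i * k * (t ^ i)⁻¹)) * t⁻¹) := by
      rw [pow_succ']
      group
    have hcomm : ⁅k⁻¹ * (t ^ i * k * (t ^ i)⁻¹), t⁆ ∈ Q := hct _ hCi
    rw [e1]
    refine ⟨C.mul_mem hc (hC.conj_mem _ hCi t), ?_⟩
    revert hcomm hci hCi
    generalize k⁻¹ * (t ^ i * k * (t ^ i)⁻¹) = ci
    generalize k⁻¹ * (t * k * t⁻¹) = c
    intro hCi hci hcomm
    refine ⟨(c ^ i)⁻¹ * ⁅ci, t⁆⁻¹ * c ^ i * q, Q.mul_mem ?_ hq, ?_⟩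
    · have := hQ.conj_mem _ (Q.inv_mem hcomm) (c ^ i)⁻¹
      rwa [inv_inv] at this
    · rw [pow_succ', hci, commutatorElement_def]
      group

/-- a nontrivial power of an element with `r ^ 3 = 1` is `r` or `r⁻¹` -/
theorem jpkj_zpow {M : Type*} [Group M] (r : M) (hr3 : r ^ 3 = 1) (z : ℤ) (hne : r ^ z ≠ 1) :
    r ^ z = r ∨ r ^ z = r⁻¹ := by
  have h1 : r ^ z = r ^ (z % 3) := by
    have hz3 : z = z % 3 + 3 * (z / 3) := by omega
    conv_lhs => rw [hz3]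
    rw [zpow_add, zpow_mul]
    have : r ^ (3 : ℤ) = 1 := by
      have := zpow_natCast r 3
      rw [hr3] at this
      exact_mod_cast this
    rw [this, one_zpow, mul_one]
  have h2 : z % 3 = 0 ∨ z % 3 = 1 ∨ z % 3 = 2 := by omega
  rcases h2 with h2 | h2 | h2
  · rw [h1, h2, zpow_zero] at hne
    exact absurd rfl hne
  · left
    rw [h1, h2, zpow_one]
  · right
    rw [h1, h2, eq_inv_iff_mul_eq_one, zpow_two, ← hr3, pow_succ, pow_two]

theorem kj (h1 : CtStmt.{u}) (h2 : C2Stmt.{u}) (h3 : KbStmt.{u}) (h4 : VabStmt.{u})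
    (h5 : NtjStmt.{u}) : KjStmt.{u} := by
  intro X _ _ T hS a k hseed
  obtain ⟨⟨A, hA, haA⟩, hk3, hak, hρk, hJk⟩ := hseed
  have hQn : (Cfsg.pCore 2 X).Normal := Subgroup.sSup_normal _ (fun H hH => hH.1)
  have hQ2 : IsPGroup 2 ↥(Cfsg.pCore 2 X) :=
    Sylow.sSup_of_normal _ (fun _ hK => hK.2) (fun _ hK => hK.1)
  have hk1 : k ≠ 1 := by
    rintro rfl
    exact hρk (map_one _)
  have hkK : k ∈ KOf (Cfsg.pCore 2 X) k :=
    Subgroup.subset_closure ⟨1, one_mem _, by simp⟩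
  obtain ⟨hQK, -, -, hoddmem⟩ := h3 X (Cfsg.pCore 2 X) k hQn hQ2 hk3 hk1
  obtain ⟨-, -, -, hQT, -⟩ := h4 X T hS
  obtain ⟨-, hct⟩ := h1 X T hS
  have hJT : JT T ≤ T := sSup_le (fun B hB => hB.1)
  have haT : a ∈ T := hA.1 haA
  have haJ : a ∈ JT T := (le_sSup hA : A ≤ JT T) haA
  have hTNJ : T ≤ Subgroup.normalizer ((JT T : Subgroup X) : Set X) :=
    fun t ht => h5 X T (Subgroup.le_normalizer ht)
  have hr3 : rhoT T k ^ 3 = 1 := by rw [← map_pow, hk3, map_one]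
  have hker : ((rhoT T).ker).Normal := inferInstance
  -- the key step: a 2-element `t` of `T` with `t k t⁻¹ ∈ k C` has `t k t⁻¹ ∈ k Q`
  have hcQ : ∀ t ∈ T, k⁻¹ * (t * k * t⁻¹) ∈ (rhoT T).ker →
      k⁻¹ * (t * k * t⁻¹) ∈ Cfsg.pCore 2 X := by
    intro t ht hc
    obtain ⟨n, hn⟩ : ∃ n : ℕ, t ^ 2 ^ n = 1 := by
      obtain ⟨n, hn⟩ := hS.hT2 ⟨t, ht⟩
      exact ⟨n, by simpa using congrArg Subtype.val hn⟩
    obtain ⟨-, q, hq, hcq⟩ := jpkj_pow (Cfsg.pCore 2 X) (rhoT T).ker hQn hker t k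
      (fun c hc' => hct c hc' t ht) hc (2 ^ n)
    rw [hn] at hcq
    have hcpow : (k⁻¹ * (t * k * t⁻¹)) ^ 2 ^ n ∈ Cfsg.pCore 2 X := by
      have : (k⁻¹ * (t * k * t⁻¹)) ^ 2 ^ n = q⁻¹ := by
        rw [eq_inv_iff_mul_eq_one, ← hcq]
        group
      rw [this]
      exact Subgroup.inv_mem _ hq
    obtain ⟨m, hm⟩ := hQ2 ⟨_, hcpow⟩
    have hm' : ((k⁻¹ * (t * k * t⁻¹)) ^ 2 ^ n) ^ 2 ^ m = 1 := by
      simpa using congrArg Subtype.val hm
    refine h2 X T hS ⊥ IsPGroup.of_bot _ ?_ ⟨n + m, ?_⟩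
    · rw [Subgroup.mem_bot]
      exact MonoidHom.mem_ker.mp hc
    · rw [pow_add, pow_mul]
      exact hm'
  -- conjugates of `k` under `J` stay in `K`
  have hjk : ∀ j ∈ JT T, j * k * j⁻¹ ∈ KOf (Cfsg.pCore 2 X) k := by
    intro j hj
    have hodd : Odd (orderOf (j * k * j⁻¹)) := by
      have h3' : orderOf (j * k * j⁻¹) = 3 := by
        have : Fact (Nat.Prime 3) := ⟨by norm_num⟩
        apply orderOf_eq_prime
        · rw [conj_pow, hk3]
          group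
        · rw [Ne, conj_eq_one_iff]
          exact hk1
      rw [h3']
      exact ⟨1, by norm_num⟩
    obtain ⟨z, hz⟩ := Subgroup.mem_zpowers_iff.mp (hJk j hj)
    have hne : rhoT T k ^ z ≠ 1 := by
      rw [hz, Ne, conj_eq_one_iff]
      exact hρk
    rcases jpkj_zpow (rhoT T k) hr3 z hne with hcase | hcase
    · rw [hz] at hcase
      have hc : k⁻¹ * (j * k * j⁻¹) ∈ (rhoT T).ker := by
        rw [MonoidHom.mem_ker, map_mul, map_inv, map_mul, map_mul, map_inv, hcase,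
          inv_mul_cancel]
      have hcQ' := hcQ j (hJT hj) hc
      exact hoddmem _ ⟨k * (k⁻¹ * (j * k * j⁻¹)) * k⁻¹, hQn.conj_mem _ hcQ' k, 1, by group⟩ hodd
    · rw [hz] at hcase
      have hc : k⁻¹ * ((a * j) * k * (a * j)⁻¹) ∈ (rhoT T).ker := by
        rw [MonoidHom.mem_ker]
        have e : k⁻¹ * ((a * j) * k * (a * j)⁻¹) = k⁻¹ * (a * (j * k * j⁻¹) * a⁻¹) := by group
        have e2 : rhoT T a * (rhoT T k)⁻¹ * (rhoT T a)⁻¹ = rhoT T k := by
          have h6 := congrArg (rhoT T) hak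
          rw [map_mul, map_mul, map_inv, map_inv] at h6
          have e3 : rhoT T a * (rhoT T k)⁻¹ * (rhoT T a)⁻¹ =
              (rhoT T a * rhoT T k * (rhoT T a)⁻¹)⁻¹ := by group
          rw [e3, h6, inv_inv]
        rw [e, map_mul, map_inv, map_mul, map_mul, map_mul, map_mul, map_inv, map_inv, hcase,
          e2, inv_mul_cancel]
      have hcQ' := hcQ (a * j) (T.mul_mem haT (hJT hj)) hc
      refine hoddmem _ ⟨k⁻¹ * (a⁻¹ * (k⁻¹ * ((a * j) * k * (a * j)⁻¹)) * a) * k, ?_, 2, ?_⟩ hodd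
      · have h7 := hQn.conj_mem _ hcQ' a⁻¹
        rw [inv_inv] at h7
        have h8 := hQn.conj_mem _ h7 k⁻¹
        rwa [inv_inv] at h8
      · have e4 : a⁻¹ * k⁻¹ * a = k := by
          rw [← hak]
          group
        have e5 : k⁻¹ * (a⁻¹ * (k⁻¹ * (a * j * k * (a * j)⁻¹)) * a) * k * k ^ 2 =
            k⁻¹ * (a⁻¹ * k⁻¹ * a) * (j * k * j⁻¹) * k ^ 3 := by group
        rw [e5, e4, hk3]
        group
  -- `J` maps `K` into itself
  have hJK : ∀ j ∈ JT T, ∀ x ∈ KOf (Cfsg.pCore 2 X) k, j * x * j⁻¹ ∈ KOf (Cfsg.pCore 2 X) k := by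
    intro j hj x hx
    unfold KOf at hx
    induction hx using Subgroup.closure_induction with
    | mem x hx =>
      obtain ⟨q, hq, rfl⟩ := hx
      have e : j * (q * k * q⁻¹) * j⁻¹ = (j * q * j⁻¹) * (j * k * j⁻¹) * (j * q * j⁻¹)⁻¹ := by
        group
      rw [e]
      exact (Subgroup.mem_normalizer_iff.mp (hQK (hQn.conj_mem q hq j)) _).mp (hjk j hj)
    | one =>
      have e : j * 1 * j⁻¹ = 1 := by group
      rw [e]
      exact Subgroup.one_mem _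
    | mul x y _ _ hx hy =>
      have e : j * (x * y) * j⁻¹ = (j * x * j⁻¹) * (j * y * j⁻¹) := by group
      rw [e]
      exact Subgroup.mul_mem _ hx hy
    | inv x _ hx =>
      have e : j * x⁻¹ * j⁻¹ = (j * x * j⁻¹)⁻¹ := by group
      rw [e]
      exact Subgroup.inv_mem _ hx
  have hJN : JT T ≤ Subgroup.normalizer ((KOf (Cfsg.pCore 2 X) k : Subgroup X) : Set X) := by
    intro j hj
    rw [Subgroup.mem_normalizer_iff]
    intro x
    constructor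
    · exact hJK j hj x
    · intro hx
      have := hJK j⁻¹ (Subgroup.inv_mem _ hj) _ hx
      have e : j⁻¹ * (j * x * j⁻¹) * j⁻¹⁻¹ = x := by group
      rwa [e] at this
  refine ⟨hJN, le_antisymm ?_ ?_⟩
  · rw [Subgroup.commutator_le]
    intro x hx j hj
    have e : ⁅x, j⁆ = x * (j * x⁻¹ * j⁻¹) := by
      rw [commutatorElement_def]
      group
    rw [e]
    exact Subgroup.mul_mem _ hx (hJK j hj _ (Subgroup.inv_mem _ hx))
  · -- `K ≤ ⁅K, J⁆`
    have hkc : k ∈ ⁅KOf (Cfsg.pCore 2 X) k, JT T⁆ := by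
      have h9 : ⁅k, a⁆ ∈ ⁅KOf (Cfsg.pCore 2 X) k, JT T⁆ :=
        Subgroup.commutator_mem_commutator hkK haJ
      have e : ⁅k, a⁆ = k⁻¹ := by
        rw [commutatorElement_def]
        have e6 : k * a * k⁻¹ * a⁻¹ = k * (a * k * a⁻¹)⁻¹ := by group
        rw [e6, hak, inv_inv, eq_inv_iff_mul_eq_one, ← hk3, pow_succ, pow_two]
      rw [e] at h9
      have := Subgroup.inv_mem _ h9
      rwa [inv_inv] at this
    have hQC : ∀ q ∈ Cfsg.pCore 2 X, ∀ z ∈ ⁅KOf (Cfsg.pCore 2 X) k, JT T⁆,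
        q * z * q⁻¹ ∈ ⁅KOf (Cfsg.pCore 2 X) k, JT T⁆ := by
      intro q hq z hz
      rw [Subgroup.commutator_def] at hz
      induction hz using Subgroup.closure_induction with
      | mem z hz =>
        obtain ⟨x, hx, y, hy, rfl⟩ := hz
        have e : q * ⁅x, y⁆ * q⁻¹ = ⁅q * x * q⁻¹, q * y * q⁻¹⁆ := by
          rw [commutatorElement_def, commutatorElement_def]
          group
        rw [e]
        exact Subgroup.commutator_mem_commutator
          ((Subgroup.mem_normalizer_iff.mp (hQK hq) x).mp hx)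
          ((Subgroup.mem_normalizer_iff.mp (hTNJ (hQT hq)) y).mp hy)
      | one =>
        have e : q * 1 * q⁻¹ = 1 := by group
        rw [e]
        exact Subgroup.one_mem _
      | mul x y _ _ hx hy =>
        have e : q * (x * y) * q⁻¹ = (q * x * q⁻¹) * (q * y * q⁻¹) := by group
        rw [e]
        exact Subgroup.mul_mem _ hx hy
      | inv x _ hx =>
        have e : q * x⁻¹ * q⁻¹ = (q * x * q⁻¹)⁻¹ := by group
        rw [e]
        exact Subgroup.inv_mem _ hx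
    unfold KOf
    rw [Subgroup.closure_le]
    rintro x ⟨q, hq, rfl⟩
    exact hQC q hq k hkc

end Cfsg.Agent.Lib.Helper23.JP
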