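import Mathlib
import Cfsg.Agent.Lib.Helper48.MulA
import Cfsg.Agent.Lib.Helper48.StMain

set_option autoImplicit false
open scoped commutatorElement

/-! # S2086 piece CORE (helper23 for helper48): the family of canonical lifts -/

namespace Cfsg.Agent.Lib.Helper48.Mul

open Cfsg.Agent.Lib.Helper48 Cfsg.Agent.Lib.Helper48.St Cfsg.Agent.Lib.Helper70

section abstract

variable {Γ : Type*} [Group Γ] {G : Type*} [Group G] {K : Type*} [Field K] {n : ℕ}

/-- piece CORE -/
theorem core (σ : Γ →* G) (hs : Function.Surjective σ) (hc : σ.ker ≤ Subgroup.center Γ) (hn : 3 ≤ n)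
    (x : Fin n → Fin n → K → G) (hx : StRel x)
    (hA : HypA σ x) (hB : HypB σ x) (hC : HypC σ x) (hD : HypD σ x) (hE : HypE σ x) :
    ∃ Y : Fin n → Fin n → K → Γ, StRel Y ∧ ∀ i j, i ≠ j → ∀ a, σ (Y i j a) = x i j a := by
  classical
  have hm : ∀ i l : Fin n, ∃ m : Fin n, m ≠ i ∧ m ≠ l := fun i l => exists_third hn i l
  choose m hmi hml using hm
  choose L hL using hs
  have hYex : ∃ Y : Fin n → Fin n → K → Γ, ∀ i l, i ≠ l → ∀ c,
      Y i l c = ⁅L (x i (m i l) 1), L (x (m i l) l c)⁆ :=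
    ⟨fun i l c => if i ≠ l then ⁅L (x i (m i l) 1), L (x (m i l) l c)⁆ else 1,
      fun i l h c => if_pos h⟩
  obtain ⟨Y, hY⟩ := hYex
  have hσc : ∀ i l, i ≠ l → ∀ c,
      σ ⁅L (x i (m i l) 1), L (x (m i l) l c)⁆ = x i l c := by
    intro i l h c
    rw [map_commutatorElement, hL, hL, commutatorElement_def,
      hx.comm3 i (m i l) l (hmi i l).symm (hml i l) h, one_mul]
  have hσY : ∀ i l, i ≠ l → ∀ c, σ (Y i l c) = x i l c := by
    intro i l h c
    rw [hY i l h]
    exact hσc i l h c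
  refine ⟨Y, ⟨?_, ?_, ?_⟩, hσY⟩
  · intro i l h t u
    rw [hY i l h, hY i l h, hY i l h]
    have h1 : ⁅L (x i (m i l) 1), L (x (m i l) l (t + u))⁆ =
        ⁅L (x i (m i l) 1), L (x (m i l) l t) * L (x (m i l) l u)⁆ :=
      lift_comm_eq hc rfl (by rw [map_mul, hL, hL, hL, hx.add _ _ (hml i l)])
    have hcomm : Commute (L (x (m i l) l t)) ⁅L (x i (m i l) 1), L (x (m i l) l u)⁆ :=
      hC (m i l) i l (hmi i l) (hml i l) h t u _ _ (hL _) (hσc i l h u)
    rw [h1, comm_mul_right_of_commute hcomm]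
  · intro i j k l hij hkl hil hjk t u
    by_cases hik : i = k
    · subst hik
      by_cases hjl : j = l
      · subst hjl
        exact (hA i j hij t u _ _ (hσY i j hij t) (hσY i j hij u)).eq
      · exact (hB i j l hij hil hjl t u _ _ (hσY i j hij t) (hσY i l hkl u)).eq
    · by_cases hjl : j = l
      · subst hjl
        exact (hC i k j hik hij hkl t u _ _ (hσY i j hij t) (hσY k j hkl u)).eq
      · exact (hD i j k l hij hik hil hjk hjl hkl t u _ _ (hσY i j hij t) (hσY k l hkl u)).eq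
  · intro i j l hij hjl hil t u
    rw [← commutatorElement_def, hY i l hil]
    exact hE i j (m i l) l hij hjl hil (hmi i l).symm (hml i l) t u _ _ _ _
      (hσY i j hij t) (hσY j l hjl u) (hL _) (hL _)

end abstract

end Cfsg.Agent.Lib.Helper48.Mul
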