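import Mathlib
import Cfsg.Agent.Lib.Helper48.MulA
import Cfsg.Agent.Lib.Helper48.StMain

set_option autoImplicit false
open scoped commutatorElement

/-! # S2086 piece HD3 (helper23 for helper48): disjoint lifts commute when `|K| = 3` -/

namespace Cfsg.Agent.Lib.Helper48.Mul

open Cfsg.Agent.Lib.Helper48 Cfsg.Agent.Lib.Helper48.St Cfsg.Agent.Lib.Helper70

section abstract

variable {Γ : Type*} [Group Γ] {G : Type*} [Group G] {K : Type*} [Field K] {n : ℕ}

/-- the element `w_ik(1) w_jl(1)` swaps `x_ij` and `x_kl` -/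
theorem h23_swap_conj {i j k l : Fin n} (hij : i ≠ j) (hik : i ≠ k) (hil : i ≠ l) (hjk : j ≠ k)
    (hjl : j ≠ l) (hkl : k ≠ l) :
    ∃ w : Matrix.SpecialLinearGroup (Fin n) K,
      (∀ a : K, w * slX i j a * w⁻¹ = slX k l a) ∧ (∀ b : K, w * slX k l b * w⁻¹ = slX i j b) := by
  have hn : 3 ≤ n := by
    have h3 : ({i, j, k} : Finset (Fin n)).card = 3 :=
      Finset.card_eq_three.mpr ⟨i, j, k, hij, hik, hjk, rfl⟩
    have h4 := Finset.card_le_univ ({i, j, k} : Finset (Fin n))
    rw [h3, Fintype.card_fin] at h4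
    exact h4
  have hW : WMon (slX : Fin n → Fin n → K → Matrix.SpecialLinearGroup (Fin n) K) :=
    wMon slX_rel hn
  have h1 := hW i k hik 1 one_ne_zero
  have h2 := hW j l hjl 1 one_ne_zero
  have hw := isMon_mul h1 h2
  refine ⟨stW slX i k (1 : K) * stW slX j l (1 : K), fun a => ?_, fun b => ?_⟩
  · have h := hw.2 i j hij a
    rw [h]
    have e1 : (Equiv.swap i k * Equiv.swap j l) i = k := by
      rw [Equiv.Perm.mul_apply, Equiv.swap_apply_of_ne_of_ne hij hil, Equiv.swap_apply_left]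
    have e2 : (Equiv.swap i k * Equiv.swap j l) j = l := by
      rw [Equiv.Perm.mul_apply, Equiv.swap_apply_left,
        Equiv.swap_apply_of_ne_of_ne (Ne.symm hil) (Ne.symm hkl)]
    rw [e1, e2]
    congr 1
    simp [St.stM, Equiv.swap_apply_of_ne_of_ne hij hil, hij, hil, Ne.symm hil, Ne.symm hkl]
  · have h := hw.2 k l hkl b
    rw [h]
    have e1 : (Equiv.swap i k * Equiv.swap j l) k = i := by
      rw [Equiv.Perm.mul_apply, Equiv.swap_apply_of_ne_of_ne (Ne.symm hjk) hkl,
        Equiv.swap_apply_right]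
    have e2 : (Equiv.swap i k * Equiv.swap j l) l = j := by
      rw [Equiv.Perm.mul_apply, Equiv.swap_apply_right,
        Equiv.swap_apply_of_ne_of_ne (Ne.symm hij) hjk]
    rw [e1, e2]
    congr 1
    simp [St.stM, Equiv.swap_apply_of_ne_of_ne (Ne.symm hjk) hkl, Ne.symm hik, Ne.symm hjk, hkl,
      Ne.symm hjl, Ne.symm hij, hjk]

/-- piece HD3 -/
theorem hypD_three [Fintype K] (hK : Fintype.card K = 3)
    (σ : Γ →* Matrix.SpecialLinearGroup (Fin n) K) (hs : Function.Surjective σ)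
    (hc : σ.ker ≤ Subgroup.center Γ) : HypD σ slX := by
  intro i j k l hij hik hil hjk hjl hkl a b
  obtain ⟨w, hw1, hw2⟩ := h23_swap_conj (K := K) hij hik hil hjk hjl hkl
  choose L hL using hs
  have hcm : ∀ a b : K, Commute (σ (L (slX i j a))) (σ (L (slX k l b))) := by
    intro a b
    rw [hL, hL]
    exact slX_commute hij hkl hil hjk a b
  -- additivity
  have hadd1 : ∀ a a' b : K, ⁅L (slX i j (a + a')), L (slX k l b)⁆ =
      ⁅L (slX i j a'), L (slX k l b)⁆ * ⁅L (slX i j a), L (slX k l b)⁆ := by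
    intro a a' b
    have h1 : ⁅L (slX i j (a + a')), L (slX k l b)⁆ =
        ⁅L (slX i j a) * L (slX i j a'), L (slX k l b)⁆ :=
      lift_comm_eq hc (by rw [map_mul, hL, hL, hL, slX_add hij]) rfl
    rw [h1]
    exact comm_mul_left_of_central hc (hcm a' b)
  have hadd2 : ∀ a b b' : K, ⁅L (slX i j a), L (slX k l (b + b'))⁆ =
      ⁅L (slX i j a), L (slX k l b)⁆ * ⁅L (slX i j a), L (slX k l b')⁆ := by
    intro a b b'
    have h1 : ⁅L (slX i j a), L (slX k l (b + b'))⁆ =
        ⁅L (slX i j a), L (slX k l b) * L (slX k l b')⁆ :=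
      lift_comm_eq hc rfl (by rw [map_mul, hL, hL, hL, slX_add hkl])
    rw [h1]
    exact comm_mul_right_of_central hc (hcm a b')
  have hz1 : ∀ b : K, ⁅L (slX i j 0), L (slX k l b)⁆ = 1 := by
    intro b
    have h := hadd1 0 0 b
    rw [add_zero] at h
    exact (mul_eq_left.mp h.symm)
  have hz2 : ∀ a : K, ⁅L (slX i j a), L (slX k l 0)⁆ = 1 := by
    intro a
    have h := hadd2 a 0 0
    rw [add_zero] at h
    exact (mul_eq_left.mp h.symm)
  -- symmetry
  have hsym : ∀ a b : K, ⁅L (slX i j a), L (slX k l b)⁆ =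
      (⁅L (slX i j b), L (slX k l a)⁆)⁻¹ := by
    intro a b
    have h1 := comm_conj_of_central hc (hcm a b) (L w)
    rw [← h1, commutatorElement_inv]
    apply lift_comm_eq hc
    · rw [map_mul, map_mul, map_inv, hL, hL, hL, hw1]
    · rw [map_mul, map_mul, map_inv, hL, hL, hL, hw2]
  have h3 : (1 : K) + 1 + 1 = 0 := by
    have h := FiniteField.cast_card_eq_zero K
    rw [hK] at h
    have e : ((3 : ℕ) : K) = 1 + 1 + 1 := by norm_num
    rw [← e]
    exact h
  have h11 : ⁅L (slX i j 1), L (slX k l 1)⁆ = 1 := by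
    have hsq := hsym 1 1
    have hcube : ⁅L (slX i j 1), L (slX k l 1)⁆ * ⁅L (slX i j 1), L (slX k l 1)⁆ *
        ⁅L (slX i j 1), L (slX k l 1)⁆ = 1 := by
      have h := hadd1 (1 + 1) 1 1
      rw [h3, hz1, hadd1 1 1 1] at h
      rw [mul_assoc]
      exact h.symm
    have hsq' : ⁅L (slX i j 1), L (slX k l 1)⁆ * ⁅L (slX i j 1), L (slX k l 1)⁆ = 1 := by
      nth_rewrite 1 [hsq]
      exact inv_mul_cancel _
    rw [hsq', one_mul] at hcube
    exact hcube
  have hm1 : ⁅L (slX i j (-1)), L (slX k l 1)⁆ = 1 := by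
    have h := hadd1 (-1) 1 1
    rw [neg_add_cancel, hz1, h11, one_mul] at h
    exact h.symm
  have h1m : ⁅L (slX i j 1), L (slX k l (-1))⁆ = 1 := by
    have h := hadd2 1 (-1) 1
    rw [neg_add_cancel, hz2, h11, mul_one] at h
    exact h.symm
  have hmm : ⁅L (slX i j (-1)), L (slX k l (-1))⁆ = 1 := by
    have h := hadd1 (-1) 1 (-1)
    rw [neg_add_cancel, hz1, h1m, one_mul] at h
    exact h.symm
  have htri : ∀ c : K, c = 0 ∨ c = 1 ∨ c = -1 := by
    intro c
    have h := FiniteField.pow_card c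
    rw [hK] at h
    have h5 : c * ((c - 1) * (c + 1)) = 0 := by linear_combination h
    rcases mul_eq_zero.mp h5 with h6 | h6
    · exact Or.inl h6
    · rcases mul_eq_zero.mp h6 with h7 | h7
      · exact Or.inr (Or.inl (sub_eq_zero.mp h7))
      · exact Or.inr (Or.inr (eq_neg_of_add_eq_zero_left h7))
  have hall : ⁅L (slX i j a), L (slX k l b)⁆ = 1 := by
    rcases htri a with rfl | rfl | rfl
    · exact hz1 b
    · rcases htri b with rfl | rfl | rfl
      · exact hz2 1
      · exact h11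
      · exact h1m
    · rcases htri b with rfl | rfl | rfl
      · exact hz2 (-1)
      · exact hm1
      · exact hmm
  exact CL_of_exists hc ⟨L (slX i j a), L (slX k l b), hL _, hL _,
    commutatorElement_eq_one_iff_commute.mp hall⟩

end abstract

end Cfsg.Agent.Lib.Helper48.Mul
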