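import Cfsg.Agent.Lib.Helper30.NSub0

/-!
# Piece FK for S5121 (helper30): the stabilizers `autStab E (T ⊓ Q)` and `autStab E T`
of an invariant subsystem of the fusion system of a finite group.
-/

set_option autoImplicit false

namespace Cfsg.Agent.Lib.Helper23

open Cfsg Cfsg.FusionSystem Cfsg.Agent.Lib.Helper90 Cfsg.Agent.Lib.Helper30

section

variable {G : Type*} [Group G]

/-- Conjugation by `g` is a map of the group fusion system on `P` as soon as it sends `P` into `S`. -/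
theorem fk_mor_conj (S : Subgroup G) {P : Subgroup G} (hP : P ≤ S) (g : G)
    (h : ∀ x ∈ P, g * x * g⁻¹ ∈ S) :
    Mor (groupFusionSystem S) P (fun x => g * x * g⁻¹) :=
  (Cfsg.Agent.Lib.Helper88.grp_mor_iff
    (Cfsg.Agent.Lib.Helper88.groupFusionSystem_isGrpSys S)).mpr
    ⟨hP, g, Subgroup.mem_top g, fun x hx => ⟨rfl, h x hx⟩⟩

/-- A map of a system with source inside a strongly closed subgroup has values in it. -/
theorem fk_strong_mem {S T : Subgroup G} {F : FusionSystem S} (hT : F.StronglyClosed T)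
    {R : Subgroup G} (hR : R ≤ T) {f : G → G} (hm : Mor F R f) {x : G} (hx : x ∈ R) :
    f x ∈ T := by
  obtain ⟨φ, hφ, hf⟩ := hm
  rw [← hf ⟨x, hx⟩]
  exact hT.2 R hR φ hφ ⟨x, hx⟩

/-- `T ⊓ Q` is invariant under all conjugations when `Q` is normal, `Q ≤ S` and `T` is strongly
closed in the fusion system of the group. -/
theorem fk_inf_conj (S : Subgroup G) (Q : Subgroup G) [Q.Normal] (hQS : Q ≤ S) {T : Subgroup G}
    (hT : (groupFusionSystem S).StronglyClosed T) (g : G) {r : G} (hr : r ∈ T ⊓ Q) :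
    g * r * g⁻¹ ∈ T ⊓ Q := by
  have hRS : T ⊓ Q ≤ S := inf_le_right.trans hQS
  have hQ : ∀ x ∈ T ⊓ Q, g * x * g⁻¹ ∈ Q := fun x hx =>
    Subgroup.Normal.conj_mem inferInstance x hx.2 g
  have hm : Mor (groupFusionSystem S) (T ⊓ Q) (fun x => g * x * g⁻¹) :=
    fk_mor_conj S hRS g (fun x hx => hQS (hQ x hx))
  exact ⟨fk_strong_mem hT inf_le_left hm hr, hQ r hr⟩

theorem fk_inf_normalizer (S : Subgroup G) (Q : Subgroup G) [Q.Normal] (hQS : Q ≤ S)
    {T : Subgroup G} (hT : (groupFusionSystem S).StronglyClosed T) (g : G) :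
    g ∈ Subgroup.normalizer ((T ⊓ Q : Subgroup G) : Set G) := by
  rw [Subgroup.mem_normalizer_iff]
  intro y
  constructor
  · intro hy
    exact fk_inf_conj S Q hQS hT g hy
  · intro hy
    have h := fk_inf_conj S Q hQS hT g⁻¹ hy
    have h2 : g⁻¹ * (g * y * g⁻¹) * g⁻¹⁻¹ = y := by group
    rwa [h2] at h

/-- Conjugating an element of `autStab E P` by an element of `N_G(T) ∩ N_G(P)` stays in
`autStab E P`, for an invariant subsystem `E` of the fusion system of the group. -/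
theorem fk_conj_mem (S : Subgroup G) [Finite S] {T : Subgroup G} (E : FusionSystem T)
    (hinv : E.IsInvariantIn (groupFusionSystem S)) {P : Subgroup G} (hP : P ≤ T) {n k : G}
    (hnT : n ∈ Subgroup.normalizer (T : Set G)) (hnP : n ∈ Subgroup.normalizer (P : Set G))
    (hk : k ∈ autStab E P hP) : n * k * n⁻¹ ∈ autStab E P hP := by
  have hTS : T ≤ S := hinv.2.1.1
  have : Finite T := finite_of_le hTS
  have hmn : Mor (groupFusionSystem S) T (fun x => n * x * n⁻¹) :=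
    fk_mor_conj S hTS n (fun x hx => hTS (conj_mem_of_mem_normalizer hnT hx))
  obtain ⟨α, hα, hαn⟩ := exists_aut_of_mor hmn (fun x hx => conj_mem_of_mem_normalizer hnT hx)
  have hkm : Mor E P (fun x => k * x * k⁻¹) := hk.2
  have h1 := invariant_mor hinv hkm hα
  have himg : img P (autFun T α) = P := by
    have hc : ∀ x ∈ P, autFun T α x = (fun x => n * x * n⁻¹) x := by
      intro x hx
      rw [autFun_apply' α (hP hx)]
      exact hαn ⟨x, hP hx⟩
    rw [img_congr hc]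
    exact nsub_conj_img_eq hnP (hmn.restrict hP)
  rw [himg] at h1
  refine ⟨Subgroup.mul_mem _ (Subgroup.mul_mem _ hnP hk.1) (Subgroup.inv_mem _ hnP), ?_⟩
  refine h1.congr (fun y hy => ?_)
  have hy1 : n⁻¹ * y * n ∈ P := by
    have h2 := conj_mem_of_mem_normalizer (Subgroup.inv_mem _ hnP) hy
    rwa [inv_inv] at h2
  have hinv1 : autFun T α⁻¹ y = n⁻¹ * y * n := by
    rw [autFun_apply' α⁻¹ (hP hy)]
    have h3 := hαn (α⁻¹ ⟨y, hP hy⟩)
    rw [MulAut.apply_inv_self] at h3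
    have h4 : y = n * ((α⁻¹ ⟨y, hP hy⟩ : T) : G) * n⁻¹ := h3
    calc ((α⁻¹ ⟨y, hP hy⟩ : T) : G)
        = n⁻¹ * (n * ((α⁻¹ ⟨y, hP hy⟩ : T) : G) * n⁻¹) * n := by group
      _ = n⁻¹ * y * n := by rw [← h4]
  have hy2 : k * (n⁻¹ * y * n) * k⁻¹ ∈ P := conj_mem_of_mem_normalizer hk.1 hy1
  show autFun T α (k * (autFun T α⁻¹ y) * k⁻¹) = n * k * n⁻¹ * y * (n * k * n⁻¹)⁻¹
  rw [hinv1, autFun_apply' α (hP hy2)]
  have h5 := hαn ⟨k * (n⁻¹ * y * n) * k⁻¹, hP hy2⟩
  rw [h5]
  group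

end

theorem nsub_fk {G : Type*} [Group G] [Finite G] {p : ℕ} [Fact p.Prime] (S : Sylow p G)
    (Q : Subgroup G) [Q.Normal] (hQS : Q ≤ S) {T : Subgroup G} (E : FusionSystem T)
    (hinv : E.IsInvariantIn (groupFusionSystem (S : Subgroup G))) :
    (autStab E (T ⊓ Q) inf_le_left).Normal ∧
    autStab E T le_rfl ≤ autStab E (T ⊓ Q) inf_le_left ∧
    ∀ x ∈ autStab E T le_rfl, ∀ n ∈ Subgroup.normalizer (T : Set G),
      n * x * n⁻¹ ∈ autStab E T le_rfl := by
  have hstrong : (groupFusionSystem (S : Subgroup G)).StronglyClosed T := hinv.2.1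
  have hTS : T ≤ S := hstrong.1
  have : Finite T := finite_of_le hTS
  have hRn : ∀ g : G, g ∈ Subgroup.normalizer ((T ⊓ Q : Subgroup G) : Set G) :=
    fun g => fk_inf_normalizer (S : Subgroup G) Q hQS hstrong g
  have hRS : T ⊓ Q ≤ (S : Subgroup G) := inf_le_right.trans hQS
  refine ⟨⟨?_⟩, ?_, ?_⟩
  · intro k hk g
    have hmg : Mor (groupFusionSystem (S : Subgroup G)) (T ⊓ Q) (fun x => g * x * g⁻¹) :=
      fk_mor_conj (S : Subgroup G) hRS g
        (fun x hx => hRS (fk_inf_conj (S : Subgroup G) Q hQS hstrong g hx))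
    obtain ⟨α, hα, f₀, hf₀, hgf⟩ := invariant_frattini hinv (inf_le_left : T ⊓ Q ≤ T) hmg
    have hαm : Mor (groupFusionSystem (S : Subgroup G)) T (autFun T α) :=
      (mem_autGroup_iff _ hTS α).mp hα
    obtain ⟨-, n, -, hn⟩ := (Cfsg.Agent.Lib.Helper88.grp_mor_iff
      (Cfsg.Agent.Lib.Helper88.groupFusionSystem_isGrpSys (S : Subgroup G))).mp hαm
    have hnT : n ∈ Subgroup.normalizer (T : Set G) := by
      apply mem_normalizer_of_finite
      intro x hx
      rw [← (hn x hx).1]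
      exact autFun_mem α hx
    have hf₀eq : ∀ x ∈ T ⊓ Q, f₀ x = (n⁻¹ * g) * x * (n⁻¹ * g)⁻¹ := by
      intro x hx
      have h1 : f₀ x ∈ T := hf₀.mem hx
      have h2 := hgf x hx
      rw [(hn _ h1).1] at h2
      have h3 : g * x * g⁻¹ = n * f₀ x * n⁻¹ := h2
      have h4 : f₀ x = n⁻¹ * (n * f₀ x * n⁻¹) * n := by group
      rw [h4, ← h3]
      group
    have hm : n⁻¹ * g ∈ autStab E (T ⊓ Q) inf_le_left :=
      ⟨hRn _, hf₀.congr hf₀eq⟩
    have h5 : (n⁻¹ * g) * k * (n⁻¹ * g)⁻¹ ∈ autStab E (T ⊓ Q) inf_le_left :=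
      Subgroup.mul_mem _ (Subgroup.mul_mem _ hm hk) (Subgroup.inv_mem _ hm)
    have h6 := fk_conj_mem (S : Subgroup G) E hinv (inf_le_left : T ⊓ Q ≤ T) hnT (hRn n) h5
    have h7 : n * ((n⁻¹ * g) * k * (n⁻¹ * g)⁻¹) * n⁻¹ = g * k * g⁻¹ := by group
    rwa [h7] at h6
  · intro x hx
    exact ⟨hRn x, hx.2.restrict inf_le_left⟩
  · intro x hx n hn
    exact fk_conj_mem (S : Subgroup G) E hinv le_rfl hn hn hx

end Cfsg.Agent.Lib.Helper23
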