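import Mathlib
import Cfsg.Prelude.Def_GeometricClasses
import Cfsg.Prelude.Def_LieClassical
import Cfsg.Agent.Lib.Helper56.OMPT2

/-!
# Project O9 (S5835, helper44): piece T2G

Transport of the orthogonal `m`-decomposition clause back along `glReindex e`, `e : κ ≃ Fin n`
(`Helper56.OMPT2.T2` with a general block dimension `m`).
-/

set_option autoImplicit false
set_option linter.unusedSectionVars false

namespace Cfsg.Agent.Lib.Helper44.O9

open Matrix Cfsg.Geo

variable {n : ℕ} {F : Type*} [Field F] [Fintype F]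

variable {κ : Type} [Fintype κ] [DecidableEq κ]

open Cfsg.Agent.Lib.Helper56.OMPT2 in
/-- `T2G` in terms of the transport maps `tQ`, `tW` of `Helper56.OMPT2` -/
theorem T2G_aux (e : κ ≃ Fin n) (Q : (κ → F) → F) (H : Subgroup (GL κ F)) {t m : ℕ}
    (D' : Fin t → Submodule F (Fin n → F)) :
    (H.map (glReindex e).toMonoidHom ≤ decompositionStabilizer D' →
      H ≤ decompositionStabilizer (fun i => tW e (D' i))) ∧
    (IsOrthogonalMDecomposition (tQ e Q) m D' →
      IsOrthogonalMDecomposition Q m (fun i => tW e (D' i))) := by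
  refine ⟨?_, ?_⟩
  · intro hle g hg
    have hmem : (glReindex e) g ∈ decompositionStabilizer D' :=
      hle (Subgroup.mem_map_of_mem _ hg)
    obtain ⟨σ, hσ⟩ := hmem
    refine ⟨σ, fun i => ?_⟩
    ext y
    show y ∈ (tW e (D' i)).map (Matrix.toLin' g.1) ↔ y ∈ tW e (D' (σ i))
    rw [T2_mem_tW, ← hσ i, Submodule.mem_map, Submodule.mem_map]
    constructor
    · rintro ⟨x, hx, rfl⟩
      refine ⟨tv e x, hx, ?_⟩
      rw [Matrix.toLin'_apply, Matrix.toLin'_apply, T2_mulVec]
    · rintro ⟨x', hx', hxy⟩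
      refine ⟨(tv e).symm x', ?_, ?_⟩
      · rw [T2_mem_tW, LinearEquiv.apply_symm_apply]
        exact hx'
      · apply (tv (F := F) e).injective
        rw [Matrix.toLin'_apply, T2_mulVec, LinearEquiv.apply_symm_apply, ← hxy,
          Matrix.toLin'_apply]
  · intro hOD
    have hdec := hOD.decomp.decomp
    refine ⟨⟨⟨hdec.two_le, hdec.pos, ?_, ?_, ?_⟩, ?_, ?_⟩, ?_⟩
    · intro i
      rw [← hdec.finrank_eq i]
      exact LinearEquiv.finrank_eq ((tv (F := F) e).ofSubmodule' (D' i))
    · have h1 := hdec.indep.map_orderIso (Submodule.orderIsoMapComap (tv (F := F) e)).symm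
      exact h1
    · have h1 : (⨆ i, tW e (D' i)) =
          (Submodule.orderIsoMapComap (tv (F := F) e)).symm (⨆ i, D' i) := by
        rw [OrderIso.map_iSup]
        rfl
      show (⨆ i, tW e (D' i)) = ⊤
      rw [h1, hdec.iSup_eq_top, OrderIso.map_top]
    · intro i w hw hw0
      have hw0' : tv e w ≠ 0 := by
        intro h
        apply hw0
        apply (tv (F := F) e).injective
        rw [h, map_zero]
      obtain ⟨⟨x', hx', hne⟩, ⟨y', hy', hne'⟩⟩ := hOD.decomp.nondegenerate i (tv e w) hw hw0'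
      refine ⟨⟨(tv e).symm x', ?_, ?_⟩, ⟨(tv e).symm y', ?_, ?_⟩⟩
      · rw [T2_mem_tW, LinearEquiv.apply_symm_apply]
        exact hx'
      · rw [← T2_polar e, LinearEquiv.apply_symm_apply]
        exact hne
      · rw [T2_mem_tW, LinearEquiv.apply_symm_apply]
        exact hy'
      · rw [← T2_polar e, LinearEquiv.apply_symm_apply]
        exact hne'
    · intro i j hij u hu v hv
      rw [← T2_polar e]
      exact hOD.decomp.orthogonal i j hij (tv e u) hu (tv e v) hv
    · intro i j
      obtain ⟨ε', hε'⟩ := hOD.isometric i j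
      refine ⟨((tv (F := F) e).ofSubmodule' (D' i)).trans
        (ε'.trans ((tv (F := F) e).ofSubmodule' (D' j)).symm), fun w => ?_⟩
      set w' : D' i := (tv (F := F) e).ofSubmodule' (D' i) w with hw'
      have h1 : (tv e) ((((tv (F := F) e).ofSubmodule' (D' j)).symm (ε' w') :
          tW e (D' j)) : κ → F) = ((ε' w' : D' j) : Fin n → F) := by
        have h2 := LinearEquiv.ofSubmodule'_apply (tv (F := F) e) (D' j)
          (((tv (F := F) e).ofSubmodule' (D' j)).symm (ε' w'))
        rw [LinearEquiv.apply_symm_apply] at h2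
        exact h2.symm
      show Q ((((tv (F := F) e).ofSubmodule' (D' j)).symm (ε' w') : tW e (D' j)) : κ → F) =
        Q (w : κ → F)
      rw [← T2_tQ_tv e Q, h1, hε' w', ← T2_tQ_tv e Q (w : κ → F)]
      rfl

theorem T2G (e : κ ≃ Fin n) (Q : (κ → F) → F) (H : Subgroup (GL κ F)) {t m : ℕ}
    (D' : Fin t → Submodule F (Fin n → F)) :
    (H.map (glReindex e).toMonoidHom ≤ decompositionStabilizer D' →
      H ≤ decompositionStabilizer
        (fun i => (D' i).comap (LinearEquiv.funCongrLeft F F e.symm).toLinearMap)) ∧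
    (IsOrthogonalMDecomposition (fun v : Fin n → F => Q (v ∘ e)) m D' →
      IsOrthogonalMDecomposition Q m
        (fun i => (D' i).comap (LinearEquiv.funCongrLeft F F e.symm).toLinearMap)) :=
  T2G_aux e Q H D'

end Cfsg.Agent.Lib.Helper44.O9
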