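import Mathlib
import Cfsg.Prelude.Def_GeometricClasses
import Cfsg.Prelude.Def_LieClassical

/-!
# Project OMP (helper71), piece O3r (helper23)

An orthogonal frame of pairwise isometric lines for a non-degenerate quadratic form `Q` in odd
dimension with discriminant `-2 c^2` is, after rescaling, a rational structure over every
subfield (`Q (P u) = -∑ u_i^2`), and the isometries permuting the frame are signed permutation
matrices in it.
-/

set_option autoImplicit false

namespace Cfsg.Agent.Lib.Helper23.OMPO3r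

open Matrix Cfsg.Geo

variable {n : ℕ} {F : Type*} [Field F] [Fintype F]

omit [Fintype F] in
/-- a bilinear form is given by its Gram matrix -/
theorem gram_eq (b : (Fin n → F) → (Fin n → F) → F) (hb : IsBilinearForm b) (u v : Fin n → F) :
    b u v = u ⬝ᵥ (gramMatrix b *ᵥ v) := by
  let B : (Fin n → F) →ₗ[F] (Fin n → F) →ₗ[F] F :=
    LinearMap.mk₂ F b hb.add_left hb.smul_left hb.add_right hb.smul_right
  have hG : ∀ u v, b u v = u ⬝ᵥ (LinearMap.toMatrix₂' F B *ᵥ v) := by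
    intro u v
    rw [← Matrix.toLinearMap₂'_apply', Matrix.toLinearMap₂'_toMatrix']
    rfl
  have h : LinearMap.toMatrix₂' F B = gramMatrix b := by
    ext i j
    have := hG (Pi.single i 1) (Pi.single j 1)
    unfold gramMatrix
    rw [this]
    simp
  rw [← h]; exact hG u v

/-- the matrix with columns `v i` -/
def colMat (v : Fin n → (Fin n → F)) : Matrix (Fin n) (Fin n) F := Matrix.of (fun k i => v i k)

omit [Fintype F] in
theorem colMat_mulVec_single (v : Fin n → (Fin n → F)) (i : Fin n) :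
    colMat v *ᵥ Pi.single i 1 = v i := by
  rw [Matrix.mulVec_single_one]
  rfl

omit [Fintype F] in
theorem gram_conj (b : (Fin n → F) → (Fin n → F) → F) (hb : IsBilinearForm b)
    (M : Matrix (Fin n) (Fin n) F) (u w : Fin n → F) :
    b (M *ᵥ u) (M *ᵥ w) = u ⬝ᵥ ((Mᵀ * gramMatrix b * M) *ᵥ w) := by
  rw [gram_eq b hb, ← Matrix.mulVec_mulVec, ← Matrix.mulVec_mulVec, Matrix.dotProduct_mulVec u,
    Matrix.vecMul_transpose]

omit [Fintype F] in
theorem gram_conj_apply (b : (Fin n → F) → (Fin n → F) → F) (hb : IsBilinearForm b)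
    (v : Fin n → (Fin n → F)) (i j : Fin n) :
    ((colMat v)ᵀ * gramMatrix b * colMat v) i j = b (v i) (v j) := by
  have h := gram_conj b hb (colMat v) (Pi.single i 1) (Pi.single j 1)
  rw [colMat_mulVec_single, colMat_mulVec_single] at h
  rw [h]
  simp

omit [Fintype F] in
/-- An element of `GL` all of whose entries lie in the subfield comes from `GL` over the
subfield. -/
theorem mem_range_of_entries (F₀ : Subfield F) (a : GL (Fin n) F)
    (h : ∀ i j, (a : Matrix (Fin n) (Fin n) F) i j ∈ F₀) :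
    a ∈ (Matrix.GeneralLinearGroup.map (F₀.subtype : F₀ →+* F)).range := by
  have hmap : (F₀.subtype : F₀ →+* F).mapMatrix
      (fun i j => (⟨(a : Matrix (Fin n) (Fin n) F) i j, h i j⟩ : F₀))
      = (a : Matrix (Fin n) (Fin n) F) := by
    ext i j
    rfl
  have hne : (Matrix.of fun i j => (⟨(a : Matrix (Fin n) (Fin n) F) i j, h i j⟩ : F₀)).det ≠ 0 := by
    intro h0
    have h1 := RingHom.map_det (F₀.subtype : F₀ →+* F)
      (Matrix.of fun i j => (⟨(a : Matrix (Fin n) (Fin n) F) i j, h i j⟩ : F₀))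
    rw [h0, map_zero] at h1
    have h2 : (a : Matrix (Fin n) (Fin n) F).det = 0 := by
      rw [← hmap]
      exact h1.symm
    exact (Matrix.isUnits_det_units a).ne_zero h2
  refine ⟨Matrix.GeneralLinearGroup.mkOfDetNeZero _ hne, ?_⟩
  apply Units.ext
  ext i j
  rfl

omit [Fintype F] in
theorem mem_subfield_of_entries (F₀ : Subfield F) (P t : GL (Fin n) F)
    (h : ∀ i j, ((P⁻¹ * t * P : GL (Fin n) F) : Matrix (Fin n) (Fin n) F) i j ∈ F₀) :
    t ∈ subfieldSubgroup F₀ P := by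
  unfold subfieldSubgroup
  refine Subgroup.mem_map.mpr ⟨P⁻¹ * t * P,
    Subgroup.mem_sup_left (mem_range_of_entries F₀ _ h), ?_⟩
  show P * (P⁻¹ * t * P) * P⁻¹ = t
  group

/-- O3r: an orthogonal frame of pairwise isometric lines (`n` odd, discriminant `-2` up to squares)
is, after rescaling, a rational structure over every subfield, and the isometries permuting the
frame are signed permutation matrices in it. -/
theorem O3r (Q : (Fin n → F) → F) (hQ : IsNondegenerateQuadraticForm Q) (h2 : (2 : F) ≠ 0)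
    (hodd : Odd n)
    (hdisc : ∃ c : F, c ≠ 0 ∧ (gramMatrix (QuadraticMap.polar Q)).det = -2 * c ^ 2)
    (D : Fin n → Submodule F (Fin n → F)) (hD : IsOrthogonalMDecomposition Q 1 D) :
    ∃ P : GL (Fin n) F, (∀ F₀ : Subfield F, IsQuadFormRationalStructure Q F₀ P) ∧
      ∀ (F₀ : Subfield F) (g : GL (Fin n) F), g ∈ decompositionStabilizer D →
        (∀ v, Q (g.1 *ᵥ v) = Q v) → g ∈ subfieldSubgroup F₀ P := by
  classical
  have hb : IsBilinearForm (QuadraticMap.polar Q) := hQ.polar_bilinear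
  have hbQ : ∀ v, QuadraticMap.polar Q v v = 2 * Q v := by
    intro v
    have h4 : Q (v + v) = 4 * Q v := by
      rw [← two_smul F v, hQ.smul]; norm_num
    simp only [QuadraticMap.polar]
    rw [h4]; ring
  obtain ⟨k, hk⟩ := hodd
  have hn0 : 0 < n := by omega
  let i₀ : Fin n := ⟨0, hn0⟩
  -- generators of the lines
  have hgen : ∀ i, ∃ v : D i, v ≠ 0 ∧ ∀ w : D i, ∃ c : F, c • v = w :=
    fun i => finrank_eq_one_iff'.mp (hD.decomp.decomp.finrank_eq i)
  choose d hd0 hdgen using hgen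
  have hdmem : ∀ i, ((d i : D i) : Fin n → F) ∈ D i := fun i => (d i).2
  have hdne : ∀ i, ((d i : D i) : Fin n → F) ≠ 0 := fun i h => hd0 i (Subtype.ext h)
  have hdgen' : ∀ i, ∀ w ∈ D i, ∃ c : F, w = c • ((d i : D i) : Fin n → F) := by
    intro i w hw
    obtain ⟨c, hc⟩ := hdgen i ⟨w, hw⟩
    exact ⟨c, (congrArg Subtype.val hc).symm⟩
  have ha : ∀ i, Q (d i : Fin n → F) ≠ 0 := by
    intro i h0
    obtain ⟨⟨x, hx, hne⟩, -⟩ := hD.decomp.nondegenerate i _ (hdmem i) (hdne i)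
    obtain ⟨c, rfl⟩ := hdgen' i x hx
    apply hne
    rw [hb.smul_left, hbQ, h0]; ring
  have horth : ∀ i j, i ≠ j →
      QuadraticMap.polar Q (d i : Fin n → F) (d j : Fin n → F) = 0 :=
    fun i j hij => hD.decomp.orthogonal i j hij _ (hdmem i) _ (hdmem j)
  -- the lines are isometric
  have hiso : ∀ i, ∃ c : F, Q (d i : Fin n → F) = c ^ 2 * Q (d i₀ : Fin n → F) := by
    intro i
    obtain ⟨e, he⟩ := hD.isometric i i₀
    obtain ⟨c, hc⟩ := hdgen' i₀ _ (e (d i)).2
    refine ⟨c, ?_⟩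
    rw [← he (d i), hc, hQ.smul]
  choose cc hcc using hiso
  have hcc0 : ∀ i, cc i ≠ 0 := by
    intro i h
    apply ha i
    rw [hcc i, h]; ring
  obtain ⟨a₀, ha₀def⟩ : ∃ a₀ : F, a₀ = Q (d i₀ : Fin n → F) := ⟨_, rfl⟩
  rw [← ha₀def] at hcc
  have ha₀ : a₀ ≠ 0 := by rw [ha₀def]; exact ha i₀
  -- first Gram computation
  obtain ⟨M₀, hM₀⟩ : ∃ M₀ : Matrix (Fin n) (Fin n) F,
      M₀ = colMat (fun i => (d i : Fin n → F)) := ⟨_, rfl⟩
  have hgram0 : M₀ᵀ * gramMatrix (QuadraticMap.polar Q) * M₀ =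
      Matrix.diagonal (fun i => 2 * (cc i ^ 2 * a₀)) := by
    ext i j
    rw [hM₀, gram_conj_apply _ hb]
    by_cases hij : i = j
    · subst hij
      rw [Matrix.diagonal_apply_eq, hbQ, hcc i]
    · rw [Matrix.diagonal_apply_ne _ hij, horth i j hij]
  obtain ⟨c, hc0, hcdet⟩ := hdisc
  obtain ⟨Pc, hPc⟩ : ∃ Pc : F, Pc = ∏ i, cc i := ⟨_, rfl⟩
  have hPc0 : Pc ≠ 0 := by
    rw [hPc]; exact Finset.prod_ne_zero_iff.mpr (fun i _ => hcc0 i)
  obtain ⟨dM, hdMdef⟩ : ∃ dM : F, dM = M₀.det := ⟨_, rfl⟩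
  have hdet0 : dM ^ 2 * (-2 * c ^ 2) = (2 * a₀) ^ (2 * k + 1) * Pc ^ 2 := by
    have h := congrArg Matrix.det hgram0
    rw [Matrix.det_mul, Matrix.det_mul, Matrix.det_transpose, Matrix.det_diagonal, hcdet,
      ← hdMdef] at h
    rw [show dM ^ 2 * (-2 * c ^ 2) = dM * (-2 * c ^ 2) * dM by ring, h]
    have h1 : ∀ i : Fin n, 2 * (cc i ^ 2 * a₀) = (2 * a₀) * cc i ^ 2 := fun i => by ring
    have hpow : (2 * a₀) ^ n = (2 * a₀) ^ (2 * k + 1) := by rw [hk]
    rw [Finset.prod_congr rfl (fun i _ => h1 i), Finset.prod_mul_distrib, Finset.prod_const,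
      Finset.card_univ, Fintype.card_fin, Finset.prod_pow, hpow, hPc]
  have h2a : (2 * a₀) ≠ 0 := mul_ne_zero h2 ha₀
  have hT0 : (2 * a₀) ^ k * Pc ≠ 0 := mul_ne_zero (pow_ne_zero _ h2a) hPc0
  have hdM : dM ≠ 0 := by
    intro h
    rw [h] at hdet0
    have h3 : (2 * a₀) ^ (2 * k + 1) * Pc ^ 2 ≠ 0 :=
      mul_ne_zero (pow_ne_zero _ h2a) (pow_ne_zero _ hPc0)
    apply h3
    rw [← hdet0]; ring
  obtain ⟨s, hs⟩ : ∃ s : F, s = c * dM / ((2 * a₀) ^ k * Pc) := ⟨_, rfl⟩
  have hs0 : s ≠ 0 := by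
    rw [hs]; exact div_ne_zero (mul_ne_zero hc0 hdM) hT0
  have has : a₀ = -s ^ 2 := by
    have e1 : 2 * (a₀ * ((2 * a₀) ^ k * Pc) ^ 2 + (c * dM) ^ 2) = 0 := by
      linear_combination (-1 : F) * hdet0
    have e2 : a₀ * ((2 * a₀) ^ k * Pc) ^ 2 + (c * dM) ^ 2 = 0 := by
      rcases mul_eq_zero.mp e1 with h | h
      · exact absurd h h2
      · exact h
    rw [hs, div_pow]
    field_simp
    linear_combination e2
  -- rescaled generators
  obtain ⟨lam, hlam⟩ : ∃ lam : Fin n → F, lam = fun i => (cc i * s)⁻¹ := ⟨_, rfl⟩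
  have hlam0 : ∀ i, lam i ≠ 0 := by
    intro i; rw [hlam]; exact inv_ne_zero (mul_ne_zero (hcc0 i) hs0)
  obtain ⟨dd, hdd⟩ : ∃ dd : Fin n → (Fin n → F),
      dd = fun i => lam i • (d i : Fin n → F) := ⟨_, rfl⟩
  have hQdd : ∀ i, Q (dd i) = -1 := by
    intro i
    rw [hdd, hQ.smul, hcc i, has, hlam]
    have := hcc0 i
    field_simp
  have hbdd : ∀ i j, i ≠ j → QuadraticMap.polar Q (dd i) (dd j) = 0 := by
    intro i j hij
    rw [hdd, hb.smul_left, hb.smul_right, horth i j hij]; ring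
  obtain ⟨M, hM⟩ : ∃ M : Matrix (Fin n) (Fin n) F, M = colMat dd := ⟨_, rfl⟩
  have hgram : Mᵀ * gramMatrix (QuadraticMap.polar Q) * M =
      Matrix.diagonal (fun _ : Fin n => (-2 : F)) := by
    ext i j
    rw [hM, gram_conj_apply _ hb]
    by_cases hij : i = j
    · subst hij
      rw [Matrix.diagonal_apply_eq, hbQ, hQdd]; ring
    · rw [Matrix.diagonal_apply_ne _ hij, hbdd i j hij]
  have hMdet : M.det ≠ 0 := by
    intro h
    have h' := congrArg Matrix.det hgram
    rw [Matrix.det_mul, Matrix.det_mul, Matrix.det_transpose, h, Matrix.det_diagonal,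
      Finset.prod_const] at h'
    have h3 : ((-2 : F)) ^ (Finset.univ : Finset (Fin n)).card ≠ 0 :=
      pow_ne_zero _ (neg_ne_zero.mpr h2)
    apply h3
    rw [← h']; ring
  -- the value of Q on the span
  have hQM : ∀ u : Fin n → F, Q (M *ᵥ u) = -∑ i, u i * u i := by
    intro u
    have h1 := gram_conj _ hb M u u
    rw [hgram, hbQ] at h1
    have h3 : u ⬝ᵥ (Matrix.diagonal (fun _ : Fin n => (-2 : F)) *ᵥ u) = -2 * ∑ i, u i * u i := by
      simp only [dotProduct, Matrix.mulVec_diagonal]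
      rw [Finset.mul_sum]
      apply Finset.sum_congr rfl
      intro i _
      ring
    rw [h3] at h1
    have h4 : 2 * (Q (M *ᵥ u) + ∑ i, u i * u i) = 0 := by linear_combination h1
    rcases mul_eq_zero.mp h4 with h | h
    · exact absurd h h2
    · linear_combination h
  obtain ⟨Pg, hPM⟩ : ∃ Pg : GL (Fin n) F, (Pg : Matrix (Fin n) (Fin n) F) = M :=
    ⟨Matrix.GeneralLinearGroup.mkOfDetNeZero M hMdet, rfl⟩
  refine ⟨Pg, ?_, ?_⟩
  · intro F₀ u hu
    show Q ((Pg : Matrix (Fin n) (Fin n) F) *ᵥ u) ∈ F₀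
    rw [hPM, hQM]
    exact F₀.neg_mem (F₀.sum_mem (fun i _ => F₀.mul_mem (hu i) (hu i)))
  · intro F₀ g hg hgQ
    obtain ⟨σ, hσ⟩ := hg
    have himg : ∀ i, ∃ ε : F, ε ∈ F₀ ∧ g.1 *ᵥ dd i = ε • dd (σ i) := by
      intro i
      have h1 : g.1 *ᵥ (d i : Fin n → F) ∈ D (σ i) := by
        rw [← hσ i]
        exact Submodule.mem_map.mpr ⟨_, hdmem i, by rw [Matrix.toLin'_apply]⟩
      obtain ⟨c', hc'⟩ := hdgen' (σ i) _ h1
      have h5 : g.1 *ᵥ dd i = (lam i * c' * (lam (σ i))⁻¹) • dd (σ i) := by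
        rw [hdd]
        simp only []
        rw [Matrix.mulVec_smul, hc', smul_smul, smul_smul]
        congr 1
        have := hlam0 (σ i)
        field_simp
      have h6 : (lam i * c' * (lam (σ i))⁻¹) * (lam i * c' * (lam (σ i))⁻¹) = 1 := by
        have h7 := hgQ (dd i)
        rw [h5, hQ.smul, hQdd, hQdd] at h7
        linear_combination -h7
      refine ⟨_, ?_, h5⟩
      rcases mul_self_eq_one_iff.mp h6 with h | h
      · rw [h]; exact F₀.one_mem
      · rw [h]; exact F₀.neg_mem F₀.one_mem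
    choose ε hεF hεg using himg
    apply mem_subfield_of_entries
    intro i j
    have hcol : ((Pg⁻¹ * g * Pg : GL (Fin n) F) : Matrix (Fin n) (Fin n) F) *ᵥ Pi.single j 1
        = ε j • Pi.single (σ j) 1 := by
      rw [Units.val_mul, Units.val_mul, ← Matrix.mulVec_mulVec, ← Matrix.mulVec_mulVec, hPM,
        hM, colMat_mulVec_single, hεg j, Matrix.mulVec_smul]
      congr 1
      rw [← colMat_mulVec_single dd (σ j), ← hM, ← hPM, Matrix.mulVec_mulVec, ← Units.val_mul,
        inv_mul_cancel, Units.val_one, Matrix.one_mulVec]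
    have hij := congrFun hcol i
    rw [Matrix.mulVec_single_one] at hij
    have hval : ((Pg⁻¹ * g * Pg : GL (Fin n) F) : Matrix (Fin n) (Fin n) F) i j =
        ε j * (Pi.single (σ j) (1 : F) : Fin n → F) i := hij
    rw [hval]
    refine F₀.mul_mem (hεF j) ?_
    by_cases h : i = σ j
    · subst h
      rw [Pi.single_eq_same]; exact F₀.one_mem
    · rw [Pi.single_eq_of_ne h]; exact F₀.zero_mem

end Cfsg.Agent.Lib.Helper23.OMPO3r
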