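import Mathlib
import Cfsg.Agent.S5396

/-!
# Piece O3 for S5432 (helper61): every isometry lifts to an automorphism of `Ext β`.
-/

set_option autoImplicit false

namespace Cfsg.Agent.Lib.Helper23.OutExtra

open Cfsg.Agent.S5396

section

variable {ι : Type} [Fintype ι] [DecidableEq ι]

theorem o3_z2_cases : ∀ a : ZMod 2, a = 0 ∨ a = 1 := by decide

/-- An additive function on `ι → ZMod 2` is determined by its values on the unit vectors. -/
theorem o3_expand (φ : (ι → ZMod 2) → ZMod 2) (hφ : ∀ a b, φ (a + b) = φ a + φ b)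
    (v : ι → ZMod 2) : φ v = ∑ i, v i * φ (Pi.single i 1) := by
  let Φ : (ι → ZMod 2) →+ ZMod 2 := AddMonoidHom.mk' φ hφ
  have h1 : v = ∑ i, Pi.single i (v i) := (Finset.univ_sum_single v).symm
  have h2 : Φ v = ∑ i, Φ (Pi.single i (v i)) := by
    conv_lhs => rw [h1]
    exact map_sum Φ _ _
  have h3 : ∀ i, Φ (Pi.single i (v i)) = v i * φ (Pi.single i 1) := by
    intro i
    rcases o3_z2_cases (v i) with h | h
    · rw [h, Pi.single_zero, map_zero, zero_mul]
    · rw [h, one_mul]
      rfl
  calc φ v = Φ v := rfl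
    _ = ∑ i, Φ (Pi.single i (v i)) := h2
    _ = ∑ i, v i * φ (Pi.single i 1) := Finset.sum_congr rfl (fun i _ => h3 i)

/-- The coboundary lemma: an alternating biadditive form on `ι → ZMod 2` is the polar form of
some function. -/
theorem o3_coboundary (γ : (ι → ZMod 2) → (ι → ZMod 2) → ZMod 2)
    (hl : ∀ a b v, γ (a + b) v = γ a v + γ b v) (hr : ∀ u a b, γ u (a + b) = γ u a + γ u b)
    (h0 : ∀ v, γ v v = 0) :
    ∃ f : (ι → ZMod 2) → ZMod 2, ∀ u v, f (u + v) = f u + f v + γ u v := by
  classical
  have hsymm : ∀ u v, γ u v = γ v u := by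
    intro u v
    have h1 := h0 (u + v)
    rw [hl, hr, hr, h0, h0] at h1
    apply z2_add_eq
    linear_combination h1
  let e := Fintype.equivFin ι
  let c : ι → ι → ZMod 2 := fun i j => γ (Pi.single i 1) (Pi.single j 1)
  have hc0 : ∀ i, c i i = 0 := fun i => h0 _
  have hcs : ∀ i j, c i j = c j i := fun i j => hsymm _ _
  have hγ : ∀ u v, γ u v = ∑ i, ∑ j, u i * v j * c i j := by
    intro u v
    rw [o3_expand (fun a => γ a v) (fun a b => hl a b v) u]
    apply Finset.sum_congr rfl
    intro i _
    rw [o3_expand (fun b => γ (Pi.single i 1) b) (fun a b => hr _ a b) v, Finset.mul_sum]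
    apply Finset.sum_congr rfl
    intro j _
    show u i * (v j * c i j) = u i * v j * c i j
    ring
  let δ : (ι → ZMod 2) → (ι → ZMod 2) → ZMod 2 := fun u v =>
    ∑ i, ∑ j, if e i < e j then u i * v j * c i j else 0
  have hδ1 : ∀ u v, δ (u + v) (u + v) = δ u u + δ v v + (δ u v + δ v u) := by
    intro u v
    show (∑ i, ∑ j, if e i < e j then (u + v) i * (u + v) j * c i j else 0) =
      (∑ i, ∑ j, if e i < e j then u i * u j * c i j else 0) +
      (∑ i, ∑ j, if e i < e j then v i * v j * c i j else 0) +
      ((∑ i, ∑ j, if e i < e j then u i * v j * c i j else 0) +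
       (∑ i, ∑ j, if e i < e j then v i * u j * c i j else 0))
    simp only [← Finset.sum_add_distrib]
    apply Finset.sum_congr rfl
    intro i _
    apply Finset.sum_congr rfl
    intro j _
    by_cases h : e i < e j
    · simp only [if_pos h, Pi.add_apply]
      ring
    · simp only [if_neg h, add_zero]
  have hδ2 : ∀ u v, δ u v + δ v u = γ u v := by
    intro u v
    have h1 : δ v u = ∑ i, ∑ j, if e j < e i then v j * u i * c j i else 0 := by
      show (∑ i, ∑ j, if e i < e j then v i * u j * c i j else 0) = _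
      rw [Finset.sum_comm]
    rw [h1, hγ]
    show (∑ i, ∑ j, if e i < e j then u i * v j * c i j else 0) + _ = _
    simp only [← Finset.sum_add_distrib]
    apply Finset.sum_congr rfl
    intro i _
    apply Finset.sum_congr rfl
    intro j _
    rcases lt_trichotomy (e i) (e j) with h | h | h
    · rw [if_pos h, if_neg (not_lt.mpr h.le), add_zero]
    · have hij : i = j := e.injective h
      subst hij
      rw [if_neg (lt_irrefl _), if_neg (lt_irrefl _), hc0, mul_zero, add_zero]
    · rw [if_neg (not_lt.mpr h.le), if_pos h, zero_add, hcs j i]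
      ring
  refine ⟨fun v => δ v v, fun u v => ?_⟩
  show δ (u + v) (u + v) = δ u u + δ v v + γ u v
  rw [hδ1, hδ2]

end

theorem exists_lift {ι : Type} [Fintype ι] [DecidableEq ι]
    (β : (ι → ZMod 2) →+ (ι → ZMod 2) →+ ZMod 2)
    (g : Matrix.GeneralLinearGroup ι (ZMod 2))
    (hg : ∀ v : ι → ZMod 2,
      β (Matrix.mulVec (g : Matrix ι ι (ZMod 2)) v) (Matrix.mulVec (g : Matrix ι ι (ZMod 2)) v)
        = β v v) :
    ∃ α : MulAut (Ext β), ∀ v : ι → ZMod 2,
      (α ⟨v, 0⟩).v = Matrix.mulVec (g : Matrix ι ι (ZMod 2)) v := by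
  classical
  set M : Matrix ι ι (ZMod 2) := (g : Matrix ι ι (ZMod 2)) with hM
  set N : Matrix ι ι (ZMod 2) := ((g⁻¹ : Matrix.GeneralLinearGroup ι (ZMod 2)) :
    Matrix ι ι (ZMod 2)) with hN
  have hMN : M * N = 1 := by
    rw [hM, hN]
    exact Units.mul_inv g
  have hNM : N * M = 1 := by
    rw [hM, hN]
    exact Units.inv_mul g
  have hMNv : ∀ w : ι → ZMod 2, M.mulVec (N.mulVec w) = w := by
    intro w
    rw [Matrix.mulVec_mulVec, hMN, Matrix.one_mulVec]
  have hNMv : ∀ w : ι → ZMod 2, N.mulVec (M.mulVec w) = w := by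
    intro w
    rw [Matrix.mulVec_mulVec, hNM, Matrix.one_mulVec]
  obtain ⟨f, hf⟩ := o3_coboundary
    (fun u v => β (M.mulVec u) (M.mulVec v) + β u v)
    (by
      intro a b v
      simp only [Matrix.mulVec_add, map_add, AddMonoidHom.add_apply]
      ring)
    (by
      intro u a b
      simp only [Matrix.mulVec_add, map_add]
      ring)
    (by
      intro v
      show β (M.mulVec v) (M.mulVec v) + β v v = 0
      rw [hg v]
      exact two_s _)
  let α : MulAut (Ext β) :=
    { toFun := fun x => ⟨M.mulVec x.v, x.s + f x.v⟩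
      invFun := fun y => ⟨N.mulVec y.v, y.s + f (N.mulVec y.v)⟩
      left_inv := by
        intro x
        refine Ext.ext ?_ ?_
        · exact hNMv x.v
        · show x.s + f x.v + f (N.mulVec (M.mulVec x.v)) = x.s
          rw [hNMv]
          have h := two_s (f x.v)
          linear_combination h
      right_inv := by
        intro y
        refine Ext.ext ?_ ?_
        · exact hMNv y.v
        · show y.s + f (N.mulVec y.v) + f (N.mulVec y.v) = y.s
          have h := two_s (f (N.mulVec y.v))
          linear_combination h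
      map_mul' := by
        intro a b
        refine Ext.ext ?_ ?_
        · show M.mulVec (a.v + b.v) = M.mulVec a.v + M.mulVec b.v
          exact Matrix.mulVec_add _ _ _
        · show a.s + b.s + β a.v b.v + f (a.v + b.v) =
            (a.s + f a.v) + (b.s + f b.v) + β (M.mulVec a.v) (M.mulVec b.v)
          rw [hf]
          have h := two_s (β a.v b.v)
          linear_combination h }
  exact ⟨α, fun v => rfl⟩

end Cfsg.Agent.Lib.Helper23.OutExtra
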