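import Mathlib
import Cfsg.Agent.Lib.Helper23.PSL2Defs

/-!
# The `PSL(2, 11)` certificate
-/

namespace Cfsg.Agent.Lib.Helper23

theorem psl2_arith_11 : PSL2Arith 11 5 4 2 where
  cov := by decide +kernel
  norm := by decide +kernel
  n₀_ne := by decide +kernel
  card := by decide +kernel
  sq := by decide +kernel
  rpow := by decide +kernel
  r_ne := by decide +kernel
  two_h := by norm_num

set_option maxRecDepth 100000 in
theorem psl2_cert_11 : CertS 11 5 4 2 := by decide +kernel

end Cfsg.Agent.Lib.Helper23
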