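import Mathlib
import Cfsg.Agent.Lib.Helper22.PTDefs

/-! PT piece FINA (for S4705): the `p`-regular elements with central square are the products
`τ c`, `τ ^ 2 = 1`, `c` central, bijectively (odd centre without `p`-elements). -/

set_option autoImplicit false
set_option linter.unusedSectionVars false

namespace Cfsg.Agent.Lib.Helper23.PT

open Cfsg Cfsg.Agent.Lib.Helper22.BFD Cfsg.Agent.Lib.Helper22.PT
open scoped ComplexConjugate

universe u

variable {G : Type u} [Group G] [Fintype G]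

/-- in a centre of odd order the only element of square one is the identity -/
theorem fina_sq_one (hodd : Odd (Nat.card (Subgroup.center G))) (e : G)
    (he : e ∈ Subgroup.center G) (he2 : e ^ 2 = 1) : e = 1 := by
  have h1 : orderOf (⟨e, he⟩ : Subgroup.center G) ∣ Nat.card (Subgroup.center G) :=
    orderOf_dvd_natCard _
  have h2 : orderOf (⟨e, he⟩ : Subgroup.center G) ∣ 2 := by
    apply orderOf_dvd_of_pow_eq_one
    apply Subtype.ext
    simpa using he2
  have hcop : Nat.Coprime 2 (Nat.card (Subgroup.center G)) := Nat.coprime_two_left.mpr hodd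
  have h3 := Nat.dvd_gcd h2 h1
  rw [Nat.Coprime.gcd_eq_one hcop] at h3
  have h4 : (⟨e, he⟩ : Subgroup.center G) = 1 := orderOf_eq_one_iff.mp (Nat.dvd_one.mp h3)
  exact congrArg Subtype.val h4

/-- the square of `τ c` for `τ ^ 2 = 1` and `c` central -/
theorem fina_sq (τ c : G) (hτ : τ ^ 2 = 1) (hc : c ∈ Subgroup.center G) :
    (τ * c) ^ 2 = c ^ 2 := by
  have hcomm : c * τ = τ * c := (Subgroup.mem_center_iff.mp hc τ).symm
  have hτ' : τ * τ = 1 := by rw [← pow_two]; exact hτ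
  rw [pow_two, pow_two]
  calc τ * c * (τ * c) = τ * (c * τ) * c := by simp only [mul_assoc]
    _ = τ * (τ * c) * c := by rw [hcomm]
    _ = (τ * τ) * (c * c) := by simp only [mul_assoc]
    _ = c * c := by rw [hτ', one_mul]

open Classical in
/-- PIECE FINA -/
theorem finA (p : ℕ) [Fact p.Prime] (hp2 : p ≠ 2) (hodd : Odd (Nat.card (Subgroup.center G)))
    (hZp : ∀ c ∈ Subgroup.center G, ¬ p ∣ orderOf c) (F : G → ℂ)
    (hF : ∀ g : G, ¬ p ∣ orderOf g → g ^ 2 ∉ Subgroup.center G → F g = 0) :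
    ∑ g : G, (if p ∣ orderOf g then 0 else F g) =
      ∑ τ : G, ∑ c : G, (if τ ^ 2 = 1 ∧ c ∈ Subgroup.center G then F (τ * c) else 0) := by
  have h1 : ∑ g : G, (if p ∣ orderOf g then 0 else F g) =
      ∑ g ∈ Finset.univ.filter
        (fun g : G => ¬ p ∣ orderOf g ∧ g ^ 2 ∈ Subgroup.center G), F g := by
    rw [Finset.sum_filter]
    refine Finset.sum_congr rfl (fun g _ => ?_)
    by_cases hpg : p ∣ orderOf g
    · simp [hpg]
    · by_cases hg2 : g ^ 2 ∈ Subgroup.center G
      · simp [hpg, hg2]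
      · simp [hpg, hg2, hF g hpg hg2]
  have h2 : ∑ τ : G, ∑ c : G,
      (if τ ^ 2 = 1 ∧ c ∈ Subgroup.center G then F (τ * c) else 0) =
      ∑ x ∈ (Finset.univ : Finset (G × G)).filter
        (fun x => x.1 ^ 2 = 1 ∧ x.2 ∈ Subgroup.center G), F (x.1 * x.2) := by
    rw [Finset.sum_filter, ← Finset.univ_product_univ, Finset.sum_product]
  rw [h1, h2]
  symm
  apply Finset.sum_bij (fun x _ => x.1 * x.2)
  · rintro ⟨τ, c⟩ hx
    simp only [Finset.mem_filter, Finset.mem_univ, true_and] at hx ⊢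
    obtain ⟨hτ, hc⟩ := hx
    have hsq := fina_sq τ c hτ hc
    refine ⟨?_, ?_⟩
    · intro hp
      have hdvd : orderOf (τ * c) ∣ 2 * orderOf c := by
        apply orderOf_dvd_of_pow_eq_one
        rw [pow_mul, hsq, ← pow_mul, mul_comm, pow_mul, pow_orderOf_eq_one, one_pow]
      rcases (Nat.Prime.dvd_mul (Fact.out : p.Prime)).mp (hp.trans hdvd) with h | h
      · exact hp2 ((Nat.prime_dvd_prime_iff_eq (Fact.out : p.Prime) Nat.prime_two).mp h)
      · exact hZp c hc h
    · rw [hsq]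
      exact Subgroup.pow_mem _ hc 2
  · rintro ⟨τ, c⟩ hx ⟨τ', c'⟩ hx' heq
    simp only [Finset.mem_filter, Finset.mem_univ, true_and] at hx hx'
    obtain ⟨hτ, hc⟩ := hx
    obtain ⟨hτ', hc'⟩ := hx'
    have heq' : τ * c = τ' * c' := heq
    have hsq : c ^ 2 = c' ^ 2 := by
      rw [← fina_sq τ c hτ hc, ← fina_sq τ' c' hτ' hc', heq']
    have hcc : c * c'⁻¹ = 1 := by
      apply fina_sq_one hodd _ (Subgroup.mul_mem _ hc (Subgroup.inv_mem _ hc'))
      have hcomm : c'⁻¹ * c = c * c'⁻¹ :=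
        (Subgroup.mem_center_iff.mp hc c'⁻¹)
      have hsq' : c * c = c' * c' := by rw [← pow_two, ← pow_two]; exact hsq
      rw [pow_two]
      calc c * c'⁻¹ * (c * c'⁻¹) = c * (c'⁻¹ * c) * c'⁻¹ := by simp only [mul_assoc]
        _ = c * (c * c'⁻¹) * c'⁻¹ := by rw [hcomm]
        _ = (c * c) * (c'⁻¹ * c'⁻¹) := by simp only [mul_assoc]
        _ = (c' * c') * (c'⁻¹ * c'⁻¹) := by rw [hsq']
        _ = 1 := by group
    have hceq : c = c' := mul_inv_eq_one.mp hcc
    subst hceq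
    have hτeq : τ = τ' := mul_right_cancel heq'
    rw [hτeq]
  · intro g hg
    simp only [Finset.mem_filter, Finset.mem_univ, true_and] at hg
    obtain ⟨hpg, hg2⟩ := hg
    obtain ⟨k, hk⟩ := hodd
    have hpow : (g ^ 2) ^ Nat.card (Subgroup.center G) = 1 := by
      have h3 : (⟨g ^ 2, hg2⟩ : Subgroup.center G) ^ Nat.card (Subgroup.center G) = 1 :=
        pow_card_eq_one'
      have h4 : ((⟨g ^ 2, hg2⟩ : Subgroup.center G) ^ Nat.card (Subgroup.center G) :
          Subgroup.center G).1 = (1 : Subgroup.center G).1 := congrArg Subtype.val h3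
      rw [Subgroup.coe_pow] at h4
      exact h4
    have hcmem : (g ^ 2) ^ (k + 1) ∈ Subgroup.center G := Subgroup.pow_mem _ hg2 _
    have hc2 : ((g ^ 2) ^ (k + 1)) ^ 2 = g ^ 2 := by
      rw [← pow_mul]
      have e : (k + 1) * 2 = Nat.card (Subgroup.center G) + 1 := by omega
      rw [e, pow_succ, hpow, one_mul]
    have hcomm : (g ^ 2) ^ (k + 1) * g = g * (g ^ 2) ^ (k + 1) :=
      (Subgroup.mem_center_iff.mp hcmem g).symm
    refine ⟨(g * ((g ^ 2) ^ (k + 1))⁻¹, (g ^ 2) ^ (k + 1)), ?_, ?_⟩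
    · simp only [Finset.mem_filter, Finset.mem_univ, true_and]
      refine ⟨?_, hcmem⟩
      generalize (g ^ 2) ^ (k + 1) = c at hc2 hcomm
      have hcomm' : c⁻¹ * g = g * c⁻¹ := by
        have e1 : c⁻¹ * g = c⁻¹ * (g * c) * c⁻¹ := by group
        rw [e1, ← hcomm]
        group
      have hc2' : c * c = g * g := by rw [← pow_two, ← pow_two]; exact hc2
      rw [pow_two]
      calc g * c⁻¹ * (g * c⁻¹) = g * (c⁻¹ * g) * c⁻¹ := by simp only [mul_assoc]
        _ = g * (g * c⁻¹) * c⁻¹ := by rw [hcomm']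
        _ = (g * g) * (c⁻¹ * c⁻¹) := by simp only [mul_assoc]
        _ = (c * c) * (c⁻¹ * c⁻¹) := by rw [hc2']
        _ = 1 := by group
    · show g * ((g ^ 2) ^ (k + 1))⁻¹ * (g ^ 2) ^ (k + 1) = g
      rw [inv_mul_cancel_right]
  · intro x hx
    rfl

end Cfsg.Agent.Lib.Helper23.PT
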