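import Mathlib
import Cfsg.Agent.Lib.Helper22.PTDefs
import Cfsg.Agent.Lib.Helper82.Vanish

/-! PT piece ZABS (for S4705): `‖ζ g‖ = ‖ζ 1‖` for a faithful irreducible character `ζ` forces
`g` to be central. -/

set_option autoImplicit false

namespace Cfsg.Agent.Lib.Helper23.PT

open Cfsg Cfsg.Agent.Lib.Helper22.BFD Cfsg.Agent.Lib.Helper22.PT
open scoped ComplexConjugate

universe u

variable {G : Type u} [Group G] [Fintype G]

/-- PIECE ZABS -/
theorem zabs (ζ : G → ℂ) (hirr : IsIrrCharacter G ζ) (hf : ∀ g : G, ζ g = ζ 1 → g = 1) (g : G)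
    (hg : ‖ζ g‖ = ‖ζ 1‖) : g ∈ Subgroup.center G := by
  obtain ⟨n, ρ, hρ, hχ⟩ := hirr
  have h1 : ζ 1 = (n : ℂ) := by
    rw [← hχ]
    simp [Representation.character]
  have hnorm : ‖ρ.character g‖ = (Module.finrank ℂ (Fin n → ℂ) : ℝ) := by
    rw [hχ, hg, h1]
    simp
  obtain ⟨ω, hω⟩ := (Cfsg.Agent.Lib.Helper4.norm_char_eq_iff ρ g).mp hnorm
  rw [Subgroup.mem_center_iff]
  intro x
  have h2 := Cfsg.Agent.Lib.Helper82.rep_commutator_of_scalar ρ g x ω hω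
  have h3 : ζ (g * x * g⁻¹ * x⁻¹) = ζ 1 := by
    rw [← hχ]
    unfold Representation.character
    rw [h2]
  have h4 := hf _ h3
  calc x * g = (g * x * g⁻¹ * x⁻¹)⁻¹ * (g * x) := by group
    _ = g * x := by rw [h4]; group

end Cfsg.Agent.Lib.Helper23.PT
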