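import Cfsg.Agent.Lib.Helper96.PiDefs
import Cfsg.Agent.Lib.Helper96.PiGlueB
import Cfsg.Agent.Lib.Helper96.PiOmega
import Cfsg.Agent.Lib.Helper9.HeUNIPPOW

/-!
Project PI (S5989, helper96), piece CONB: for odd `d` a unipotent isometry `x` of the plus-type
form on `Fin d ⊕ Fin d → F` with `(x - 1)² = 0` and `ker (x - 1) ≤ range (x - 1) ⊔ Y`,
`finrank Y ≤ 2`.  (`x = 1 + N`, `N (u, y) = (M u, -P y)` with two mutually adjoint shift maps.)
-/

set_option autoImplicit false
set_option linter.unusedSectionVars false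
set_option linter.unusedVariables false

namespace Cfsg.Agent.Lib.Helper23.Pi

open Module Cfsg.Agent.Lib.Helper96.Sp Cfsg.Agent.Lib.Helper96.BG Cfsg.Agent.Lib.Helper96.Hy
  Cfsg.Agent.Lib.Helper96.Pi Cfsg.Agent.Lib.Helper47

universe u

section Concrete

open Matrix
open scoped MatrixGroups

variable {F : Type u} [Field F] [Fintype F]

/-- the index shift identity behind the adjointness of the two shift maps -/
theorem conb_sum_shift (s t : ℕ → F) (d' : ℕ) (ht : t (d' + 1) = 0) :
    ∑ n ∈ Finset.range (d' + 1), (if n % 2 = 1 ∧ n < d' + 1 then s (n - 1) else 0) * t n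
      = ∑ n ∈ Finset.range (d' + 1), s n * (if n % 2 = 0 then t (n + 1) else 0) := by
  rw [Finset.sum_range_succ', Finset.sum_range_succ]
  have h0 : (if 0 % 2 = 1 ∧ 0 < d' + 1 then s (0 - 1) else 0) * t 0 = 0 := by
    simp
  have h1 : s d' * (if d' % 2 = 0 then t (d' + 1) else 0) = 0 := by
    rw [ht]; simp
  rw [h0, h1, add_zero, add_zero]
  apply Finset.sum_congr rfl
  intro i hi
  have hi' : i < d' := Finset.mem_range.mp hi
  by_cases hc : i % 2 = 0
  · have hc' : (i + 1) % 2 = 1 ∧ i + 1 < d' + 1 := ⟨by omega, by omega⟩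
    rw [if_pos hc', if_pos hc]
    simp
  · have hc' : ¬ ((i + 1) % 2 = 1 ∧ i + 1 < d' + 1) := by
      rintro ⟨h, _⟩; omega
    rw [if_neg hc', if_neg hc]
    simp

/-- the two shift maps on `Fin d → F` for odd `d` -/
theorem conb_concrete (d : ℕ) (hd : Odd d) (hd3 : 3 ≤ d) :
    ∃ (M P : Module.End F (Fin d → F)) (a u₀ : Fin d → F) (j₀ : Fin d),
      (∀ u, M (M u) = 0) ∧ (∀ y, P (P y) = 0) ∧
      (∀ u y : Fin d → F, ∑ i, M u i * y i = ∑ i, u i * P y i) ∧
      (∀ u, M u = 0 → ∃ (u' : Fin d → F) (c : F), u = M u' + c • a) ∧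
      (∀ y, P y = 0 → ∃ (y' : Fin d → F) (c : F), y = P y' + c • a) ∧
      u₀ j₀ = 0 ∧ M u₀ j₀ ≠ 0 := by
  obtain ⟨d', rfl⟩ : ∃ d', d = d' + 1 := ⟨d - 1, by omega⟩
  have hd'2 : d' % 2 = 0 := by
    have := Nat.odd_iff.mp hd
    omega
  obtain ⟨E, hE⟩ : ∃ E : (Fin (d' + 1) → F) → ℕ → F,
      ∀ u n, E u n = if h : n < d' + 1 then u ⟨n, h⟩ else 0 := ⟨_, fun _ _ => rfl⟩
  have hElt : ∀ u (j : Fin (d' + 1)), E u (j : ℕ) = u j := by
    intro u j
    rw [hE, dif_pos j.2]
  have hEge : ∀ u n, d' + 1 ≤ n → E u n = 0 := by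
    intro u n hn
    rw [hE, dif_neg (by omega)]
  have hEadd : ∀ u v n, E (u + v) n = E u n + E v n := by
    intro u v n
    rw [hE, hE, hE]
    by_cases h : n < d' + 1
    · rw [dif_pos h, dif_pos h, dif_pos h]; rfl
    · rw [dif_neg h, dif_neg h, dif_neg h]; simp
  have hEsmul : ∀ (c : F) u n, E (c • u) n = c * E u n := by
    intro c u n
    rw [hE, hE]
    by_cases h : n < d' + 1
    · rw [dif_pos h, dif_pos h]; rfl
    · rw [dif_neg h, dif_neg h]; simp
  have hEinj : ∀ u v, (∀ n, E u n = E v n) → u = v := by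
    intro u v h
    funext j
    rw [← hElt u j, ← hElt v j]
    exact h j
  have hE0 : ∀ n, E 0 n = 0 := by
    intro n
    rw [hE]
    by_cases h : n < d' + 1
    · rw [dif_pos h]; rfl
    · rw [dif_neg h]
  obtain ⟨M, hM⟩ : ∃ M : Module.End F (Fin (d' + 1) → F),
      ∀ u (j : Fin (d' + 1)), M u j = if (j : ℕ) % 2 = 1 then E u ((j : ℕ) - 1) else 0 := by
    refine ⟨{ toFun := fun u j => if (j : ℕ) % 2 = 1 then E u ((j : ℕ) - 1) else 0
              map_add' := ?_
              map_smul' := ?_ }, fun _ _ => rfl⟩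
    · intro u v
      funext j
      simp only [Pi.add_apply]
      by_cases h : (j : ℕ) % 2 = 1
      · rw [if_pos h, if_pos h, if_pos h, hEadd]
      · rw [if_neg h, if_neg h, if_neg h, add_zero]
    · intro c u
      funext j
      simp only [Pi.smul_apply, RingHom.id_apply, smul_eq_mul]
      by_cases h : (j : ℕ) % 2 = 1
      · rw [if_pos h, if_pos h, hEsmul]
      · rw [if_neg h, if_neg h, mul_zero]
  obtain ⟨P, hP⟩ : ∃ P : Module.End F (Fin (d' + 1) → F),
      ∀ y (j : Fin (d' + 1)), P y j = if (j : ℕ) % 2 = 0 then E y ((j : ℕ) + 1) else 0 := by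
    refine ⟨{ toFun := fun u j => if (j : ℕ) % 2 = 0 then E u ((j : ℕ) + 1) else 0
              map_add' := ?_
              map_smul' := ?_ }, fun _ _ => rfl⟩
    · intro u v
      funext j
      simp only [Pi.add_apply]
      by_cases h : (j : ℕ) % 2 = 0
      · rw [if_pos h, if_pos h, if_pos h, hEadd]
      · rw [if_neg h, if_neg h, if_neg h, add_zero]
    · intro c u
      funext j
      simp only [Pi.smul_apply, RingHom.id_apply, smul_eq_mul]
      by_cases h : (j : ℕ) % 2 = 0
      · rw [if_pos h, if_pos h, hEsmul]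
      · rw [if_neg h, if_neg h, mul_zero]
  have hEM : ∀ u n, E (M u) n = if n % 2 = 1 ∧ n < d' + 1 then E u (n - 1) else 0 := by
    intro u n
    by_cases h : n < d' + 1
    · have := hElt (M u) ⟨n, h⟩
      simp only at this
      rw [this, hM]
      by_cases h1 : n % 2 = 1
      · rw [if_pos h1, if_pos ⟨h1, h⟩]
      · rw [if_neg h1, if_neg (fun hh => h1 hh.1)]
    · rw [hEge _ _ (by omega), if_neg (fun hh => h hh.2)]
  have hEP : ∀ y n, E (P y) n = if n % 2 = 0 then E y (n + 1) else 0 := by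
    intro y n
    by_cases h : n < d' + 1
    · have := hElt (P y) ⟨n, h⟩
      simp only at this
      rw [this, hP]
    · rw [hEge _ _ (by omega), hEge _ _ (by omega)]
      simp
  refine ⟨M, P, Pi.single (Fin.last d') 1, Pi.single 0 1, ⟨1, by omega⟩, ?_, ?_, ?_, ?_, ?_, ?_, ?_⟩
  · intro u
    apply hEinj
    intro n
    rw [hEM, hEM, hE0]
    by_cases h1 : n % 2 = 1 ∧ n < d' + 1
    · rw [if_pos h1, if_neg (by rintro ⟨h, _⟩; omega)]
    · rw [if_neg h1]
  · intro y
    apply hEinj
    intro n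
    rw [hEP, hEP, hE0]
    by_cases h1 : n % 2 = 0
    · rw [if_pos h1, if_neg (by omega)]
    · rw [if_neg h1]
  · intro u y
    have e1 : ∑ i : Fin (d' + 1), M u i * y i
        = ∑ n ∈ Finset.range (d' + 1), E (M u) n * E y n := by
      rw [← Fin.sum_univ_eq_sum_range (fun n => E (M u) n * E y n) (d' + 1)]
      exact Finset.sum_congr rfl (fun i _ => by simp only [hElt])
    have e2 : ∑ i : Fin (d' + 1), u i * P y i
        = ∑ n ∈ Finset.range (d' + 1), E u n * E (P y) n := by
      rw [← Fin.sum_univ_eq_sum_range (fun n => E u n * E (P y) n) (d' + 1)]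
      exact Finset.sum_congr rfl (fun i _ => by simp only [hElt])
    rw [e1, e2]
    simp only [hEM, hEP]
    exact conb_sum_shift (E u) (E y) d' (hEge y _ le_rfl)
  · intro u hu
    have hu0 : ∀ n, n % 2 = 1 → n < d' + 1 → E u (n - 1) = 0 := by
      intro n h1 h2
      have := hEM u n
      rw [hu, hE0, if_pos ⟨h1, h2⟩] at this
      exact this.symm
    have hEa : ∀ n, E (Pi.single (Fin.last d') (1 : F)) n = if n = d' then 1 else 0 := by
      intro n
      rw [hE]
      by_cases h : n < d' + 1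
      · rw [dif_pos h, Pi.single_apply]
        by_cases h' : n = d'
        · rw [if_pos h', if_pos (Fin.ext (by simpa using h'))]
        · rw [if_neg h', if_neg (fun hh => h' (by simpa using congrArg Fin.val hh))]
      · rw [dif_neg h, if_neg (by omega)]
    refine ⟨P u, E u d', ?_⟩
    apply hEinj
    intro n
    rw [hEadd, hEsmul, hEM, hEP, hEa]
    by_cases h : n < d' + 1
    · by_cases h1 : n % 2 = 1
      · rw [if_pos ⟨h1, h⟩, if_pos (by omega), if_neg (by omega), mul_zero, add_zero]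
        congr 1
        omega
      · rw [if_neg (fun hh => h1 hh.1)]
        by_cases h2 : n = d'
        · rw [if_pos h2, h2]; ring
        · rw [if_neg h2]
          have := hu0 (n + 1) (by omega) (by omega)
          simp only [Nat.add_sub_cancel] at this
          rw [this]; ring
    · rw [hEge _ _ (by omega), if_neg (fun hh => h hh.2), if_neg (by omega)]
      ring
  · intro y hy
    have hy0 : ∀ n, n % 2 = 0 → E y (n + 1) = 0 := by
      intro n h1
      have := hEP y n
      rw [hy, hE0, if_pos h1] at this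
      exact this.symm
    have hEa : ∀ n, E (Pi.single (Fin.last d') (1 : F)) n = if n = d' then 1 else 0 := by
      intro n
      rw [hE]
      by_cases h : n < d' + 1
      · rw [dif_pos h, Pi.single_apply]
        by_cases h' : n = d'
        · rw [if_pos h', if_pos (Fin.ext (by simpa using h'))]
        · rw [if_neg h', if_neg (fun hh => h' (by simpa using congrArg Fin.val hh))]
      · rw [dif_neg h, if_neg (by omega)]
    refine ⟨M y, E y d', ?_⟩
    apply hEinj
    intro n
    rw [hEadd, hEsmul, hEP, hEM, hEa]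
    by_cases h : n < d' + 1
    · by_cases h1 : n % 2 = 0
      · rw [if_pos h1]
        by_cases h2 : n = d'
        · rw [if_pos h2, if_neg (by rintro ⟨_, hh⟩; omega), h2]; ring
        · rw [if_neg h2, if_pos ⟨by omega, by omega⟩]
          simp only [Nat.add_sub_cancel]
          ring
      · rw [if_neg h1, if_neg (by omega)]
        have := hy0 (n - 1) (by omega)
        rw [Nat.sub_add_cancel (by omega)] at this
        rw [this]; ring
    · rw [hEge _ _ (by omega)]
      have hnd : ¬ n = d' := by omega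
      rw [if_neg hnd]
      by_cases h1 : n % 2 = 0
      · rw [if_pos h1, if_neg (by rintro ⟨_, hh⟩; omega)]; ring
      · rw [if_neg h1]; ring
  · rw [Pi.single_apply, if_neg]
    intro hh
    have := congrArg Fin.val hh
    simp at this
  · rw [hM]
    simp only [Nat.one_mod, if_true]
    have : E (Pi.single (0 : Fin (d' + 1)) (1 : F)) (1 - 1) = 1 := by
      rw [hE, dif_pos (by omega), Pi.single_apply, if_pos]
      rfl
    rw [this]
    exact one_ne_zero

/-- the abstract construction: from the two shift maps to the unipotent isometry -/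
theorem conb_main (d : ℕ) (M P : Module.End F (Fin d → F))
    (hMM : ∀ u, M (M u) = 0) (hPP : ∀ y, P (P y) = 0)
    (hadj : ∀ u y : Fin d → F, ∑ i, M u i * y i = ∑ i, u i * P y i)
    (a : Fin d → F)
    (hkM : ∀ u, M u = 0 → ∃ (u' : Fin d → F) (c : F), u = M u' + c • a)
    (hkP : ∀ y, P y = 0 → ∃ (y' : Fin d → F) (c : F), y = P y' + c • a)
    (u₀ : Fin d → F) (j₀ : Fin d) (hu₀ : u₀ j₀ = 0) (hMu₀ : M u₀ j₀ ≠ 0) :
    ∃ x : GL (Fin d ⊕ Fin d) F,
      (∀ v, Cfsg.quadFormPlus d F ((x : Matrix (Fin d ⊕ Fin d) (Fin d ⊕ Fin d) F) *ᵥ v)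
        = Cfsg.quadFormPlus d F v) ∧
      (∀ z : F, (x : Matrix (Fin d ⊕ Fin d) (Fin d ⊕ Fin d) F)
        ≠ z • (1 : Matrix (Fin d ⊕ Fin d) (Fin d ⊕ Fin d) F)) ∧
      (Matrix.toLin' (x : Matrix (Fin d ⊕ Fin d) (Fin d ⊕ Fin d) F) - 1)
        * (Matrix.toLin' (x : Matrix (Fin d ⊕ Fin d) (Fin d ⊕ Fin d) F) - 1) = 0 ∧
      ∃ Y : Submodule F (Fin d ⊕ Fin d → F), finrank F Y ≤ 2 ∧
        LinearMap.ker (Matrix.toLin' (x : Matrix (Fin d ⊕ Fin d) (Fin d ⊕ Fin d) F) - 1)
          ≤ LinearMap.range (Matrix.toLin' (x : Matrix (Fin d ⊕ Fin d) (Fin d ⊕ Fin d) F) - 1)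
            ⊔ Y := by
  classical
  obtain ⟨N, hNl, hNr⟩ : ∃ N : Module.End F (Fin d ⊕ Fin d → F),
      (∀ v i, N v (Sum.inl i) = M (fun k => v (Sum.inl k)) i) ∧
      (∀ v i, N v (Sum.inr i) = -(P (fun k => v (Sum.inr k)) i)) := by
    refine ⟨{ toFun := fun v => Sum.elim (M (fun k => v (Sum.inl k)))
                (-(P (fun k => v (Sum.inr k))))
              map_add' := ?_
              map_smul' := ?_ }, fun v i => rfl, fun v i => rfl⟩
    · intro v w
      funext i
      rcases i with i | i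
      · show M ((fun k => v (Sum.inl k)) + (fun k => w (Sum.inl k))) i
            = M (fun k => v (Sum.inl k)) i + M (fun k => w (Sum.inl k)) i
        rw [map_add]
        rfl
      · show -(P ((fun k => v (Sum.inr k)) + (fun k => w (Sum.inr k))) i)
            = -(P (fun k => v (Sum.inr k)) i) + -(P (fun k => w (Sum.inr k)) i)
        rw [map_add, Pi.add_apply, neg_add]
    · intro c v
      funext i
      rcases i with i | i
      · show M (c • (fun k => v (Sum.inl k))) i = c * M (fun k => v (Sum.inl k)) i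
        rw [map_smul]
        rfl
      · show -(P (c • (fun k => v (Sum.inr k))) i) = c * -(P (fun k => v (Sum.inr k)) i)
        rw [map_smul, Pi.smul_apply, smul_eq_mul, mul_neg]
  have hNN : N * N = 0 := by
    apply LinearMap.ext
    intro v
    funext i
    rcases i with i | i
    · rw [Module.End.mul_apply, hNl]
      have : (fun k => N v (Sum.inl k)) = M (fun k => v (Sum.inl k)) := funext fun k => hNl v k
      rw [this, hMM]
      rfl
    · rw [Module.End.mul_apply, hNr]
      have : (fun k => N v (Sum.inr k)) = -(P (fun k => v (Sum.inr k))) :=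
        funext fun k => hNr v k
      rw [this, map_neg, hPP]
      simp
  have h1 : (1 + N) * (1 - N) = 1 := by
    rw [add_mul, one_mul, mul_sub, mul_one, hNN]
    abel
  have h1' : (1 - N) * (1 + N) = 1 := by
    rw [sub_mul, one_mul, mul_add, mul_one, hNN]
    abel
  have hxv : ∀ v, LinearMap.toMatrix' (1 + N) *ᵥ v = (1 + N) v := by
    intro v
    rw [← Matrix.toLin'_apply, Matrix.toLin'_toMatrix']
  have hxl : Matrix.toLin' (LinearMap.toMatrix' (1 + N)) - 1 = N := by
    rw [Matrix.toLin'_toMatrix']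
    abel
  refine ⟨⟨LinearMap.toMatrix' (1 + N), LinearMap.toMatrix' (1 - N), ?_, ?_⟩, ?_, ?_, ?_, ?_⟩
  · rw [← LinearMap.toMatrix'_mul, h1, LinearMap.toMatrix'_one]
  · rw [← LinearMap.toMatrix'_mul, h1', LinearMap.toMatrix'_one]
  · intro v
    show Cfsg.quadFormPlus d F (LinearMap.toMatrix' (1 + N) *ᵥ v) = Cfsg.quadFormPlus d F v
    rw [hxv]
    obtain ⟨u, hu⟩ : ∃ u : Fin d → F, u = fun k => v (Sum.inl k) := ⟨_, rfl⟩
    obtain ⟨y, hy⟩ : ∃ y : Fin d → F, y = fun k => v (Sum.inr k) := ⟨_, rfl⟩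
    have e1 : ∀ i, (1 + N) v (Sum.inl i) = u i + M u i := by
      intro i
      rw [LinearMap.add_apply, Pi.add_apply, hNl, hu]
      rfl
    have e2 : ∀ i, (1 + N) v (Sum.inr i) = y i - P y i := by
      intro i
      rw [LinearMap.add_apply, Pi.add_apply, hNr, hy, sub_eq_add_neg]
      rfl
    have e3 : ∀ i, v (Sum.inl i) = u i := fun i => by rw [hu]
    have e4 : ∀ i, v (Sum.inr i) = y i := fun i => by rw [hy]
    simp only [Cfsg.quadFormPlus, e1, e2, e3, e4]
    have a1 := hadj u y
    have a2 := hadj u (P y)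
    rw [hPP] at a2
    calc ∑ i, (u i + M u i) * (y i - P y i)
        = ∑ i, u i * y i + (∑ i, M u i * y i - ∑ i, u i * P y i) - ∑ i, M u i * P y i := by
          rw [← Finset.sum_sub_distrib, ← Finset.sum_add_distrib, ← Finset.sum_sub_distrib]
          apply Finset.sum_congr rfl
          intro i _
          ring
      _ = ∑ i, u i * y i := by
          rw [a1, a2]
          simp
  · intro z hz
    have hz' : LinearMap.toMatrix' (1 + N) = z • (1 : Matrix (Fin d ⊕ Fin d) (Fin d ⊕ Fin d) F) :=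
      hz
    have h3 := hxv (Sum.elim u₀ 0)
    rw [hz', Matrix.smul_mulVec, Matrix.one_mulVec] at h3
    have h4 := congrFun h3 (Sum.inl j₀)
    rw [LinearMap.add_apply, Pi.add_apply, hNl] at h4
    have h5 : (fun k => (Sum.elim u₀ (0 : Fin d → F)) (Sum.inl k)) = u₀ := rfl
    rw [h5] at h4
    simp only [Pi.smul_apply, Sum.elim_inl, hu₀, smul_eq_mul, mul_zero, Module.End.one_apply,
      zero_add] at h4
    exact hMu₀ h4.symm
  · show (Matrix.toLin' (LinearMap.toMatrix' (1 + N)) - 1)
        * (Matrix.toLin' (LinearMap.toMatrix' (1 + N)) - 1) = 0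
    rw [hxl, hNN]
  · show ∃ Y : Submodule F (Fin d ⊕ Fin d → F), finrank F Y ≤ 2 ∧
        LinearMap.ker (Matrix.toLin' (LinearMap.toMatrix' (1 + N)) - 1)
          ≤ LinearMap.range (Matrix.toLin' (LinearMap.toMatrix' (1 + N)) - 1) ⊔ Y
    rw [hxl]
    refine ⟨Submodule.span F
      (({Sum.elim a (0 : Fin d → F), Sum.elim (0 : Fin d → F) a} : Finset (Fin d ⊕ Fin d → F)) : Set (Fin d ⊕ Fin d → F)),
      ?_, ?_⟩
    · exact (finrank_span_finset_le_card _).trans Finset.card_le_two
    · intro v hv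
      have hv0 : N v = 0 := LinearMap.mem_ker.mp hv
      have hMu : M (fun k => v (Sum.inl k)) = 0 := by
        funext i
        rw [← hNl, hv0]
        rfl
      have hPy : P (fun k => v (Sum.inr k)) = 0 := by
        funext i
        have := hNr v i
        rw [hv0] at this
        have h' : P (fun k => v (Sum.inr k)) i = 0 := by
          have h'' : (0 : Fin d ⊕ Fin d → F) (Sum.inr i) = 0 := rfl
          rw [h''] at this
          exact neg_eq_zero.mp this.symm
        rw [h']
        rfl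
      obtain ⟨u', c, hu'⟩ := hkM _ hMu
      obtain ⟨y', c', hy'⟩ := hkP _ hPy
      have hv' : v = N (Sum.elim u' (-y')) + (c • Sum.elim a (0 : Fin d → F) + c' • Sum.elim (0 : Fin d → F) a) := by
        funext i
        rcases i with i | i
        · have := congrFun hu' i
          have h5 : N (Sum.elim u' (-y')) (Sum.inl i) = M u' i := hNl _ i
          rw [this]
          simp only [Pi.add_apply, Pi.smul_apply, h5, Sum.elim_inl, smul_eq_mul, Pi.zero_apply,
            mul_zero, add_zero]
        · have := congrFun hy' i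
          have h5 : N (Sum.elim u' (-y')) (Sum.inr i) = P y' i := by
            rw [hNr]
            have h6 : (fun k => (Sum.elim u' (-y')) (Sum.inr k)) = -y' := rfl
            rw [h6, map_neg]
            simp
          rw [this]
          simp only [Pi.add_apply, Pi.smul_apply, h5, Sum.elim_inr, smul_eq_mul, Pi.zero_apply,
            mul_zero, zero_add]
      rw [hv']
      apply Submodule.add_mem_sup (LinearMap.mem_range_self _ _)
      apply Submodule.add_mem
      · exact Submodule.smul_mem _ _ (Submodule.subset_span (by simp))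
      · exact Submodule.smul_mem _ _ (Submodule.subset_span (by simp))

-- PIECE CONB
theorem exists_unip_B (h2 : (2 : F) ≠ 0) (d : ℕ) (hd : Odd d) (hd3 : 3 ≤ d) :
    ∃ x : GL (Fin d ⊕ Fin d) F,
      (∀ v, Cfsg.quadFormPlus d F ((x : Matrix (Fin d ⊕ Fin d) (Fin d ⊕ Fin d) F) *ᵥ v)
        = Cfsg.quadFormPlus d F v) ∧
      (∀ z : F, (x : Matrix (Fin d ⊕ Fin d) (Fin d ⊕ Fin d) F)
        ≠ z • (1 : Matrix (Fin d ⊕ Fin d) (Fin d ⊕ Fin d) F)) ∧
      (Matrix.toLin' (x : Matrix (Fin d ⊕ Fin d) (Fin d ⊕ Fin d) F) - 1)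
        * (Matrix.toLin' (x : Matrix (Fin d ⊕ Fin d) (Fin d ⊕ Fin d) F) - 1) = 0 ∧
      ∃ Y : Submodule F (Fin d ⊕ Fin d → F), finrank F Y ≤ 2 ∧
        LinearMap.ker (Matrix.toLin' (x : Matrix (Fin d ⊕ Fin d) (Fin d ⊕ Fin d) F) - 1)
          ≤ LinearMap.range (Matrix.toLin' (x : Matrix (Fin d ⊕ Fin d) (Fin d ⊕ Fin d) F) - 1)
            ⊔ Y := by
  obtain ⟨M, P, a, u₀, j₀, hMM, hPP, hadj, hkM, hkP, hu₀, hMu₀⟩ := conb_concrete (F := F) d hd hd3
  exact conb_main d M P hMM hPP hadj a hkM hkP u₀ j₀ hu₀ hMu₀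

end Concrete

end Cfsg.Agent.Lib.Helper23.Pi
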