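import Mathlib
import Cfsg.Agent.Lib.Helper91.PslU
set_option autoImplicit false
namespace Cfsg.Agent.Lib.Helper23.PslB3
open Matrix Matrix.SpecialLinearGroup Cfsg.Agent.Lib.Helper91.PslU

theorem h23_perm_two {n : ℕ} (i j i' j' : Fin n) (hij : i ≠ j) (hij' : i' ≠ j') :
    ∃ σ : Equiv.Perm (Fin n), σ i' = i ∧ σ j' = j := by
  refine ⟨Equiv.swap (Equiv.swap i' i j') j * Equiv.swap i' i, ?_, ?_⟩
  · simp only [Equiv.Perm.mul_apply, Equiv.swap_apply_left]
    apply Equiv.swap_apply_of_ne_of_ne
    · intro h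
      have h2 : Equiv.swap i' i i' = Equiv.swap i' i j' := by
        rw [Equiv.swap_apply_left]; exact h
      exact hij' ((Equiv.swap i' i).injective h2)
    · exact hij
  · simp [Equiv.Perm.mul_apply]

theorem h23_third {n : ℕ} (hn : 3 ≤ n) (i' j' : Fin n) :
    ∃ k : Fin n, k ≠ i' ∧ k ≠ j' := by
  by_contra h
  push Not at h
  have h1 : (Finset.univ : Finset (Fin n)) ⊆ {i', j'} := by
    intro x _
    by_cases hx : x = i'
    · simp [hx]
    · simp [h x hx]
  have h3 := Finset.card_le_card h1
  have h2 : ({i', j'} : Finset (Fin n)).card ≤ 2 := Finset.card_le_two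
  simp at h3
  omega

theorem transv_conj {n : ℕ} (hn : 3 ≤ n) (K : Type*) [Field K] (i j i' j' : Fin n) (hij : i ≠ j)
    (hij' : i' ≠ j') (a b : K) (ha : a ≠ 0) (hb : b ≠ 0) :
    ∃ g : SpecialLinearGroup (Fin n) K,
      g * transvection hij a * g⁻¹ = transvection hij' b := by
  classical
  obtain ⟨σ, hσi, hσj⟩ := h23_perm_two i j i' j' hij hij'
  obtain ⟨k, hki, hkj⟩ := h23_third hn i' j'
  obtain ⟨s, hs⟩ : ∃ s : K, s = ((Equiv.Perm.sign σ : ℤ) : K) := ⟨_, rfl⟩
  have hs0 : s ≠ 0 := by
    rw [hs]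
    rcases Int.units_eq_one_or (Equiv.Perm.sign σ) with h | h <;> simp [h]
  have hba : b / a ≠ 0 := div_ne_zero hb ha
  obtain ⟨c, hc⟩ : ∃ c : Fin n → K, c = fun x =>
      if x = i' then b / a else if x = k then (s * (b / a))⁻¹ else 1 := ⟨_, rfl⟩
  have hci : c i' = b / a := by rw [hc]; simp
  have hcj : c j' = 1 := by
    rw [hc]; simp [Ne.symm hij', Ne.symm hkj]
  have hprod : ∏ x, c x = (b / a) * (s * (b / a))⁻¹ := by
    have h1 : ∏ x, c x = ∏ x ∈ ({i', k} : Finset (Fin n)), c x := by
      symm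
      apply Finset.prod_subset (Finset.subset_univ _)
      intro x _ hx
      simp only [Finset.mem_insert, Finset.mem_singleton, not_or] at hx
      rw [hc]; simp [hx.1, hx.2]
    rw [h1, Finset.prod_pair (Ne.symm hki), hci]
    congr 1
    rw [hc]; simp [hki]
  obtain ⟨M, hM⟩ : ∃ M : Matrix (Fin n) (Fin n) K, M = Matrix.diagonal c * σ.permMatrix K :=
    ⟨_, rfl⟩
  have hMe : ∀ x y, M x y = if σ x = y then c x else 0 := by
    intro x y
    rw [hM, Matrix.diagonal_mul]
    simp [Equiv.Perm.permMatrix, PEquiv.toMatrix_apply, Equiv.toPEquiv_apply, eq_comm]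
  have hdet : M.det = 1 := by
    rw [hM, Matrix.det_mul, Matrix.det_diagonal, Matrix.det_permutation, hprod, ← hs]
    field_simp
  have hL : ∀ x y, (M * single i j a) x y = if y = j then M x i * a else 0 := by
    intro x y
    by_cases hy : y = j
    · subst hy
      rw [if_pos rfl]
      exact Matrix.mul_single_apply_same a i y x M
    · rw [if_neg hy]
      exact Matrix.mul_single_apply_of_ne a i j x y hy M
  have hR : ∀ x y, (single i' j' b * M) x y = if x = i' then b * M j' y else 0 := by
    intro x y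
    by_cases hx : x = i'
    · subst hx
      rw [if_pos rfl]
      exact Matrix.single_mul_apply_same b x j' y M
    · rw [if_neg hx]
      exact Matrix.single_mul_apply_of_ne b i' j' x y hx M
  have key : M * single i j a = single i' j' b * M := by
    ext x y
    rw [hL, hR, hMe, hMe]
    by_cases hy : y = j
    · subst hy
      by_cases hx : x = i'
      · subst hx
        rw [if_pos rfl, if_pos rfl, if_pos hσi, if_pos hσj, hci, hcj]
        field_simp
      · rw [if_pos rfl, if_neg hx, if_neg, zero_mul]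
        intro h
        exact hx (σ.injective (h.trans hσi.symm))
    · by_cases hx : x = i'
      · subst hx
        rw [if_neg hy, if_pos rfl, if_neg, mul_zero]
        intro h
        exact hy (h.symm.trans hσj)
      · rw [if_neg hy, if_neg hx]
  obtain ⟨g, hg⟩ : ∃ g : SpecialLinearGroup (Fin n) K, g = ⟨M, hdet⟩ := ⟨_, rfl⟩
  have hgM : (g : Matrix (Fin n) (Fin n) K) = M := by rw [hg]
  refine ⟨g, ?_⟩
  rw [mul_inv_eq_iff_eq_mul]
  apply Subtype.ext
  simp only [coe_mul, transvection_coe]
  rw [hgM, Matrix.mul_add, Matrix.add_mul, Matrix.mul_one, Matrix.one_mul, key]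

end Cfsg.Agent.Lib.Helper23.PslB3
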