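import Mathlib
import Cfsg.Agent.Lib.Helper54.SL2Cent
import Cfsg.Agent.Lib.Helper95.QABORD
import Cfsg.Agent.Lib.Helper88.QABCENT

set_option autoImplicit false

namespace Cfsg.Agent.Lib.Helper48.QB

/-- two matrices of the form `α + β C` commute -/
theorem sl2rc_comm {F : Type*} [Field F] (C : Matrix (Fin 2) (Fin 2) F) (α β α' β' : F) :
    (α • (1 : Matrix (Fin 2) (Fin 2) F) + β • C) * (α' • (1 : Matrix (Fin 2) (Fin 2) F) + β' • C)
      = (α' • (1 : Matrix (Fin 2) (Fin 2) F) + β' • C) *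
        (α • (1 : Matrix (Fin 2) (Fin 2) F) + β • C) := by
  ext i j
  fin_cases i <;> fin_cases j <;>
    simp [Matrix.mul_apply, Fin.sum_univ_two, Matrix.one_apply] <;> ring

-- QB-SL2R (third copy, by helper23)
theorem sl2_cent_prime {F : Type*} [Field F] [Fintype F] [CharP F 3] (r : ℕ) (hr : r.Prime)
    (hr2 : r ≠ 2) (hr3 : r ≠ 3) (hdvd : r ∣ Fintype.card F + 1)
    (g : Matrix.SpecialLinearGroup (Fin 2) F) (hg : orderOf g = r) :
    Nat.card (Subgroup.centralizer {g}) = Fintype.card F + 1 ∧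
      ∀ a ∈ Subgroup.centralizer {g}, ∀ b ∈ Subgroup.centralizer {g}, a * b = b * a := by
  have : Fact (Nat.Prime 3) := ⟨by norm_num⟩
  have hg1 : g ≠ 1 := by
    intro h
    rw [h, orderOf_one] at hg
    exact hr.ne_one hg.symm
  have hfin : IsOfFinOrder g := by
    rw [← orderOf_pos_iff, hg]
    exact hr.pos
  have hcop : Nat.Coprime (orderOf g) (2 * 3) := by
    rw [hg]
    exact Nat.Coprime.mul_right ((Nat.coprime_primes hr Nat.prime_two).mpr hr2)
      ((Nat.coprime_primes hr Nat.prime_three).mpr hr3)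
  have ht : Matrix.trace (g : Matrix (Fin 2) (Fin 2) F) ^ 2 ≠ 4 :=
    Cfsg.Agent.Lib.Helper48.QA.trace_sq_ne_four (p := 3) (by norm_num) g hg1 hfin hcop
  have h2 : (2 : F) ≠ 0 := by
    intro h
    have h' : ((2 : ℕ) : F) = 0 := by exact_mod_cast h
    have := (CharP.cast_eq_zero_iff F 3 2).mp h'
    omega
  have hgmem : g ∈ Subgroup.centralizer ({g} : Set (Matrix.SpecialLinearGroup (Fin 2) F)) := by
    rw [Subgroup.mem_centralizer_iff]
    intro h hh
    rw [Set.mem_singleton_iff] at hh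
    rw [hh]
  have hrdvd : r ∣ Nat.card
      (Subgroup.centralizer ({g} : Set (Matrix.SpecialLinearGroup (Fin 2) F))) := by
    have := orderOf_dvd_natCard
      (⟨g, hgmem⟩ : Subgroup.centralizer ({g} : Set (Matrix.SpecialLinearGroup (Fin 2) F)))
    rw [Subgroup.orderOf_mk, hg] at this
    exact this
  refine ⟨?_, ?_⟩
  · rcases Cfsg.Agent.Lib.Helper54.card_centralizer_singleton h2 g ht with h | h
    · exfalso
      rw [h] at hrdvd
      have hq : 2 ≤ Fintype.card F := Fintype.one_lt_card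
      have h3 : r ∣ (Fintype.card F - 1) + 2 := by
        have e : Fintype.card F - 1 + 2 = Fintype.card F + 1 := by omega
        rw [e]
        exact hdvd
      have h4 : r ∣ 2 := (Nat.dvd_add_right hrdvd).mp h3
      exact hr2 ((Nat.prime_dvd_prime_iff_eq hr Nat.prime_two).mp h4)
    · exact h
  · intro a ha b hb
    rw [Subgroup.mem_centralizer_iff] at ha hb
    have hns : ¬ ∃ c : F, (g : Matrix (Fin 2) (Fin 2) F) = c • (1 : Matrix (Fin 2) (Fin 2) F) := by
      rintro ⟨c, hc⟩
      apply ht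
      have hdet := g.det_coe
      rw [hc] at hdet ⊢
      simp only [Matrix.det_fin_two, Matrix.trace_fin_two, Matrix.smul_apply, Matrix.one_apply_eq,
        smul_eq_mul, mul_one, ne_eq, zero_ne_one, not_false_eq_true, Matrix.one_apply_ne, mul_zero,
        sub_zero, one_ne_zero] at hdet ⊢
      linear_combination 4 * hdet
    obtain ⟨α, β, hA⟩ := Cfsg.Agent.Lib.Helper48.QA.cent_form g a hns (ha g rfl).symm
    obtain ⟨α', β', hB⟩ := Cfsg.Agent.Lib.Helper48.QA.cent_form g b hns (hb g rfl).symm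
    apply Subtype.ext
    rw [Matrix.SpecialLinearGroup.coe_mul, Matrix.SpecialLinearGroup.coe_mul, hA, hB]
    exact sl2rc_comm _ _ _ _ _

end Cfsg.Agent.Lib.Helper48.QB
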