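import Mathlib
import Cfsg.Agent.S0680
import Cfsg.Agent.Lib.Helper23.Sharp3c

/-!
# The kernel of a point stabilizer of a sharply triply transitive group

In a sharply triply transitive group of degree at least 4 the point stabilizer `G_a` has an
elementary abelian regular normal subgroup `K`, and the two-point stabilizer `G_{a,b}` acts
regularly by conjugation on the non-identity elements of `K`.
-/

namespace Cfsg.Agent.Lib.Helper23

open MulAction

universe u v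

/-- The elementwise description of the kernel of a point stabilizer. -/
theorem sharp3_kernel {G : Type u} [Group G] [Finite G] {α : Type v} [MulAction G α] [Fintype α]
    [DecidableEq α] (h : Sharp3 G α) (h4 : 4 ≤ Fintype.card α) (a : α) :
    ∃ (p j : ℕ) (K : Subgroup G), p.Prime ∧ Nat.card K = p ^ j ∧ Fintype.card α = p ^ j + 1 ∧
      (∀ k ∈ K, k • a = a) ∧ (∀ k ∈ K, ∀ x : α, x ≠ a → k • x = x → k = 1) ∧
      (∀ x y : α, x ≠ a → y ≠ a → ∃ k ∈ K, k • x = y) ∧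
      (∀ s : G, s • a = a → ∀ k ∈ K, s * k * s⁻¹ ∈ K) ∧
      (∀ x ∈ K, ∀ y ∈ K, x * y = y * x) ∧ (∀ x ∈ K, x ^ p = 1) := by
  classical
  obtain ⟨S, hS⟩ : ∃ S : Subgroup G, S = stabilizer G a := ⟨_, rfl⟩
  have hSmem : ∀ g : G, g ∈ S ↔ g • a = a := fun g => by rw [hS, mem_stabilizer_iff]
  have instS : Fintype S := Fintype.ofFinite S
  let act : MulAction S {x : α // x ≠ a} :=
    { smul := fun g x => ⟨(g : G) • x.1, fun hx => x.2
        (MulAction.injective (g : G) (hx.trans ((hSmem _).mp g.2).symm))⟩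
      one_smul := fun x => Subtype.ext (one_smul G x.1)
      mul_smul := fun g g' x => Subtype.ext (mul_smul (g : G) (g' : G) x.1) }
  have hact : ∀ (g : S) (x : {x : α // x ≠ a}), ((g • x : {x : α // x ≠ a}) : α) = (g : G) • x.1 :=
    fun _ _ => rfl
  have hcard : Fintype.card {x : α // x ≠ a} = Fintype.card α - 1 := Sharp3.card_ne_one a
  have hT : ∀ x y x' y' : {x : α // x ≠ a}, x ≠ y → x' ≠ y' →
      ∃ g : S, g • x = x' ∧ g • y = y' := by
    intro x y x' y' hxy hxy'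
    obtain ⟨g, hga, hgx, hgy⟩ := h.trans a x.1 y.1 a x'.1 y'.1 (Ne.symm x.2) (Ne.symm y.2)
      (fun e => hxy (Subtype.ext e)) (Ne.symm x'.2) (Ne.symm y'.2) (fun e => hxy' (Subtype.ext e))
    exact ⟨⟨g, (hSmem g).mpr hga⟩, Subtype.ext hgx, Subtype.ext hgy⟩
  have hU : ∀ (g : S) (x y : {x : α // x ≠ a}), x ≠ y → g • x = x → g • y = y → g = 1 := by
    intro g x y hxy hgx hgy
    apply Subtype.ext
    exact h.sharp (g : G) a x.1 y.1 (Ne.symm x.2) (Ne.symm y.2) (fun e => hxy (Subtype.ext e))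
      ((hSmem _).mp g.2) (congrArg Subtype.val hgx) (congrArg Subtype.val hgy)
  obtain ⟨N, p, j, hp, hj, hpj, hNmem, hNn, hNcomm, hNexp, hNtr, -⟩ :=
    Cfsg.Agent.S0680.main (G := S) (α := {x : α // x ≠ a}) hT hU (by rw [hcard]; omega)
  have hNreg : ∀ n ∈ N, ∀ x : {x : α // x ≠ a}, n • x = x → n = 1 := by
    intro n hn x hx
    rcases (hNmem n).mp hn with h1 | h1
    · exact h1
    · exact absurd hx (h1 x)
  refine ⟨p, j, N.map S.subtype, hp, ?_, by rw [← hpj, hcard]; omega, ?_, ?_, ?_, ?_, ?_, ?_⟩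
  · -- cardinality
    rw [Subgroup.card_map_of_injective S.subtype_injective, ← hpj, ← Nat.card_eq_fintype_card]
    obtain ⟨x₀⟩ : Nonempty {x : α // x ≠ a} := Fintype.card_pos_iff.mp (by rw [hcard]; omega)
    apply Nat.card_congr
    refine Equiv.ofBijective (fun n : N => (n : S) • x₀) ⟨?_, ?_⟩
    · intro n n' hnn
      have hnn' : (n : S) • x₀ = (n' : S) • x₀ := hnn
      have h1 : ((n' : S)⁻¹ * (n : S)) • x₀ = x₀ := by
        rw [mul_smul, hnn', inv_smul_smul]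
      have h2 := hNreg _ (N.mul_mem (N.inv_mem n'.2) n.2) x₀ h1
      exact Subtype.ext (inv_mul_eq_one.mp h2).symm
    · intro y
      obtain ⟨n, hn, hny⟩ := hNtr x₀ y
      exact ⟨⟨n, hn⟩, hny⟩
  · rintro k ⟨n, -, rfl⟩
    exact (hSmem _).mp n.2
  · rintro k ⟨n, hn, rfl⟩ x hx hkx
    have h1 := hNreg n hn ⟨x, hx⟩ (Subtype.ext hkx)
    rw [h1]
    rfl
  · intro x y hx hy
    obtain ⟨n, hn, hny⟩ := hNtr ⟨x, hx⟩ ⟨y, hy⟩
    exact ⟨S.subtype n, ⟨n, hn, rfl⟩, congrArg Subtype.val hny⟩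
  · rintro s hs k ⟨n, hn, rfl⟩
    exact ⟨(⟨s, (hSmem s).mpr hs⟩ : S) * n * (⟨s, (hSmem s).mpr hs⟩ : S)⁻¹,
      hNn.conj_mem n hn _, rfl⟩
  · rintro x ⟨n, hn, rfl⟩ y ⟨n', hn', rfl⟩
    rw [← map_mul, ← map_mul, hNcomm n n' hn hn']
  · rintro x ⟨n, hn, rfl⟩
    rw [← map_pow, hNexp n hn, map_one]

/-- The two-point stabilizer acts regularly by conjugation on the non-identity elements of the
kernel of the point stabilizer. -/
theorem sharp3_conj_regular {G : Type u} [Group G] [Finite G] {α : Type v} [MulAction G α]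
    [Fintype α] [DecidableEq α] (h : Sharp3 G α) (h4 : 4 ≤ Fintype.card α) {a b : α} (hab : a ≠ b) :
    ∃ (p : ℕ) (K : Subgroup G), p.Prime ∧
      (∃ j, Nat.card K = p ^ j ∧ Fintype.card α = p ^ j + 1) ∧
      (∀ x ∈ K, ∀ y ∈ K, x * y = y * x) ∧ (∀ x ∈ K, x ^ p = 1) ∧
      (∀ h ∈ stabilizer G a ⊓ stabilizer G b, ∀ k ∈ K, h * k * h⁻¹ ∈ K) ∧
      (∀ k ∈ K, ∀ k' ∈ K, k ≠ 1 → k' ≠ 1 →
        ∃! h : G, h ∈ stabilizer G a ⊓ stabilizer G b ∧ h * k * h⁻¹ = k') := by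
  classical
  obtain ⟨p, j, K, hp, hK, hα, hKa, hKreg, hKtr, hKn, hKcomm, hKexp⟩ := sharp3_kernel h h4 a
  have hHmem : ∀ g : G, g ∈ stabilizer G a ⊓ stabilizer G b ↔ (g • a = a ∧ g • b = b) := by
    intro g
    rw [Subgroup.mem_inf, mem_stabilizer_iff, mem_stabilizer_iff]
  refine ⟨p, K, hp, ⟨j, hK, hα⟩, hKcomm, hKexp, ?_, ?_⟩
  · intro g hg k hk
    exact hKn g ((hHmem g).mp hg).1 k hk
  · intro k hk k' hk' hk1 hk'1
    have hkb : k • b ≠ b := fun e => hk1 (hKreg k hk b (Ne.symm hab) e)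
    have hka : k • b ≠ a := fun e => hab (MulAction.injective k ((hKa k hk).trans e.symm))
    have hk'b : k' • b ≠ b := fun e => hk'1 (hKreg k' hk' b (Ne.symm hab) e)
    have hk'a : k' • b ≠ a := fun e => hab (MulAction.injective k' ((hKa k' hk').trans e.symm))
    obtain ⟨g, hga, hgb, hgk⟩ := h.trans a b (k • b) a b (k' • b) hab (Ne.symm hka)
      (Ne.symm hkb) hab (Ne.symm hk'a) (Ne.symm hk'b)
    have hconj : g * k * g⁻¹ = k' := by
      have h1 : g * k * g⁻¹ ∈ K := hKn g hga k hk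
      have h2 : (k'⁻¹ * (g * k * g⁻¹)) • b = b := by
        rw [mul_smul, mul_smul, mul_smul, inv_smul_eq_iff.mpr hgb.symm, hgk, inv_smul_smul]
      have h3 := hKreg _ (K.mul_mem (K.inv_mem hk') h1) b (Ne.symm hab) h2
      exact (inv_mul_eq_one.mp h3).symm
    refine ⟨g, ⟨(hHmem g).mpr ⟨hga, hgb⟩, hconj⟩, ?_⟩
    rintro g' ⟨hg', hconj'⟩
    have hg'ab := (hHmem g').mp hg'
    apply h.eq_of_three hab (Ne.symm hka) (Ne.symm hkb)
    · rw [hga, hg'ab.1]
    · rw [hgb, hg'ab.2]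
    · rw [hgk, ← hconj', mul_smul, mul_smul, inv_smul_eq_iff.mpr hg'ab.2.symm]

/-- The version for a subgroup of `Equiv.Perm α`. -/
theorem s3_conj_regular {α : Type*} [Fintype α] [DecidableEq α] (G : Subgroup (Equiv.Perm α))
    (h3 : MulAction.IsMultiplyPretransitive G α 3)
    (hsharp : ∀ x : Fin 3 ↪ α, MulAction.stabilizer G x = ⊥) (h4 : 4 ≤ Fintype.card α)
    {a b : α} (hab : a ≠ b) :
    ∃ (p : ℕ) (K : Subgroup G), p.Prime ∧
      (∃ j, Nat.card K = p ^ j ∧ Fintype.card α = p ^ j + 1) ∧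
      (∀ x ∈ K, ∀ y ∈ K, x * y = y * x) ∧ (∀ x ∈ K, x ^ p = 1) ∧
      (∀ h ∈ MulAction.stabilizer G a ⊓ MulAction.stabilizer G b, ∀ k ∈ K, h * k * h⁻¹ ∈ K) ∧
      (∀ k ∈ K, ∀ k' ∈ K, k ≠ 1 → k' ≠ 1 →
        ∃! h : G, h ∈ MulAction.stabilizer G a ⊓ MulAction.stabilizer G b ∧
          h * k * h⁻¹ = k') := by
  have hS : Sharp3 G α := by
    apply sharp3_of_pretransitive h3
    intro g a b c hab hac hbc ha hb hc
    have hinj : Function.Injective ![a, b, c] := by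
      intro i j hij
      fin_cases i <;> fin_cases j <;> simp_all
    have hg : g ∈ MulAction.stabilizer G (⟨![a, b, c], hinj⟩ : Fin 3 ↪ α) := by
      rw [MulAction.mem_stabilizer_iff]
      ext i
      fin_cases i
      · exact ha
      · exact hb
      · exact hc
    rw [hsharp] at hg
    exact Subgroup.mem_bot.mp hg
  exact sharp3_conj_regular hS h4 hab

end Cfsg.Agent.Lib.Helper23
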