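import Mathlib
import Cfsg.Agent.Lib.Helper52.SP8EBDefs

/-! SP8-EB (sub-project of S5823, helper52), piece QGEN (insurance copy by helper23): normal
generation of the quaternion set by the commutators of one element of order 4, over a field with
three elements.  Proved for `ZMod 3` by finite checks in entry form and transported along the
ring isomorphism `ZMod 3 ≃+* F`. -/

set_option autoImplicit false

namespace Cfsg.Agent.Lib.Helper52.SP8EB

open Matrix Cfsg.Geo Cfsg.Agent.Lib.Helper71.Asch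

variable {n : ℕ} {F : Type*} [Field F] [Fintype F]

theorem qgen_h23_s : (!![1, 1; 0, 1] : Matrix (Fin 2) (Fin 2) (ZMod 3)).det = 1 := by
  rw [Matrix.det_fin_two]
  decide

theorem qgen_h23_ss : (!![1, 1; 0, 1] : Matrix (Fin 2) (Fin 2) (ZMod 3)) * !![1, -1; 0, 1] = 1 := by
  decide

theorem qgen_h23_d1 : ∀ x p z : ZMod 3, x * (-x) - p * z = 1 →
    (!![x, p; z, -x] : Matrix (Fin 2) (Fin 2) (ZMod 3)) * (-!![x, p; z, -x]) = 1 := by
  decide

theorem qgen_h23_d2 : ∀ x p z : ZMod 3, x * (-x) - p * z = 1 →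
    ∃ x' p' z' : ZMod 3, x' * (-x') - p' * z' = 1 ∧
      (-(!![x, p; z, -x] : Matrix (Fin 2) (Fin 2) (ZMod 3))) *
        (!![1, 1; 0, 1] * !![x, p; z, -x] * !![1, -1; 0, 1]) = !![x', p'; z', -x'] := by
  decide

theorem qgen_h23_d3 : ∀ x p z : ZMod 3, x * (-x) - p * z = 1 →
    (!![x, p; z, -x] : Matrix (Fin 2) (Fin 2) (ZMod 3)) * !![x, p; z, -x] = -1 := by
  decide

theorem qgen_h23_d4 : ∀ x p z x' p' z' : ZMod 3, x * (-x) - p * z = 1 →
    x' * (-x') - p' * z' = 1 →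
    ((!![x', p'; z', -x'] : Matrix (Fin 2) (Fin 2) (ZMod 3)) = !![x, p; z, -x] ∨
      (!![x', p'; z', -x'] : Matrix (Fin 2) (Fin 2) (ZMod 3)) = (-1) * !![x, p; z, -x] ∨
      (!![x', p'; z', -x'] : Matrix (Fin 2) (Fin 2) (ZMod 3))
        = !![1, 1; 0, 1] * !![x, p; z, -x] * !![1, -1; 0, 1] ∨
      (!![x', p'; z', -x'] : Matrix (Fin 2) (Fin 2) (ZMod 3))
        = (-1) * (!![1, 1; 0, 1] * !![x, p; z, -x] * !![1, -1; 0, 1]) ∨
      (!![x', p'; z', -x'] : Matrix (Fin 2) (Fin 2) (ZMod 3))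
        = !![x, p; z, -x] * (!![1, 1; 0, 1] * !![x, p; z, -x] * !![1, -1; 0, 1]) ∨
      (!![x', p'; z', -x'] : Matrix (Fin 2) (Fin 2) (ZMod 3))
        = (-1) * (!![x, p; z, -x] * (!![1, 1; 0, 1] * !![x, p; z, -x] * !![1, -1; 0, 1]))) := by
  decide

theorem qgen_h23_form (a : Matrix (Fin 2) (Fin 2) (ZMod 3)) (hdet : a.det = 1)
    (htr : a.trace = 0) :
    ∃ x p z : ZMod 3, x * (-x) - p * z = 1 ∧ a = !![x, p; z, -x] := by
  rw [Matrix.det_fin_two] at hdet
  rw [Matrix.trace_fin_two] at htr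
  have h11 : a 1 1 = -a 0 0 := eq_neg_of_add_eq_zero_right htr
  refine ⟨a 0 0, a 0 1, a 1 0, ?_, ?_⟩
  · rw [← h11]
    exact hdet
  · rw [← h11]
    exact Matrix.eta_fin_two a

theorem qgen_h23_zmod3 : HQgen (ZMod 3) := by
  intro a ha ha1 ha2 S hmul hconj hgen y hy
  have hatr : a.trace = 0 := by
    rcases ha.2 with h | h | h
    · exact absurd h ha1
    · exact absurd h ha2
    · exact h
  obtain ⟨x, p, z, hxpz, rfl⟩ := qgen_h23_form a ha.1 hatr
  have hb := hgen (-!![x, p; z, -x]) !![1, 1; 0, 1] !![1, -1; 0, 1] (qgen_h23_d1 x p z hxpz)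
    qgen_h23_s qgen_h23_ss
  obtain ⟨x₁, p₁, z₁, h₁, hbe⟩ := qgen_h23_d2 x p z hxpz
  rw [hbe] at hb
  have hc := hconj _ hb !![1, 1; 0, 1] !![1, -1; 0, 1] qgen_h23_s qgen_h23_ss
  have hbc := hmul _ hb _ hc
  have hm1 : (-1 : Matrix (Fin 2) (Fin 2) (ZMod 3)) ∈ S := by
    have h := hmul _ hb _ hb
    rwa [qgen_h23_d3 x₁ p₁ z₁ h₁] at h
  have h1 : (1 : Matrix (Fin 2) (Fin 2) (ZMod 3)) ∈ S := by
    have h := hmul _ hm1 _ hm1
    rwa [neg_mul_neg, one_mul] at h
  rcases hy.2 with hy1 | hy1 | hytr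
  · rw [hy1]
    exact h1
  · rw [hy1]
    exact hm1
  · obtain ⟨x', p', z', h', rfl⟩ := qgen_h23_form y hy.1 hytr
    rcases qgen_h23_d4 x₁ p₁ z₁ x' p' z' h₁ h' with e | e | e | e | e | e
    · rw [e]
      exact hb
    · rw [e]
      exact hmul _ hm1 _ hb
    · rw [e]
      exact hc
    · rw [e]
      exact hmul _ hm1 _ hc
    · rw [e]
      exact hbc
    · rw [e]
      exact hmul _ hm1 _ hbc

/-- transport of `HQgen` along a ring isomorphism -/
theorem qgen_h23_transfer {K : Type*} [Field K] {F : Type*} [Field F] (φ : K ≃+* F)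
    (h : HQgen K) : HQgen F := by
  intro a ha ha1 ha2 S hmul hconj hgen y hy
  obtain ⟨Φ, hΦ⟩ : ∃ Φ : Matrix (Fin 2) (Fin 2) K ≃+* Matrix (Fin 2) (Fin 2) F,
      ∀ x i j, Φ x i j = φ (x i j) := ⟨φ.mapMatrix, fun x i j => rfl⟩
  have hdet : ∀ x, (Φ x).det = φ x.det := by
    intro x
    rw [Matrix.det_fin_two, Matrix.det_fin_two, hΦ, hΦ, hΦ, hΦ, map_sub, map_mul, map_mul]
  have htr : ∀ x, (Φ x).trace = φ x.trace := by
    intro x
    rw [Matrix.trace_fin_two, Matrix.trace_fin_two, hΦ, hΦ, map_add]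
  have hQ : ∀ x, IsQ (Φ x) → IsQ x := by
    intro x hx
    refine ⟨?_, ?_⟩
    · have h1 := hx.1
      rw [hdet] at h1
      exact (map_eq_one_iff φ φ.injective).mp h1
    · rcases hx.2 with h1 | h1 | h1
      · left
        exact (map_eq_one_iff Φ Φ.injective).mp h1
      · right; left
        apply Φ.injective
        rw [h1, map_neg, map_one]
      · right; right
        rw [htr] at h1
        exact (map_eq_zero_iff φ φ.injective).mp h1
  have hΦs : ∀ w, Φ (Φ.symm w) = w := fun w => Φ.apply_symm_apply w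
  have hy' := h (Φ.symm a) (hQ _ (by rw [hΦs]; exact ha))
    (fun h1 => ha1 (by rw [← hΦs a, h1, map_one]))
    (fun h1 => ha2 (by rw [← hΦs a, h1, map_neg, map_one]))
    {x | Φ x ∈ S}
    (fun x hx y hy => by
      show Φ (x * y) ∈ S
      rw [map_mul]
      exact hmul _ hx _ hy)
    (fun x hx g g' hg hgg => by
      show Φ (g * x * g') ∈ S
      rw [map_mul, map_mul]
      exact hconj _ hx _ _ (by rw [hdet, hg, map_one]) (by rw [← map_mul, hgg, map_one]))
    (fun a' g g' haa hg hgg => by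
      show Φ (a' * (g * Φ.symm a * g')) ∈ S
      rw [map_mul, map_mul, map_mul, hΦs]
      exact hgen _ _ _ (by
        have h1 : Φ (Φ.symm a * a') = 1 := by rw [haa, map_one]
        rw [map_mul, hΦs] at h1
        exact h1) (by rw [hdet, hg, map_one]) (by rw [← map_mul, hgg, map_one]))
    (Φ.symm y) (hQ _ (by rw [hΦs]; exact hy))
  have hy'' : Φ (Φ.symm y) ∈ S := hy'
  rw [hΦs] at hy''
  exact hy''

/-- QGEN [HARD finite check, card F = 3]. -/
theorem QGEN (hq3 : Fintype.card F = 3) : HQgen F :=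
  qgen_h23_transfer (ZMod.ringEquivOfPrime F Nat.prime_three hq3) qgen_h23_zmod3

end Cfsg.Agent.Lib.Helper52.SP8EB
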