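import Mathlib
import Cfsg.Agent.Lib.Helper65.SUPNU6
import Cfsg.Agent.Lib.Helper71.Asch0

/-! Project SU4 (helper50), piece NU64 (helper23): `NU6` of `Lib/Helper65/SUPNU6.lean` for
`n = 4`.  The proof is that of `NU6` except for step (5) (`c` is central in `R`), which in
dimension 4 uses two independent vectors of `{v₀, w₀}^⊥` instead of a common kernel vector of
four functionals. -/

set_option autoImplicit false

namespace Cfsg.Agent.Lib.Helper23.SU4NU64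

open Matrix Cfsg.Geo Cfsg.Agent.Lib.Helper71.Asch
open scoped Kronecker
open Cfsg.Agent.Lib.Helper7 Cfsg.Agent.Lib.Helper18 Cfsg.Agent.Lib.Helper65.SUPNU6
open scoped commutatorElement

variable {n : ℕ} {F : Type*} [Field F] [Fintype F] {q : ℕ}

omit [Fintype F] in
/-- fewer than four linear conditions have a common non-zero solution in dimension four -/
theorem su4nu64_ker (k : ℕ) (hk : k < 4) (φ : Fin k → ((Fin 4 → F) →ₗ[F] F)) :
    ∃ z : Fin 4 → F, z ≠ 0 ∧ ∀ i, φ i z = 0 := by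
  have h : Module.finrank F (Fin k → F) < Module.finrank F (Fin 4 → F) := by
    rw [Module.finrank_fin_fun, Module.finrank_fin_fun]
    exact hk
  have h1 := LinearMap.ker_ne_bot_of_finrank_lt (f := LinearMap.pi φ) h
  obtain ⟨z, hz, hz0⟩ := (Submodule.ne_bot_iff _).mp h1
  exact ⟨z, hz0, fun i => congrFun (LinearMap.mem_ker.mp hz) i⟩

/-- NU64: `SU_4(q)` does not normalise a non-scalar subgroup of `GU_4(q)` with scalar
commutators (and no non-trivial quadratic elements): `NU6` for `n = 4`. -/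
theorem NU64 (hF : Fintype.card F = q ^ 2) (R : Subgroup (GL (Fin 4) F))
    (hR : R ≤ Cfsg.GU 4 F q) (hc : ⁅R, R⁆ ≤ scalars (Fin 4) F)
    (hns : ¬ R ≤ scalars (Fin 4) F)
    (hu : ∀ y ∈ R, (y.1 - 1) * (y.1 - 1) = 0 → y = 1) :
    ¬ (Cfsg.GU 4 F q ⊓ specialLinear (Fin 4) F) ≤ subgroupNormalizer R := by
  intro hS
  obtain ⟨μ, hμ0, hμ⟩ := exists_trace_zero hF
  have hμq : μ ^ q = -μ := by linear_combination hμ
  -- (1) a non-scalar element and an isotropic non-eigenvector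
  obtain ⟨x, hxR, hxs⟩ := SetLike.not_le_iff_exists.mp hns
  have hxp : ∀ u v, Cfsg.hermForm 4 F q (x.1 *ᵥ u) (x.1 *ᵥ v) = Cfsg.hermForm 4 F q u v :=
    hR hxR
  obtain ⟨v₀, hv₀v₀, hv₀x⟩ : ∃ v₀ : Fin 4 → F, Cfsg.hermForm 4 F q v₀ v₀ = 0 ∧
      ¬ ∃ a : F, x.1 *ᵥ v₀ = a • v₀ := by
    by_contra hcon
    push Not at hcon
    have hcon' : ∀ z : Fin 4 → F, Cfsg.hermForm 4 F q z z = 0 → ∃ a : F, x.1 *ᵥ z = a • z :=
      fun z hz => hcon z hz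
    obtain ⟨a, ha⟩ := NU6_scalar hF (by omega) x.1 hcon'
    apply hxs
    rw [mem_scalars_iff]
    have ha0 : a ≠ 0 := by
      rintro rfl
      have h0 : x.1 = 0 := by rw [ha, zero_smul]
      have h1 : x.1 * x⁻¹.1 = 1 := by rw [← Units.val_mul, mul_inv_cancel, Units.val_one]
      rw [h0, zero_mul] at h1
      have h2 := congrFun (congrFun h1 ⟨0, by omega⟩) ⟨0, by omega⟩
      simp at h2
    exact ⟨Units.mk0 a ha0, ha⟩
  obtain ⟨w₀, hw₀⟩ : ∃ w₀ : Fin 4 → F, w₀ = x.1 *ᵥ v₀ := ⟨_, rfl⟩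
  have hv₀0 : v₀ ≠ 0 := by
    rintro rfl
    exact hv₀x ⟨0, by rw [Matrix.mulVec_zero, smul_zero]⟩
  have hw₀w₀ : Cfsg.hermForm 4 F q w₀ w₀ = 0 := by rw [hw₀, hxp, hv₀v₀]
  have hfvw : Cfsg.hermForm 4 F q v₀ w₀ = Cfsg.hermForm 4 F q w₀ v₀ ^ q := hf_conj hF 4 w₀ v₀
  -- (2) the commutator `c`
  obtain ⟨t, htS, ht, hti⟩ := NU6_tv hF μ hμ v₀ hv₀v₀
  obtain ⟨c, hcdef⟩ : ∃ c : GL (Fin 4) F, c = t * x * t⁻¹ * x⁻¹ := ⟨_, rfl⟩
  have hcR : c ∈ R := by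
    rw [hcdef]
    have htN : t ∈ Subgroup.normalizer (R : Set (GL (Fin 4) F)) := hS htS
    exact R.mul_mem ((Subgroup.mem_normalizer_iff.mp htN x).mp hxR) (R.inv_mem hxR)
  have hcf : ∀ y, c.1 *ᵥ y = y - (μ * Cfsg.hermForm 4 F q y w₀) • w₀ +
      (μ * Cfsg.hermForm 4 F q y v₀ -
        μ ^ 2 * Cfsg.hermForm 4 F q y w₀ * Cfsg.hermForm 4 F q w₀ v₀) • v₀ := by
    intro y
    obtain ⟨y', hy'⟩ : ∃ y' : Fin 4 → F, y' = x⁻¹.1 *ᵥ y := ⟨_, rfl⟩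
    have hxy' : x.1 *ᵥ y' = y := by rw [hy', NU6_mulVec_inv]
    have h1 : Cfsg.hermForm 4 F q y' v₀ = Cfsg.hermForm 4 F q y w₀ := by
      rw [← hxp y' v₀, hxy', ← hw₀]
    rw [hcdef, Units.val_mul, Units.val_mul, Units.val_mul, ← Matrix.mulVec_mulVec,
      ← Matrix.mulVec_mulVec, ← Matrix.mulVec_mulVec, ← hy', hti, Matrix.mulVec_sub,
      Matrix.mulVec_smul, hxy', ← hw₀, ht, h1, hf_sub_left, hf_smul_left]
    module
  -- (3) `a ≠ 0`
  obtain ⟨a, ha⟩ : ∃ a : F, a = μ * Cfsg.hermForm 4 F q w₀ v₀ := ⟨_, rfl⟩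
  have ha0 : a ≠ 0 := by
    intro ha0
    rw [ha0] at ha
    have hwv : Cfsg.hermForm 4 F q w₀ v₀ = 0 := by
      rcases mul_eq_zero.mp ha.symm with h | h
      · exact absurd h hμ0
      · exact h
    have hvw : Cfsg.hermForm 4 F q v₀ w₀ = 0 := hf_eq_zero_symm hF 4 _ _ hwv
    have hcy : ∀ y, c.1 *ᵥ y = y + (-(μ * Cfsg.hermForm 4 F q y w₀)) • w₀ +
        (μ * Cfsg.hermForm 4 F q y v₀) • v₀ := by
      intro y
      rw [hcf, hwv]
      module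
    have hcv : c.1 *ᵥ v₀ = v₀ := by
      rw [hcy, hvw, hv₀v₀]
      module
    have hcw : c.1 *ᵥ w₀ = w₀ := by
      rw [hcy, hwv, hw₀w₀]
      module
    have hc1 : ∀ y, (c.1 - 1) *ᵥ y = c.1 *ᵥ y - y := by
      intro y
      rw [Matrix.sub_mulVec, Matrix.one_mulVec]
    have hsq : (c.1 - 1) * (c.1 - 1) = 0 := by
      apply Matrix.mulVec_injective
      funext y
      rw [← Matrix.mulVec_mulVec, Matrix.zero_mulVec, hc1, hc1, Matrix.mulVec_sub]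
      nth_rewrite 1 [hcy y]
      rw [Matrix.mulVec_add, Matrix.mulVec_add, Matrix.mulVec_smul, Matrix.mulVec_smul, hcv, hcw]
      rw [hcy y]
      module
    have hc1' : c = 1 := hu c hcR hsq
    obtain ⟨y, hy⟩ := exists_herm_ne_zero hF v₀ hv₀0
    have h1 := hcy y
    rw [hc1', Units.val_one, Matrix.one_mulVec] at h1
    have h2 : (μ * Cfsg.hermForm 4 F q y v₀) • v₀ = (μ * Cfsg.hermForm 4 F q y w₀) • w₀ := by
      have h3 : (0 : Fin 4 → F) = (-(μ * Cfsg.hermForm 4 F q y w₀)) • w₀ +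
          (μ * Cfsg.hermForm 4 F q y v₀) • v₀ := by
        have h4 : y + 0 = y + ((-(μ * Cfsg.hermForm 4 F q y w₀)) • w₀ +
            (μ * Cfsg.hermForm 4 F q y v₀) • v₀) := by
          rw [add_zero, ← add_assoc]
          exact h1
        exact add_left_cancel h4
      have h5 : (μ * Cfsg.hermForm 4 F q y v₀) • v₀ - (μ * Cfsg.hermForm 4 F q y w₀) • w₀ =
          (0 : Fin 4 → F) := by
        rw [h3]
        module
      exact sub_eq_zero.mp h5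
    have hk0 : μ * Cfsg.hermForm 4 F q y v₀ ≠ 0 := mul_ne_zero hμ0 hy
    have hk1 : μ * Cfsg.hermForm 4 F q y w₀ ≠ 0 := by
      intro h
      rw [h, zero_smul] at h2
      rcases smul_eq_zero.mp h2 with h' | h'
      · exact hk0 h'
      · exact hv₀0 h'
    apply hv₀x
    refine ⟨(μ * Cfsg.hermForm 4 F q y w₀)⁻¹ * (μ * Cfsg.hermForm 4 F q y v₀), ?_⟩
    rw [← hw₀, ← smul_smul, h2, smul_smul, inv_mul_cancel₀ hk1, one_smul]
  have hwv0 : Cfsg.hermForm 4 F q w₀ v₀ ≠ 0 := by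
    intro h
    rw [h, mul_zero] at ha
    exact ha0 ha
  have hvw0 : Cfsg.hermForm 4 F q v₀ w₀ ≠ 0 := by
    rw [hfvw]
    exact pow_ne_zero _ hwv0
  -- (4) the action of `c`
  have haq : a ^ q = -(μ * Cfsg.hermForm 4 F q v₀ w₀) := by
    rw [ha, mul_pow, hμq, hfvw]
    ring
  have hcv : c.1 *ᵥ v₀ = (1 + a ^ (q + 1)) • v₀ + a ^ q • w₀ := by
    rw [hcf, hv₀v₀]
    have e1 : μ * Cfsg.hermForm 4 F q v₀ w₀ = -a ^ q := by rw [haq]; ring
    have e2 : μ * 0 - μ ^ 2 * Cfsg.hermForm 4 F q v₀ w₀ * Cfsg.hermForm 4 F q w₀ v₀ =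
        a ^ (q + 1) := by
      rw [pow_succ a q, haq, ha]
      ring
    rw [e1, e2]
    module
  have hcw : c.1 *ᵥ w₀ = w₀ + a • v₀ := by
    rw [hcf, hw₀w₀]
    have e1 : μ * Cfsg.hermForm 4 F q w₀ v₀ - μ ^ 2 * 0 * Cfsg.hermForm 4 F q w₀ v₀ = a := by
      rw [ha]
      ring
    rw [e1]
    module
  have hcfix : ∀ y, Cfsg.hermForm 4 F q y v₀ = 0 → Cfsg.hermForm 4 F q y w₀ = 0 →
      c.1 *ᵥ y = y := by
    intro y h1 h2
    rw [hcf, h1, h2]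
    module
  -- (5) `c` is central in `R` (new argument for `n = 4`)
  have hcomm : ∀ y ∈ R, c * y = y * c := by
    intro y hy
    have h1 : ⁅c, y⁆ ∈ scalars (Fin 4) F := hc (Subgroup.commutator_mem_commutator hcR hy)
    obtain ⟨ζ, hζ⟩ := (mem_scalars_iff _).mp h1
    have h2 : (c * y).1 = (ζ : F) • (y * c).1 := by
      have h3 : c * y = ⁅c, y⁆ * (y * c) := by
        rw [commutatorElement_def]
        group
      rw [h3, Units.val_mul, hζ, Matrix.smul_mul, Matrix.one_mul]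
    have hζ1 : (ζ : F) = 1 := by
      by_contra hζne
      have hδ : (ζ : F) - 1 ≠ 0 := sub_ne_zero.mpr hζne
      have heig : ∀ z : Fin 4 → F, Cfsg.hermForm 4 F q z v₀ = 0 →
          Cfsg.hermForm 4 F q z w₀ = 0 → c.1 *ᵥ (y.1 *ᵥ z) = (ζ : F) • (y.1 *ᵥ z) := by
        intro z hz1 hz2
        have h4 : (c * y).1 *ᵥ z = c.1 *ᵥ (y.1 *ᵥ z) := by
          rw [Units.val_mul, ← Matrix.mulVec_mulVec]
        have h5 : (y * c).1 *ᵥ z = y.1 *ᵥ z := by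
          rw [Units.val_mul, ← Matrix.mulVec_mulVec, hcfix _ hz1 hz2]
        rw [← h4, h2, Matrix.smul_mulVec, h5]
      obtain ⟨u, hu_def⟩ : ∃ u : Fin 4 → F, u = ((ζ : F) - 1)⁻¹ • (-μ • w₀ +
          (-(μ ^ 2 * Cfsg.hermForm 4 F q w₀ v₀) * (((ζ : F) - 1)⁻¹ + 1)) • v₀) := ⟨_, rfl⟩
      have hmult : ∀ x : Fin 4 → F, c.1 *ᵥ x = (ζ : F) • x →
          x = Cfsg.hermForm 4 F q x w₀ • u := by
        intro x hx
        have e1 := hcf x
        rw [hx] at e1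
        have e2 : Cfsg.hermForm 4 F q ((ζ : F) • x) v₀ =
            Cfsg.hermForm 4 F q (x - (μ * Cfsg.hermForm 4 F q x w₀) • w₀ +
              (μ * Cfsg.hermForm 4 F q x v₀ -
                μ ^ 2 * Cfsg.hermForm 4 F q x w₀ * Cfsg.hermForm 4 F q w₀ v₀) • v₀) v₀ := by
          rw [← e1]
        rw [hf_smul_left, hf_add_left, hf_sub_left, hf_smul_left, hf_smul_left, hv₀v₀] at e2
        have e3 : Cfsg.hermForm 4 F q x v₀ = ((ζ : F) - 1)⁻¹ *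
            (-(μ * Cfsg.hermForm 4 F q w₀ v₀ * Cfsg.hermForm 4 F q x w₀)) := by
          have e4 : ((ζ : F) - 1) * Cfsg.hermForm 4 F q x v₀ =
              -(μ * Cfsg.hermForm 4 F q w₀ v₀ * Cfsg.hermForm 4 F q x w₀) := by
            linear_combination e2
          rw [← e4, inv_mul_cancel_left₀ hδ]
        have e5 : ((ζ : F) - 1) • x = -(μ * Cfsg.hermForm 4 F q x w₀) • w₀ +
            (μ * Cfsg.hermForm 4 F q x v₀ -
              μ ^ 2 * Cfsg.hermForm 4 F q x w₀ * Cfsg.hermForm 4 F q w₀ v₀) • v₀ := by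
          rw [sub_smul, one_smul, e1]
          module
        calc x = ((ζ : F) - 1)⁻¹ • (((ζ : F) - 1) • x) := by
              rw [smul_smul, inv_mul_cancel₀ hδ, one_smul]
          _ = ((ζ : F) - 1)⁻¹ • (-(μ * Cfsg.hermForm 4 F q x w₀) • w₀ +
                (μ * Cfsg.hermForm 4 F q x v₀ -
                  μ ^ 2 * Cfsg.hermForm 4 F q x w₀ * Cfsg.hermForm 4 F q w₀ v₀) • v₀) := by
              rw [e5]
          _ = Cfsg.hermForm 4 F q x w₀ • u := by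
              rw [hu_def, e3]
              module
      obtain ⟨z₁, hz₁0, hz₁⟩ := su4nu64_ker (F := F) 2 (by norm_num)
        ![Cfsg.Agent.Lib.Helper93.hl q 4 v₀, Cfsg.Agent.Lib.Helper93.hl q 4 w₀]
      have hz₁v : Cfsg.hermForm 4 F q z₁ v₀ = 0 := hz₁ 0
      have hz₁w : Cfsg.hermForm 4 F q z₁ w₀ = 0 := hz₁ 1
      obtain ⟨i, hi⟩ : ∃ i, z₁ i ≠ 0 := by
        by_contra hcon
        push Not at hcon
        exact hz₁0 (funext hcon)
      obtain ⟨z₂, hz₂0, hz₂⟩ := su4nu64_ker (F := F) 3 (by norm_num)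
        ![Cfsg.Agent.Lib.Helper93.hl q 4 v₀, Cfsg.Agent.Lib.Helper93.hl q 4 w₀,
          LinearMap.proj i]
      have hz₂v : Cfsg.hermForm 4 F q z₂ v₀ = 0 := hz₂ 0
      have hz₂w : Cfsg.hermForm 4 F q z₂ w₀ = 0 := hz₂ 1
      have hz₂i : z₂ i = 0 := hz₂ 2
      have hx₁ := hmult _ (heig z₁ hz₁v hz₁w)
      have hx₂ := hmult _ (heig z₂ hz₂v hz₂w)
      obtain ⟨κ₁, hκ₁⟩ : ∃ κ₁ : F, κ₁ = Cfsg.hermForm 4 F q (y.1 *ᵥ z₁) w₀ := ⟨_, rfl⟩
      obtain ⟨κ₂, hκ₂⟩ : ∃ κ₂ : F, κ₂ = Cfsg.hermForm 4 F q (y.1 *ᵥ z₂) w₀ := ⟨_, rfl⟩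
      rw [← hκ₁] at hx₁
      rw [← hκ₂] at hx₂
      have h6 : y.1 *ᵥ (κ₂ • z₁ - κ₁ • z₂) = 0 := by
        rw [Matrix.mulVec_sub, Matrix.mulVec_smul, Matrix.mulVec_smul, hx₁, hx₂]
        module
      have h7 : κ₂ • z₁ - κ₁ • z₂ = 0 := by
        have h8 := NU6_inv_mulVec y (κ₂ • z₁ - κ₁ • z₂)
        rw [h6, Matrix.mulVec_zero] at h8
        exact h8.symm
      have h9 := congrFun h7 i
      simp only [Pi.sub_apply, Pi.smul_apply, smul_eq_mul, hz₂i, mul_zero, sub_zero,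
        Pi.zero_apply] at h9
      have hκ₂0 : κ₂ = 0 := by
        rcases mul_eq_zero.mp h9 with h | h
        · exact h
        · exact absurd h hi
      rw [hκ₂0, zero_smul] at hx₂
      have h10 := NU6_inv_mulVec y z₂
      rw [hx₂, Matrix.mulVec_zero] at h10
      exact hz₂0 h10.symm
    apply Units.ext
    rw [h2, hζ1, one_smul]
  -- (6) a third isotropic vector
  obtain ⟨s, hs⟩ : ∃ s : F, s = (Cfsg.hermForm 4 F q w₀ v₀)⁻¹ := ⟨_, rfl⟩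
  have hs0 : s ≠ 0 := by
    rw [hs]
    exact inv_ne_zero hwv0
  have hsw1 : Cfsg.hermForm 4 F q (s • w₀) (s • w₀) = 0 := by
    rw [hf_smul_left, hf_smul_right, hw₀w₀]
    ring
  have hsw2 : Cfsg.hermForm 4 F q v₀ (s • w₀) = 1 := by
    rw [hf_smul_right, hs, inv_pow, ← hfvw, inv_mul_cancel₀ hvw0]
  obtain ⟨z₀, hz₀0, hz₀z₀, hz₀v, hz₀sw⟩ :=
    exists_iso_perp_hyp hF (by omega) v₀ (s • w₀) hv₀v₀ hsw1 hsw2
  have hz₀w : Cfsg.hermForm 4 F q z₀ w₀ = 0 := by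
    rw [hf_smul_right] at hz₀sw
    rcases mul_eq_zero.mp hz₀sw with h | h
    · exact absurd (pow_eq_zero_iff (herm_q_ne_zero hF) |>.mp h) hs0
    · exact h
  have hvz₀ : Cfsg.hermForm 4 F q v₀ z₀ = 0 := hf_eq_zero_symm hF 4 _ _ hz₀v
  have hwz₀ : Cfsg.hermForm 4 F q w₀ z₀ = 0 := hf_eq_zero_symm hF 4 _ _ hz₀w
  have hli : ∀ α β γ : F, α • v₀ + β • w₀ + γ • z₀ = 0 → α = 0 ∧ β = 0 ∧ γ = 0 := by
    intro α β γ h
    have h1 : Cfsg.hermForm 4 F q (α • v₀ + β • w₀ + γ • z₀) v₀ = 0 := by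
      rw [h, hf_zero_left]
    have h2 : Cfsg.hermForm 4 F q (α • v₀ + β • w₀ + γ • z₀) w₀ = 0 := by
      rw [h, hf_zero_left]
    rw [hf_add_left, hf_add_left, hf_smul_left, hf_smul_left, hf_smul_left, hv₀v₀, hz₀v] at h1
    rw [hf_add_left, hf_add_left, hf_smul_left, hf_smul_left, hf_smul_left, hw₀w₀, hz₀w] at h2
    have hβ : β = 0 := by
      have h3 : β * Cfsg.hermForm 4 F q w₀ v₀ = 0 := by linear_combination h1
      rcases mul_eq_zero.mp h3 with h' | h'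
      · exact h'
      · exact absurd h' hwv0
    have hα : α = 0 := by
      have h3 : α * Cfsg.hermForm 4 F q v₀ w₀ = 0 := by linear_combination h2
      rcases mul_eq_zero.mp h3 with h' | h'
      · exact h'
      · exact absurd h' hvw0
    refine ⟨hα, hβ, ?_⟩
    rw [hα, hβ, zero_smul, zero_smul, zero_add, zero_add] at h
    rcases smul_eq_zero.mp h with h' | h'
    · exact h'
    · exact absurd h' hz₀0
  have huu : Cfsg.hermForm 4 F q (v₀ + z₀) (v₀ + z₀) = 0 := by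
    rw [hf_add_left, hf_add_right hF, hf_add_right hF, hv₀v₀, hvz₀, hz₀v, hz₀z₀]
    ring
  obtain ⟨g, hgS, hg, hgi⟩ := NU6_tv hF μ hμ (v₀ + z₀) huu
  have hgv : g.1 *ᵥ v₀ = v₀ := by
    rw [hg, hf_add_right hF, hv₀v₀, hvz₀]
    module
  have hgw : g.1 *ᵥ w₀ = w₀ + a • v₀ + a • z₀ := by
    rw [hg, hf_add_right hF, hwz₀, add_zero, ← ha]
    module
  -- (7) the conjugate `c' = g c g⁻¹`
  obtain ⟨c', hc'def⟩ : ∃ c' : GL (Fin 4) F, c' = g * c * g⁻¹ := ⟨_, rfl⟩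
  have hc'R : c' ∈ R := by
    rw [hc'def]
    have hgN : g ∈ Subgroup.normalizer (R : Set (GL (Fin 4) F)) := hS hgS
    exact (Subgroup.mem_normalizer_iff.mp hgN c).mp hcR
  have hcc' : c * c' = c' * c := hcomm c' hc'R
  have hc'f : ∀ y, c'.1 *ᵥ y = g.1 *ᵥ (c.1 *ᵥ (g⁻¹.1 *ᵥ y)) := by
    intro y
    rw [hc'def, Units.val_mul, Units.val_mul, ← Matrix.mulVec_mulVec, ← Matrix.mulVec_mulVec]
  obtain ⟨m₁, hm₁⟩ : ∃ m₁ : Fin 4 → F, m₁ = g.1 *ᵥ (a⁻¹ • w₀) := ⟨_, rfl⟩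
  have hc'm : c'.1 *ᵥ m₁ = m₁ + v₀ := by
    rw [hc'f, hm₁, NU6_inv_mulVec, Matrix.mulVec_smul, hcw, Matrix.mulVec_smul,
      Matrix.mulVec_smul, Matrix.mulVec_add, Matrix.mulVec_smul, hgv, smul_add, smul_smul,
      inv_mul_cancel₀ ha0, one_smul]
  obtain ⟨p, hp⟩ : ∃ p : Fin 4 → F, p = g⁻¹.1 *ᵥ (c.1 *ᵥ m₁) := ⟨_, rfl⟩
  have hgp : g.1 *ᵥ p = c.1 *ᵥ m₁ := by rw [hp, NU6_mulVec_inv]
  have h8 : c.1 *ᵥ m₁ + c.1 *ᵥ v₀ = g.1 *ᵥ (c.1 *ᵥ p) := by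
    have h9 : (c * c').1 *ᵥ m₁ = (c' * c).1 *ᵥ m₁ := by rw [hcc']
    rw [Units.val_mul, Units.val_mul, ← Matrix.mulVec_mulVec, ← Matrix.mulVec_mulVec, hc'm,
      Matrix.mulVec_add, hc'f, ← hp] at h9
    exact h9
  obtain ⟨β, hβ⟩ : ∃ β : F, β = -(μ * Cfsg.hermForm 4 F q p w₀) := ⟨_, rfl⟩
  obtain ⟨α, hα⟩ : ∃ α : F, α = μ * Cfsg.hermForm 4 F q p v₀ -
      μ ^ 2 * Cfsg.hermForm 4 F q p w₀ * Cfsg.hermForm 4 F q w₀ v₀ := ⟨_, rfl⟩
  have hcp : c.1 *ᵥ p = p + β • w₀ + α • v₀ := by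
    rw [hcf, hβ, hα]
    module
  have h10 : c.1 *ᵥ v₀ = β • (w₀ + a • v₀ + a • z₀) + α • v₀ := by
    have h11 : c.1 *ᵥ m₁ + c.1 *ᵥ v₀ = c.1 *ᵥ m₁ + (β • (w₀ + a • v₀ + a • z₀) + α • v₀) := by
      rw [h8, hcp, Matrix.mulVec_add, Matrix.mulVec_add, Matrix.mulVec_smul, Matrix.mulVec_smul,
        hgp, hgw, hgv, add_assoc]
    exact add_left_cancel h11
  -- (8) comparison of coefficients
  rw [hcv] at h10
  have h12 : (1 + a ^ (q + 1) - β * a - α) • v₀ + (a ^ q - β) • w₀ + (-(β * a)) • z₀ = 0 := by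
    have h13 : (1 + a ^ (q + 1)) • v₀ + a ^ q • w₀ -
        (β • (w₀ + a • v₀ + a • z₀) + α • v₀) = 0 := sub_eq_zero.mpr h10
    rw [← h13]
    module
  obtain ⟨-, h14, h15⟩ := hli _ _ _ h12
  have hβ0 : β = 0 := by
    rcases mul_eq_zero.mp (neg_eq_zero.mp h15) with h | h
    · exact h
    · exact absurd h ha0
  rw [hβ0, sub_zero] at h14
  exact ha0 (pow_eq_zero_iff (herm_q_ne_zero hF) |>.mp h14)


end Cfsg.Agent.Lib.Helper23.SU4NU64
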