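import Mathlib
import Cfsg.Agent.Lib.Helper48.StB

set_option autoImplicit false

/-! # Piece UINJ of S2401 (helper23 for helper48): `π` is injective on `U`

Root-by-root filtration: the positive roots `(i,j)`, `i < j`, are coded by `j * n + i`; `h23_Ur X r`
is generated by the root elements of code `< r`. -/

namespace Cfsg.Agent.Lib.Helper48.St

open Cfsg.Agent.Lib.Helper48 Matrix

variable {K : Type*} [Field K] {G : Type*} [Group G] {n : ℕ}
variable {X : Fin n → Fin n → K → G}

/-- the subgroup generated by the positive root elements of code `< r` -/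
def h23_Ur (X : Fin n → Fin n → K → G) (r : ℕ) : Subgroup G :=
  Subgroup.closure {g | ∃ i j t, i < j ∧ j.val * n + i.val < r ∧ g = X i j t}

/-- unitriangular matrices supported on the roots of code `< r` -/
def h23_Q (r : ℕ) (M : Matrix (Fin n) (Fin n) K) : Prop :=
  (∀ a, M a a = 1) ∧ ∀ a b, a ≠ b → ¬ (a < b ∧ b.val * n + a.val < r) → M a b = 0

theorem h23_Q_one (r : ℕ) : h23_Q r (1 : Matrix (Fin n) (Fin n) K) :=
  ⟨fun a => Matrix.one_apply_eq a, fun _ _ hab _ => Matrix.one_apply_ne hab⟩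

theorem h23_Q_mul (r : ℕ) {M N : Matrix (Fin n) (Fin n) K} (hM : h23_Q r M) (hN : h23_Q r N) :
    h23_Q r (M * N) := by
  refine ⟨fun a => ?_, fun a b hab hr => ?_⟩
  · rw [Matrix.mul_apply, Finset.sum_eq_single a]
    · rw [hM.1, hN.1, mul_one]
    · intro c _ hca
      by_cases h1 : a < c ∧ c.val * n + a.val < r
      · have h2 : ¬ (c < a ∧ a.val * n + c.val < r) := fun h => absurd h.1 (not_lt.mpr h1.1.le)
        rw [hN.2 c a hca h2, mul_zero]
      · rw [hM.2 a c (Ne.symm hca) h1, zero_mul]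
    · intro h; exact absurd (Finset.mem_univ a) h
  · rw [Matrix.mul_apply]
    apply Finset.sum_eq_zero
    intro c _
    by_cases hca : c = a
    · subst hca
      rw [hN.2 c b hab hr, mul_zero]
    by_cases hcb : c = b
    · subst hcb
      rw [hM.2 a c hab hr, zero_mul]
    by_cases h1 : a < c ∧ c.val * n + a.val < r
    · by_cases h2 : c < b ∧ b.val * n + c.val < r
      · exfalso
        apply hr
        refine ⟨h1.1.trans h2.1, ?_⟩
        have : a.val < c.val := h1.1
        omega
      · rw [hN.2 c b hcb h2, mul_zero]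
    · rw [hM.2 a c (Ne.symm hca) h1, zero_mul]

theorem h23_Q_gen (r : ℕ) (i j : Fin n) (hij : i < j) (hr : j.val * n + i.val < r) (t : K) :
    h23_Q r ((1 : Matrix (Fin n) (Fin n) K) + Matrix.single i j t) := by
  refine ⟨fun a => ?_, fun a b hab h => ?_⟩
  · rw [Matrix.add_apply, Matrix.one_apply_eq, Matrix.single_apply, if_neg, add_zero]
    rintro ⟨rfl, rfl⟩
    exact lt_irrefl _ hij
  · rw [Matrix.add_apply, Matrix.one_apply_ne hab, Matrix.single_apply, if_neg, add_zero]
    rintro ⟨rfl, rfl⟩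
    exact h ⟨hij, hr⟩

theorem h23_Ur_Q (hX : StRel X) (π : G →* Matrix.SpecialLinearGroup (Fin n) K)
    (hπ : ∀ i j (hij : i ≠ j) t, π (X i j t) = Matrix.SpecialLinearGroup.transvection hij t)
    (r : ℕ) : ∀ u ∈ h23_Ur X r, h23_Q r (π u : Matrix (Fin n) (Fin n) K) := by
  intro u hu
  unfold h23_Ur at hu
  induction hu using Subgroup.closure_induction'' with
  | mem x hx =>
    obtain ⟨i, j, t, hij, hr, rfl⟩ := hx
    rw [hπ i j hij.ne t, Matrix.SpecialLinearGroup.transvection_coe]
    exact h23_Q_gen r i j hij hr t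
  | inv_mem x hx =>
    obtain ⟨i, j, t, hij, hr, rfl⟩ := hx
    rw [hX.inv i j hij.ne t, hπ i j hij.ne, Matrix.SpecialLinearGroup.transvection_coe]
    exact h23_Q_gen r i j hij hr _
  | one =>
    rw [map_one, Matrix.SpecialLinearGroup.coe_one]
    exact h23_Q_one r
  | mul x y _ _ hx hy =>
    rw [map_mul, Matrix.SpecialLinearGroup.coe_mul]
    exact h23_Q_mul r hx hy

theorem h23_Ur_norm (hX : StRel X) (r : ℕ) (i j : Fin n) (hij : i < j)
    (hr : j.val * n + i.val = r) (s : K) :
    ∀ u ∈ h23_Ur X r, X i j s * u * (X i j s)⁻¹ ∈ h23_Ur X r := by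
  intro u hu
  unfold h23_Ur at hu
  induction hu using Subgroup.closure_induction with
  | mem x hx =>
    obtain ⟨a, b, v, hab, hc, rfl⟩ := hx
    by_cases hbi : b = i
    · subst hbi
      rw [hX.cj' a b j hab.ne hij.ne (hab.trans hij).ne v s]
      refine mul_mem (Subgroup.subset_closure ⟨a, j, _, hab.trans hij, ?_, rfl⟩)
        (Subgroup.subset_closure ⟨a, b, v, hab, hc, rfl⟩)
      have : a.val < b.val := hab
      omega
    · have haj : a ≠ j := by
        rintro rfl
        have h1 : a.val < b.val := hab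
        have h2 : (a.val + 1) * n ≤ b.val * n := Nat.mul_le_mul_right n h1
        rw [Nat.succ_mul] at h2
        have := i.isLt
        omega
      rw [hX.cj0 i j a b hij.ne hab.ne (Ne.symm hbi) (Ne.symm haj) s v]
      exact Subgroup.subset_closure ⟨a, b, v, hab, hc, rfl⟩
  | one =>
    rw [mul_one, mul_inv_cancel]
    exact one_mem _
  | mul x y _ _ hx hy =>
    have e : X i j s * (x * y) * (X i j s)⁻¹ =
        (X i j s * x * (X i j s)⁻¹) * (X i j s * y * (X i j s)⁻¹) := by group
    rw [e]; exact mul_mem hx hy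
  | inv x _ hx =>
    have e : X i j s * x⁻¹ * (X i j s)⁻¹ = (X i j s * x * (X i j s)⁻¹)⁻¹ := by group
    rw [e]; exact inv_mem hx

theorem h23_Ur_decomp (hX : StRel X) (r : ℕ) (i j : Fin n) (hij : i < j)
    (hr : j.val * n + i.val = r) :
    ∀ u ∈ h23_Ur X (r + 1), ∃ s : K, ∃ u' ∈ h23_Ur X r, u = X i j s * u' := by
  have gen : ∀ (a b : Fin n) (v : K), a < b → b.val * n + a.val < r + 1 → ∀ y : G,
      (∃ s : K, ∃ u' ∈ h23_Ur X r, y = X i j s * u') →
      ∃ s : K, ∃ u' ∈ h23_Ur X r, X a b v * y = X i j s * u' := by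
    intro a b v hab hc y hy
    obtain ⟨s, u', hu', rfl⟩ := hy
    by_cases hlt : b.val * n + a.val < r
    · refine ⟨s, (X i j (-s) * X a b v * (X i j (-s))⁻¹) * u',
        mul_mem (h23_Ur_norm hX r i j hij hr (-s) _
          (Subgroup.subset_closure ⟨a, b, v, hab, hlt, rfl⟩)) hu', ?_⟩
      rw [← hX.inv i j hij.ne s]
      group
    · have heq : b.val * n + a.val = j.val * n + i.val := by omega
      have ha := a.isLt
      have hi := i.isLt
      have hb : b.val = j.val := by
        rcases lt_trichotomy b.val j.val with h | h | h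
        · have := Nat.mul_le_mul_right n (Nat.succ_le_of_lt h)
          rw [Nat.succ_mul] at this; omega
        · exact h
        · have := Nat.mul_le_mul_right n (Nat.succ_le_of_lt h)
          rw [Nat.succ_mul] at this; omega
      have ha2 : a.val = i.val := by rw [hb] at heq; omega
      have hb' : b = j := Fin.ext hb
      have ha' : a = i := Fin.ext ha2
      subst hb' ha'
      refine ⟨v + s, u', hu', ?_⟩
      rw [← mul_assoc, hX.add a b hab.ne]
  have key : ∀ x ∈ h23_Ur X (r + 1), ∀ y : G,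
      (∃ s : K, ∃ u' ∈ h23_Ur X r, y = X i j s * u') →
      ∃ s : K, ∃ u' ∈ h23_Ur X r, x * y = X i j s * u' := by
    intro x hx
    unfold h23_Ur at hx
    induction hx using Subgroup.closure_induction'' with
    | mem x hx =>
      obtain ⟨a, b, v, hab, hc, rfl⟩ := hx
      exact gen a b v hab hc
    | inv_mem x hx =>
      obtain ⟨a, b, v, hab, hc, rfl⟩ := hx
      rw [hX.inv a b hab.ne]
      exact gen a b (-v) hab hc
    | one => intro y hy; rw [one_mul]; exact hy
    | mul x y _ _ hx hy => intro z hz; rw [mul_assoc]; exact hx _ (hy z hz)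
  intro u hu
  have := key u hu 1 ⟨0, 1, one_mem _, by rw [hX.zero i j hij.ne, one_mul]⟩
  rwa [mul_one] at this

theorem h23_Ur_succ_of_no (r : ℕ) (h : ¬ ∃ i j : Fin n, i < j ∧ j.val * n + i.val = r) :
    h23_Ur X (r + 1) ≤ h23_Ur X r := by
  unfold h23_Ur
  apply Subgroup.closure_mono
  rintro _ ⟨i, j, t, hij, hc, rfl⟩
  refine ⟨i, j, t, hij, ?_, rfl⟩
  by_contra hcon
  exact h ⟨i, j, hij, by omega⟩

theorem h23_Ur_inj (hX : StRel X) (π : G →* Matrix.SpecialLinearGroup (Fin n) K)
    (hπ : ∀ i j (hij : i ≠ j) t, π (X i j t) = Matrix.SpecialLinearGroup.transvection hij t)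
    (r : ℕ) : ∀ u ∈ h23_Ur X r, π u = 1 → u = 1 := by
  induction r with
  | zero =>
    intro u hu _
    have h0 : h23_Ur X 0 = ⊥ := by
      unfold h23_Ur
      rw [Subgroup.closure_eq_bot_iff]
      rintro _ ⟨i, j, t, _, hc, rfl⟩
      exact absurd hc (Nat.not_lt_zero _)
    rw [h0] at hu
    exact Subgroup.mem_bot.mp hu
  | succ r ih =>
    intro u hu hπu
    by_cases h : ∃ i j : Fin n, i < j ∧ j.val * n + i.val = r
    · obtain ⟨i, j, hij, hr⟩ := h
      obtain ⟨s, u', hu', rfl⟩ := h23_Ur_decomp hX r i j hij hr u hu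
      have hQ := h23_Ur_Q hX π hπ r u' hu'
      have hs : s = 0 := by
        have h1 : (π (X i j s * u') : Matrix (Fin n) (Fin n) K) i j =
            (1 : Matrix (Fin n) (Fin n) K) i j := by rw [hπu]; rfl
        have h2 : (Matrix.single i j s * (π u' : Matrix (Fin n) (Fin n) K)) i j =
            s * (π u' : Matrix (Fin n) (Fin n) K) j j := Matrix.single_mul_apply_same s i j j _
        rw [map_mul, hπ i j hij.ne, Matrix.SpecialLinearGroup.coe_mul,
          Matrix.SpecialLinearGroup.transvection_coe, Matrix.add_mul, Matrix.one_mul,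
          Matrix.add_apply, Matrix.one_apply_ne hij.ne,
          hQ.2 i j hij.ne (fun h => absurd h.2 (by omega)), zero_add, h2, hQ.1 j, mul_one] at h1
        exact h1
      subst hs
      rw [hX.zero i j hij.ne, one_mul] at hπu ⊢
      exact ih u' hu' hπu
    · exact ih u (h23_Ur_succ_of_no r h hu) hπu

theorem h23_stU_le : stU X ≤ h23_Ur X (n * n) := by
  unfold stU h23_Ur
  apply Subgroup.closure_mono
  rintro _ ⟨i, j, t, hij, rfl⟩
  refine ⟨i, j, t, hij, ?_, rfl⟩
  have hj := j.isLt
  have hi := i.isLt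
  have h1 : (j.val + 1) * n ≤ n * n := Nat.mul_le_mul_right n hj
  rw [Nat.succ_mul] at h1
  omega

/-! ## Piece UINJ : `π` is injective on `U` -/
theorem stU_upper (hX : StRel X) (π : G →* Matrix.SpecialLinearGroup (Fin n) K)
    (hπ : ∀ i j (hij : i ≠ j) t, π (X i j t) = Matrix.SpecialLinearGroup.transvection hij t) :
    ∀ u ∈ stU X, (∀ a b : Fin n, b < a → (π u : Matrix (Fin n) (Fin n) K) a b = 0) ∧
      ∀ a, (π u : Matrix (Fin n) (Fin n) K) a a = 1 := by
  intro u hu
  have hQ := h23_Ur_Q hX π hπ (n * n) u (h23_stU_le hu)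
  exact ⟨fun a b hba => hQ.2 a b hba.ne' (fun h => absurd h.1 (not_lt.mpr hba.le)), hQ.1⟩

theorem stU_inj (hX : StRel X) (π : G →* Matrix.SpecialLinearGroup (Fin n) K)
    (hπ : ∀ i j (hij : i ≠ j) t, π (X i j t) = Matrix.SpecialLinearGroup.transvection hij t) :
    ∀ u ∈ stU X, π u = 1 → u = 1 :=
  fun u hu => h23_Ur_inj hX π hπ (n * n) u (h23_stU_le hu)

end Cfsg.Agent.Lib.Helper48.St
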