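import Mathlib
import Cfsg.Agent.Lib.Helper53.SUBasic
import Cfsg.Agent.Lib.Helper7.SUGenA
import Cfsg.Agent.Lib.Helper7.HermCount

/-! # S5172 piece FF (helper23 for helper91): field facts for `|K| = q ^ 2` -/

set_option autoImplicit false

namespace Cfsg.Agent.Lib.Helper23.SuFF

open Cfsg.Agent.Lib.Helper7

theorem ff_sigma {K : Type*} [Field K] [Fintype K] (q : ℕ) (hK : Fintype.card K = q ^ 2) :
    ∃ σ : K →+* K, (∀ x, σ x = x ^ q) ∧ (∀ x, σ (σ x) = x) ∧ (∃ θ : K, σ θ ≠ θ) ∧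
      (∃ ε : K, ε ≠ 0 ∧ σ ε = -ε) ∧ (∀ s : K, σ s = s → ∃ t : K, s = t + σ t) ∧
      (∀ s : K, σ s = s → ∃ a : K, a * σ a = s) := by
  have hq0 : q ≠ 0 := herm_q_ne_zero hK
  let σ : K →+* K :=
    { toFun := fun x => x ^ q
      map_one' := one_pow q
      map_mul' := fun x y => mul_pow x y q
      map_zero' := zero_pow hq0
      map_add' := fun x y => herm_add_pow hK x y }
  have hσ : ∀ x, σ x = x ^ q := fun x => rfl
  refine ⟨σ, hσ, fun x => ?_, ?_, ?_, fun s hs => ?_, fun s hs => ?_⟩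
  · rw [hσ, hσ]; exact herm_pow_pow hK x
  · obtain ⟨θ, hθ⟩ := Cfsg.Agent.Lib.Helper87.exists_not_fixed' hK
    exact ⟨θ, by rw [hσ]; exact hθ⟩
  · obtain ⟨c, hc0, hc⟩ := exists_trace_zero_ne hK
    exact ⟨c, hc0, by rw [hσ]; exact hc⟩
  · rw [hσ] at hs
    obtain ⟨μ, hμ⟩ := Cfsg.Agent.Lib.Helper53.AutPSU.exists_tr hK s hs
    exact ⟨μ, by rw [hσ]; exact hμ.symm⟩
  · by_cases hs0 : s = 0
    · exact ⟨0, by rw [hs0, zero_mul]⟩
    · rw [hσ] at hs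
      obtain ⟨t, _, ht⟩ := herm_norm_surj hK s hs0 hs
      exact ⟨t, by rw [hσ, ← pow_succ', ht]⟩

end Cfsg.Agent.Lib.Helper23.SuFF
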