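import Mathlib
import Cfsg.Prelude.Def_GeometricClasses
import Cfsg.Agent.Lib.Helper97.Transv
import Cfsg.Agent.Lib.Helper97.TransvM
import Cfsg.Agent.Lib.Helper71.TP0
import Cfsg.Agent.Lib.Helper71.TP1

/-! # S5637 pieces NE and R1IV (helper23 for helper71) -/

set_option autoImplicit false

namespace Cfsg.Agent.Lib.Helper23.TPNE

open Matrix Cfsg.Agent.Lib.Helper71.TP Cfsg.Agent.Lib.Helper97
open scoped Kronecker

variable {a b : ℕ} {F : Type*} [Field F]

/-- NE -/
theorem exists_non_eigen (α : Matrix (Fin a) (Fin a) F)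
    (hns : ∀ c : F, α ≠ c • (1 : Matrix (Fin a) (Fin a) F)) :
    ∃ u : Fin a → F, ∀ c : F, α *ᵥ u ≠ c • u := by
  classical
  by_contra hcon
  push Not at hcon
  choose c hc using hcon
  have hent : ∀ i j, α i j = if i = j then c (Pi.single j 1) else 0 := by
    intro i j
    have h := congrFun (hc (Pi.single j 1)) i
    rw [Matrix.mulVec_single_one] at h
    simp only [Pi.smul_apply, Pi.single_apply, smul_eq_mul, mul_ite, mul_one, mul_zero] at h
    exact h
  have heq : ∀ i j, c (Pi.single i 1) = c (Pi.single j 1) := by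
    intro i j
    by_cases hij : i = j
    · rw [hij]
    have h := hc (Pi.single i 1 + Pi.single j 1)
    rw [Matrix.mulVec_add, Matrix.mulVec_single_one, Matrix.mulVec_single_one] at h
    have hi := congrFun h i
    have hj := congrFun h j
    simp only [Pi.add_apply, Pi.smul_apply, Pi.single_apply, smul_eq_mul, Matrix.col_apply,
      hent, if_true, if_neg hij, if_neg (Ne.symm hij), add_zero, zero_add, mul_one] at hi hj
    rw [hi, hj]
  rcases isEmpty_or_nonempty (Fin a) with he | ⟨⟨i0⟩⟩
  · exact hns 0 (by ext i; exact isEmptyElim i)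
  · apply hns (c (Pi.single i0 1))
    ext i j
    rw [hent, Matrix.smul_apply, Matrix.one_apply, smul_eq_mul]
    by_cases hij : i = j
    · rw [if_pos hij, if_pos hij, mul_one, heq j i0]
    · rw [if_neg hij, if_neg hij, mul_zero]

/-- R1IV -/
theorem exists_two_units [Fintype F] (h2 : (2 : F) = 0) (hF : Fintype.card F ≠ 2) :
    ∃ l m : F, l ≠ 0 ∧ m ≠ 0 ∧ l ^ 2 ≠ 1 ∧ m ^ 2 ≠ 1 ∧ l ^ 2 ≠ m ^ 2 := by
  classical
  have hex : ∃ l : F, l ≠ 0 ∧ l ≠ 1 := by
    by_contra hcon
    push Not at hcon
    apply hF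
    have h1 : Fintype.card F ≤ 2 := by
      have hsub : (Finset.univ : Finset F) ⊆ {0, 1} := by
        intro x _
        by_cases hx : x = 0
        · simp [hx]
        · simp [hcon x hx]
      calc Fintype.card F = (Finset.univ : Finset F).card := Finset.card_univ.symm
        _ ≤ ({0, 1} : Finset F).card := Finset.card_le_card hsub
        _ ≤ 2 := Finset.card_le_two
    have h3 : 1 < Fintype.card F := Fintype.one_lt_card
    omega
  obtain ⟨l, hl0, hl1⟩ := hex
  have hsq : ∀ x y : F, x ^ 2 = y ^ 2 → x = y := by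
    intro x y h
    have h3 : (x - y) ^ 2 = 0 := by
      have h4 : (x - y) ^ 2 = x ^ 2 + y ^ 2 - 2 * (x * y) := by ring
      rw [h4, h2, h, zero_mul, sub_zero, ← two_mul, h2, zero_mul]
    exact sub_eq_zero.mp ((pow_eq_zero_iff two_ne_zero).mp h3)
  have h11 : (1 : F) + 1 = 0 := by rw [one_add_one_eq_two, h2]
  refine ⟨l, l + 1, hl0, ?_, ?_, ?_, ?_⟩
  · intro h
    apply hl1
    linear_combination h - h11
  · intro h
    exact hl1 (hsq l 1 (by rw [h, one_pow]))
  · intro h
    have h5 := hsq (l + 1) 1 (by rw [h, one_pow])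
    exact hl0 (by linear_combination h5)
  · intro h
    have h5 := hsq l (l + 1) h
    exact one_ne_zero (by linear_combination (-1 : F) * h5)

end Cfsg.Agent.Lib.Helper23.TPNE
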