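import Mathlib
import Cfsg.Prelude.Def_GeometricClasses
import Cfsg.Agent.Lib.Helper97.Transv
import Cfsg.Agent.Lib.Helper97.TransvM
import Cfsg.Agent.Lib.Helper71.TP0
import Cfsg.Agent.Lib.Helper71.TP1

/-! # S5637 piece R1III (helper23 for helper71): the 2×2 case with torus elements -/

set_option autoImplicit false

namespace Cfsg.Agent.Lib.Helper23.TPR1III

open Matrix Cfsg.Agent.Lib.Helper71.TP Cfsg.Agent.Lib.Helper97
open scoped Kronecker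

variable {a b : ℕ} {F : Type*} [Field F]

/-- conjugation by `diag(c, c⁻¹)` -/
theorem h23_torus (S : Submodule F (Matrix (Fin 2) (Fin 2) F))
    (hconj : ∀ A : GL (Fin 2) F, A.1.det = 1 → ∀ α ∈ S, A.1 * α * (A⁻¹ : GL (Fin 2) F).1 ∈ S)
    (β : Matrix (Fin 2) (Fin 2) F) (hβ : β ∈ S) (c : F) (hc : c ≠ 0) :
    ∃ γ ∈ S, γ 0 0 = β 0 0 ∧ γ 0 1 = c ^ 2 * β 0 1 ∧ γ 1 0 = (c⁻¹) ^ 2 * β 1 0 ∧
      γ 1 1 = β 1 1 := by
  have h1 : (!![c, 0; 0, c⁻¹] : Matrix (Fin 2) (Fin 2) F) * !![c⁻¹, 0; 0, c] = 1 := by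
    rw [Matrix.mul_fin_two, Matrix.one_fin_two]
    simp [hc]
  have h2 : (!![c⁻¹, 0; 0, c] : Matrix (Fin 2) (Fin 2) F) * !![c, 0; 0, c⁻¹] = 1 := by
    rw [Matrix.mul_fin_two, Matrix.one_fin_two]
    simp [hc]
  have hdet : (!![c, 0; 0, c⁻¹] : Matrix (Fin 2) (Fin 2) F).det = 1 := by
    rw [Matrix.det_fin_two_of]
    simp [hc]
  have h := hconj ⟨!![c, 0; 0, c⁻¹], !![c⁻¹, 0; 0, c], h1, h2⟩ hdet β hβ
  refine ⟨_, h, ?_, ?_, ?_, ?_⟩
  · show (!![c, 0; 0, c⁻¹] * β * !![c⁻¹, 0; 0, c]) 0 0 = _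
    rw [Matrix.mul_apply, Fin.sum_univ_two, Matrix.mul_apply, Matrix.mul_apply,
      Fin.sum_univ_two, Fin.sum_univ_two]
    simp
    field_simp
  · show (!![c, 0; 0, c⁻¹] * β * !![c⁻¹, 0; 0, c]) 0 1 = _
    rw [Matrix.mul_apply, Fin.sum_univ_two, Matrix.mul_apply, Matrix.mul_apply,
      Fin.sum_univ_two, Fin.sum_univ_two]
    simp
    ring
  · show (!![c, 0; 0, c⁻¹] * β * !![c⁻¹, 0; 0, c]) 1 0 = _
    rw [Matrix.mul_apply, Fin.sum_univ_two, Matrix.mul_apply, Matrix.mul_apply,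
      Fin.sum_univ_two, Fin.sum_univ_two]
    simp
    ring
  · show (!![c, 0; 0, c⁻¹] * β * !![c⁻¹, 0; 0, c]) 1 1 = _
    rw [Matrix.mul_apply, Fin.sum_univ_two, Matrix.mul_apply, Matrix.mul_apply,
      Fin.sum_univ_two, Fin.sum_univ_two]
    simp
    field_simp

theorem h23_lemB (S : Submodule F (Matrix (Fin 2) (Fin 2) F))
    (hconj : ∀ A : GL (Fin 2) F, A.1.det = 1 → ∀ α ∈ S, A.1 * α * (A⁻¹ : GL (Fin 2) F).1 ∈ S)
    (β : Matrix (Fin 2) (Fin 2) F) (hβ : β ∈ S) (h10 : β 1 0 = 0) (h01 : β 0 1 ≠ 0)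
    (l : F) (hl : l ≠ 0) (hl1 : l ^ 2 ≠ 1) :
    vecMulVec (Pi.single (0 : Fin 2) (1 : F)) (Pi.single (1 : Fin 2) (1 : F)) ∈ S := by
  obtain ⟨γ, hγ, g00, g01, g10, g11⟩ := h23_torus S hconj β hβ l hl
  have hX : γ - β ∈ S := S.sub_mem hγ hβ
  have hk : (l ^ 2 - 1) * β 0 1 ≠ 0 := mul_ne_zero (sub_ne_zero.mpr hl1) h01
  have hE : vecMulVec (Pi.single (0 : Fin 2) (1 : F)) (Pi.single (1 : Fin 2) (1 : F)) =
      ((l ^ 2 - 1) * β 0 1)⁻¹ • (γ - β) := by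
    ext i j
    rw [Matrix.smul_apply, Matrix.sub_apply, smul_eq_mul, Matrix.vecMulVec_apply]
    fin_cases i <;> fin_cases j
    · simp [g00]
    · simp only [Fin.zero_eta, Fin.mk_one, Pi.single_eq_same, mul_one]
      rw [g01]
      field_simp
    · simp [g10, h10]
    · simp [g11]
  rw [hE]
  exact S.smul_mem _ hX

theorem h23_lemA (S : Submodule F (Matrix (Fin 2) (Fin 2) F))
    (hconj : ∀ A : GL (Fin 2) F, A.1.det = 1 → ∀ α ∈ S, A.1 * α * (A⁻¹ : GL (Fin 2) F).1 ∈ S)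
    (β : Matrix (Fin 2) (Fin 2) F) (hβ : β ∈ S) (h10 : β 1 0 ≠ 0)
    (l m : F) (hl : l ≠ 0) (hm : m ≠ 0) (hl1 : l ^ 2 ≠ 1) (hm1 : m ^ 2 ≠ 1)
    (hlm : l ^ 2 ≠ m ^ 2) :
    vecMulVec (Pi.single (1 : Fin 2) (1 : F)) (Pi.single (0 : Fin 2) (1 : F)) ∈ S := by
  obtain ⟨γ, hγ, g00, g01, g10, g11⟩ := h23_torus S hconj β hβ l hl
  obtain ⟨δ, hδ, d00, d01, d10, d11⟩ := h23_torus S hconj β hβ m hm
  have hY : (m ^ 2 - 1) • (γ - β) - (l ^ 2 - 1) • (δ - β) ∈ S :=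
    S.sub_mem (S.smul_mem _ (S.sub_mem hγ hβ)) (S.smul_mem _ (S.sub_mem hδ hβ))
  have hκ : (m ^ 2 - 1) * ((l⁻¹) ^ 2 - 1) - (l ^ 2 - 1) * ((m⁻¹) ^ 2 - 1) ≠ 0 := by
    intro h0
    have h1 : ((m ^ 2 - 1) * ((l⁻¹) ^ 2 - 1) - (l ^ 2 - 1) * ((m⁻¹) ^ 2 - 1)) * (l ^ 2 * m ^ 2) =
        (m ^ 2 - 1) * (l ^ 2 - 1) * (l ^ 2 - m ^ 2) := by
      field_simp
      ring
    rw [h0, zero_mul] at h1
    exact mul_ne_zero (mul_ne_zero (sub_ne_zero.mpr hm1) (sub_ne_zero.mpr hl1))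
      (sub_ne_zero.mpr hlm) h1.symm
  have hk : ((m ^ 2 - 1) * ((l⁻¹) ^ 2 - 1) - (l ^ 2 - 1) * ((m⁻¹) ^ 2 - 1)) * β 1 0 ≠ 0 :=
    mul_ne_zero hκ h10
  have hE : vecMulVec (Pi.single (1 : Fin 2) (1 : F)) (Pi.single (0 : Fin 2) (1 : F)) =
      (((m ^ 2 - 1) * ((l⁻¹) ^ 2 - 1) - (l ^ 2 - 1) * ((m⁻¹) ^ 2 - 1)) * β 1 0)⁻¹ •
        ((m ^ 2 - 1) • (γ - β) - (l ^ 2 - 1) • (δ - β)) := by
    ext i j
    rw [Matrix.smul_apply, Matrix.sub_apply, Matrix.smul_apply, Matrix.smul_apply,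
      Matrix.sub_apply, Matrix.sub_apply, smul_eq_mul, smul_eq_mul, smul_eq_mul,
      Matrix.vecMulVec_apply]
    fin_cases i <;> fin_cases j
    · simp [g00, d00]
    · simp only [Fin.zero_eta, Fin.mk_one, g01, d01]
      simp
      right
      ring
    · simp only [Fin.zero_eta, Fin.mk_one, Pi.single_eq_same, mul_one, g10, d10]
      rw [eq_comm, inv_mul_eq_one₀ hk]
      ring
    · simp [g11, d11]
  rw [hE]
  exact S.smul_mem _ hY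

/-- R1III -/
theorem rank_one_of_two (S : Submodule F (Matrix (Fin 2) (Fin 2) F))
    (hconj : ∀ A : GL (Fin 2) F, A.1.det = 1 → ∀ α ∈ S, A.1 * α * (A⁻¹ : GL (Fin 2) F).1 ∈ S)
    (α : Matrix (Fin 2) (Fin 2) F) (hα : α ∈ S)
    (hns : ∀ c : F, α ≠ c • (1 : Matrix (Fin 2) (Fin 2) F))
    (l m : F) (hl : l ≠ 0) (hm : m ≠ 0) (hl1 : l ^ 2 ≠ 1) (hm1 : m ^ 2 ≠ 1) (hlm : l ^ 2 ≠ m ^ 2) :
    ∃ u' φ : Fin 2 → F, u' ≠ 0 ∧ φ ≠ 0 ∧ φ ⬝ᵥ u' = 0 ∧ vecMulVec u' φ ∈ S := by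
  have he0 : (Pi.single (0 : Fin 2) (1 : F) : Fin 2 → F) ≠ 0 := fun h =>
    one_ne_zero (α := F) (by simpa using congrFun h 0)
  have he1 : (Pi.single (1 : Fin 2) (1 : F) : Fin 2 → F) ≠ 0 := fun h =>
    one_ne_zero (α := F) (by simpa using congrFun h 1)
  by_cases hs : α 1 0 = 0
  · by_cases hr : α 0 1 = 0
    · -- diagonal, non-scalar: conjugate by a unipotent
      have hpt : α 1 1 - α 0 0 ≠ 0 := by
        intro h
        apply hns (α 0 0)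
        ext i j
        fin_cases i <;> fin_cases j
        · simp
        · simpa using hr
        · simpa using hs
        · simp only [Fin.mk_one, Matrix.smul_apply, Matrix.one_apply_eq, smul_eq_mul, mul_one]
          exact sub_eq_zero.mp h
      have h1 : (!![1, 1; 0, 1] : Matrix (Fin 2) (Fin 2) F) * !![1, -1; 0, 1] = 1 := by
        rw [Matrix.mul_fin_two, Matrix.one_fin_two]
        simp
      have h2 : (!![1, -1; 0, 1] : Matrix (Fin 2) (Fin 2) F) * !![1, 1; 0, 1] = 1 := by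
        rw [Matrix.mul_fin_two, Matrix.one_fin_two]
        simp
      have hdet : (!![1, 1; 0, 1] : Matrix (Fin 2) (Fin 2) F).det = 1 := by
        rw [Matrix.det_fin_two_of]
        simp
      have h := hconj ⟨!![1, 1; 0, 1], !![1, -1; 0, 1], h1, h2⟩ hdet α hα
      have hb10 : (!![1, 1; 0, 1] * α * !![1, -1; 0, 1] : Matrix (Fin 2) (Fin 2) F) 1 0 = 0 := by
        rw [Matrix.mul_apply, Fin.sum_univ_two, Matrix.mul_apply, Matrix.mul_apply,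
          Fin.sum_univ_two, Fin.sum_univ_two]
        simp [hs]
      have hb01 : (!![1, 1; 0, 1] * α * !![1, -1; 0, 1] : Matrix (Fin 2) (Fin 2) F) 0 1 ≠ 0 := by
        have e : (!![1, 1; 0, 1] * α * !![1, -1; 0, 1] : Matrix (Fin 2) (Fin 2) F) 0 1 =
            α 1 1 - α 0 0 := by
          rw [Matrix.mul_apply, Fin.sum_univ_two, Matrix.mul_apply, Matrix.mul_apply,
            Fin.sum_univ_two, Fin.sum_univ_two]
          simp [hs, hr]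
          ring
        rw [e]
        exact hpt
      exact ⟨_, _, he0, he1, by simp, h23_lemB S hconj _ h hb10 hb01 l hl hl1⟩
    · exact ⟨_, _, he0, he1, by simp, h23_lemB S hconj α hα hs hr l hl hl1⟩
  · exact ⟨_, _, he1, he0, by simp, h23_lemA S hconj α hα hs l m hl hm hl1 hm1 hlm⟩

end Cfsg.Agent.Lib.Helper23.TPR1III
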