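import Mathlib
import Cfsg.Prelude.Def_GeometricClasses
import Cfsg.Prelude.Def_ClassicalGeometry
import Cfsg.Prelude.Def_LieClassical
import Cfsg.Agent.Lib.Helper98.U84Defs
import Cfsg.Agent.Lib.Helper7.GUOrder

/-!
S5984 (project U84 of helper98), piece RK (helper23): an element of `GU` stabilising a pair of
complementary totally singular subspaces is never `μ + (rank one)` for `μ` of norm one.
-/

set_option autoImplicit false

namespace Cfsg.Agent.Lib.Helper98.U84

open Matrix Polynomial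

/-- nondegeneracy of the hermitian form in the second argument -/
theorem u84rk_nondeg {F : Type*} [Field F] {q n : ℕ} (hq : q ≠ 0) (v : Fin n → F)
    (h : ∀ x : Fin n → F, Cfsg.hermForm n F q x v = 0) : v = 0 := by
  classical
  funext i
  have h1 := h (Pi.single i 1)
  simp only [Cfsg.hermForm] at h1
  rw [Finset.sum_eq_single i] at h1
  · rw [Pi.single_eq_same, one_mul] at h1
    exact (pow_eq_zero_iff hq).mp h1
  · intro j _ hj
    rw [Pi.single_eq_of_ne hj, zero_mul]
  · intro hi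
    exact absurd (Finset.mem_univ i) hi

/-- if a form-preserving matrix is the scalar `μ` (of norm one) on a subspace `A` and preserves
a totally singular complement `B`, it is the scalar `μ` -/
theorem u84rk_zero_of_half {F : Type*} [Field F] [Fintype F] {q n : ℕ}
    (hF : Fintype.card F = q ^ 2)
    (A B : Submodule F (Fin n → F)) (hAB : ∀ x : Fin n → F, ∃ a ∈ A, ∃ b ∈ B, a + b = x)
    (hB : Cfsg.Geo.IsTotallySingularFor (Cfsg.hermForm n F q) B)
    (M : Matrix (Fin n) (Fin n) F)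
    (hpres : ∀ u v, Cfsg.hermForm n F q (M *ᵥ u) (M *ᵥ v) = Cfsg.hermForm n F q u v)
    (hMB : ∀ b ∈ B, M *ᵥ b ∈ B) (μ : F) (hμ : μ ^ (q + 1) = 1)
    (hA : ∀ a ∈ A, M *ᵥ a = μ • a) : ∀ x : Fin n → F, M *ᵥ x = μ • x := by
  have hq := Cfsg.Agent.Lib.Helper7.herm_q_ne_zero hF
  have hBz : ∀ b ∈ B, M *ᵥ b = μ • b := by
    intro b hb
    have hT : M *ᵥ b - μ • b = 0 := by
      apply u84rk_nondeg hq
      intro x
      obtain ⟨a, ha, b', hb', rfl⟩ := hAB x
      rw [Cfsg.Agent.Lib.Helper7.hf_add_left]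
      have h1 : Cfsg.hermForm n F q b' (M *ᵥ b - μ • b) = 0 :=
        hB b' hb' _ (B.sub_mem (hMB b hb) (B.smul_mem μ hb))
      have h2 : Cfsg.hermForm n F q a (M *ᵥ b - μ • b) = 0 := by
        have e1 := hpres a b
        rw [hA a ha, Cfsg.Agent.Lib.Helper7.hf_smul_left] at e1
        have e2 : M *ᵥ b = (M *ᵥ b - μ • b) + μ • b := (sub_add_cancel _ _).symm
        have e3 : Cfsg.hermForm n F q a (M *ᵥ b) =
            Cfsg.hermForm n F q a (M *ᵥ b - μ • b) + μ ^ q * Cfsg.hermForm n F q a b := by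
          conv_lhs => rw [e2]
          rw [Cfsg.Agent.Lib.Helper7.hf_add_right hF, Cfsg.Agent.Lib.Helper7.hf_smul_right]
        have e4 : μ ^ q * μ = 1 := by rw [← pow_succ]; exact hμ
        linear_combination (-1 : F) * e3 + μ ^ q * e1 - (Cfsg.hermForm n F q a (M *ᵥ b)) * e4
      rw [h2, h1, add_zero]
    exact sub_eq_zero.mp hT
  intro x
  obtain ⟨a, ha, b, hb, rfl⟩ := hAB x
  rw [Matrix.mulVec_add, hA a ha, hBz b hb, smul_add]

/-! ### U84-RK -/
theorem rank_ne_one {F : Type*} [Field F] [Fintype F] {q n m : ℕ} (hF : Fintype.card F = q ^ 2)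
    (hm : 2 ≤ m) (D : Fin 2 → Submodule F (Fin n → F)) (hD : Cfsg.Geo.IsMDecomposition m D)
    (hDs : ∀ i, Cfsg.Geo.IsTotallySingularFor (Cfsg.hermForm n F q) (D i))
    (y : GL (Fin n) F) (hyU : y ∈ Cfsg.GU n F q)
    (hyH : y ∈ Cfsg.Geo.decompositionStabilizer D) (μ : F) (hμ : μ ^ (q + 1) = 1) :
    ((y : Matrix (Fin n) (Fin n) F) - μ • (1 : Matrix (Fin n) (Fin n) F)).rank ≠ 1 := by
  classical
  intro hrank
  set T : Matrix (Fin n) (Fin n) F :=
    (y : Matrix (Fin n) (Fin n) F) - μ • (1 : Matrix (Fin n) (Fin n) F) with hT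
  have hTx : ∀ x : Fin n → F, T *ᵥ x = (y : Matrix (Fin n) (Fin n) F) *ᵥ x - μ • x := by
    intro x
    rw [hT, Matrix.sub_mulVec, Matrix.smul_mulVec, Matrix.one_mulVec]
  have hr : Module.finrank F (LinearMap.range T.mulVecLin) = 1 := hrank
  obtain ⟨v₀, hv₀, hall⟩ := finrank_eq_one_iff'.mp hr
  have hpres : ∀ u v, Cfsg.hermForm n F q ((y : Matrix (Fin n) (Fin n) F) *ᵥ u)
      ((y : Matrix (Fin n) (Fin n) F) *ᵥ v) = Cfsg.hermForm n F q u v := fun u v => hyU u v
  obtain ⟨σ, hσ⟩ := hyH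
  have hmap : ∀ i, ∀ u ∈ D i, (y : Matrix (Fin n) (Fin n) F) *ᵥ u ∈ D (σ i) := by
    intro i u hu
    rw [← hσ i]
    exact ⟨u, hu, by rw [Matrix.toLin'_apply]⟩
  have hdj : Disjoint (D 0) (D 1) := hD.indep.pairwiseDisjoint (by decide)
  have hdisj : ∀ x, x ∈ D 0 → x ∈ D 1 → x = 0 :=
    fun x h0 h1 => Submodule.disjoint_def.mp hdj x h0 h1
  have hsup : ∀ x : Fin n → F, ∃ a ∈ D 0, ∃ b ∈ D 1, a + b = x := by
    intro x
    have hle : iSup D ≤ D 0 ⊔ D 1 := iSup_le (fun i => by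
      fin_cases i
      · exact le_sup_left
      · exact le_sup_right)
    have hx : x ∈ D 0 ⊔ D 1 := hle (by rw [hD.iSup_eq_top]; exact Submodule.mem_top)
    exact Submodule.mem_sup.mp hx
  have hinj : ∀ u : Fin n → F, (y : Matrix (Fin n) (Fin n) F) *ᵥ u = 0 → u = 0 := by
    intro u hu
    have h1 : ((y⁻¹ : GL (Fin n) F) : Matrix (Fin n) (Fin n) F) *ᵥ
        ((y : Matrix (Fin n) (Fin n) F) *ᵥ u) = u := by
      rw [Matrix.mulVec_mulVec, ← Units.val_mul, inv_mul_cancel, Units.val_one,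
        Matrix.one_mulVec]
    rw [hu, Matrix.mulVec_zero] at h1
    exact h1.symm
  have hrange : ∀ x : Fin n → F, T *ᵥ x ∈ LinearMap.range T.mulVecLin := fun x => ⟨x, rfl⟩
  have hmult : ∀ x : Fin n → F, ∃ c : F, c • (v₀ : Fin n → F) = T *ᵥ x := by
    intro x
    obtain ⟨c, hc⟩ := hall ⟨T *ᵥ x, hrange x⟩
    exact ⟨c, by simpa using congrArg Subtype.val hc⟩
  have hv₀' : (v₀ : Fin n → F) ≠ 0 := fun h => hv₀ (Subtype.ext h)
  have hσ01 : σ 0 = 0 ∨ σ 0 = 1 := by
    generalize σ 0 = a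
    fin_cases a <;> simp
  rcases hσ01 with h0 | h0
  · have h1 : σ 1 = 1 := by
      have hne : σ 1 ≠ σ 0 := fun h => by simpa using σ.injective h
      rw [h0] at hne
      generalize σ 1 = a at hne
      fin_cases a <;> simp at hne ⊢
    have hm0 : ∀ b ∈ D 0, (y : Matrix (Fin n) (Fin n) F) *ᵥ b ∈ D 0 := by
      intro b hb
      have := hmap 0 b hb
      rwa [h0] at this
    have hm1 : ∀ b ∈ D 1, (y : Matrix (Fin n) (Fin n) F) *ᵥ b ∈ D 1 := by
      intro b hb
      have := hmap 1 b hb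
      rwa [h1] at this
    by_cases hU : ∀ u ∈ D 0, (y : Matrix (Fin n) (Fin n) F) *ᵥ u = μ • u
    · have hall0 := u84rk_zero_of_half hF (D 0) (D 1) hsup (hDs 1)
        (y : Matrix (Fin n) (Fin n) F) hpres hm1 μ hμ hU
      obtain ⟨x, hx⟩ := v₀.2
      apply hv₀'
      rw [← hx, Matrix.mulVecLin_apply, hTx, hall0 x, sub_self]
    · by_cases hW : ∀ w ∈ D 1, (y : Matrix (Fin n) (Fin n) F) *ᵥ w = μ • w
      · have hsup' : ∀ x : Fin n → F, ∃ a ∈ D 1, ∃ b ∈ D 0, a + b = x := by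
          intro x
          obtain ⟨a, ha, b, hb, hab⟩ := hsup x
          exact ⟨b, hb, a, ha, by rw [add_comm]; exact hab⟩
        have hall0 := u84rk_zero_of_half hF (D 1) (D 0) hsup' (hDs 0)
          (y : Matrix (Fin n) (Fin n) F) hpres hm0 μ hμ hW
        obtain ⟨x, hx⟩ := v₀.2
        apply hv₀'
        rw [← hx, Matrix.mulVecLin_apply, hTx, hall0 x, sub_self]
      · push Not at hU hW
        obtain ⟨u, hu, hune⟩ := hU
        obtain ⟨w, hw, hwne⟩ := hW
        have hTu : T *ᵥ u ∈ D 0 := by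
          rw [hTx]
          exact (D 0).sub_mem (hm0 u hu) ((D 0).smul_mem μ hu)
        have hTw : T *ᵥ w ∈ D 1 := by
          rw [hTx]
          exact (D 1).sub_mem (hm1 w hw) ((D 1).smul_mem μ hw)
        have hTu0 : T *ᵥ u ≠ 0 := by
          rw [hTx]
          exact sub_ne_zero.mpr hune
        have hTw0 : T *ᵥ w ≠ 0 := by
          rw [hTx]
          exact sub_ne_zero.mpr hwne
        obtain ⟨c₁, hc₁⟩ := hmult u
        obtain ⟨c₂, hc₂⟩ := hmult w
        have hc₁0 : c₁ ≠ 0 := by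
          rintro rfl
          rw [zero_smul] at hc₁
          exact hTu0 hc₁.symm
        have hc₂0 : c₂ ≠ 0 := by
          rintro rfl
          rw [zero_smul] at hc₂
          exact hTw0 hc₂.symm
        have hv0U : (v₀ : Fin n → F) ∈ D 0 := by
          have h5 : (v₀ : Fin n → F) = c₁⁻¹ • (T *ᵥ u) := by
            rw [← hc₁, smul_smul, inv_mul_cancel₀ hc₁0, one_smul]
          rw [h5]
          exact (D 0).smul_mem _ hTu
        have hv0W : (v₀ : Fin n → F) ∈ D 1 := by
          have h5 : (v₀ : Fin n → F) = c₂⁻¹ • (T *ᵥ w) := by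
            rw [← hc₂, smul_smul, inv_mul_cancel₀ hc₂0, one_smul]
          rw [h5]
          exact (D 1).smul_mem _ hTw
        exact hv₀' (hdisj _ hv0U hv0W)
  · have hker : ∀ u ∈ D 0, T *ᵥ u = 0 → u = 0 := by
      intro u hu hTu0
      rw [hTx, sub_eq_zero] at hTu0
      have h1 : (y : Matrix (Fin n) (Fin n) F) *ᵥ u ∈ D 1 := by
        have := hmap 0 u hu
        rwa [h0] at this
      have h2 : (y : Matrix (Fin n) (Fin n) F) *ᵥ u ∈ D 0 := by
        rw [hTu0]
        exact (D 0).smul_mem μ hu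
      exact hinj u (hdisj _ h2 h1)
    let f : ↥(D 0) →ₗ[F] ↥(LinearMap.range T.mulVecLin) :=
      (T.mulVecLin.rangeRestrict).comp (D 0).subtype
    have hf : Function.Injective f := by
      rw [← LinearMap.ker_eq_bot, LinearMap.ker_eq_bot']
      intro u hu
      have h3 : T *ᵥ (u : Fin n → F) = 0 := by
        have h4 := congrArg Subtype.val hu
        simpa [f] using h4
      exact Subtype.ext (hker u u.2 h3)
    have hle := LinearMap.finrank_le_finrank_of_injective hf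
    rw [hD.finrank_eq 0, hr] at hle
    omega

end Cfsg.Agent.Lib.Helper98.U84
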